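import Cfsg.Agent.Helper8.BSQ8Char

set_option autoImplicit false

namespace Cfsg.Agent.Helper8

open QuaternionGroup Cfsg.Agent.Helper6.BS

theorem bsq_q8_center : ∀ q : QuaternionGroup 2, (∀ r : QuaternionGroup 2, q * r = r * q) →
    q = 1 ∨ q = a 2 := by decide

/-- Brauer–Suzuki for `Q₈` Sylow 2-subgroups: if `O(G) = 1` then the centre has order two. -/
theorem bsq_center_card {G : Type*} [Group G] [Finite G] (S : Sylow 2 G)
    (e : (S : Subgroup G) ≃* QuaternionGroup 2)
    (hO : ∀ N : Subgroup G, N.Normal → Odd (Nat.card N) → N = ⊥) :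
    Nat.card (Subgroup.center G) = 2 := by
  classical
  haveI : Fact (Nat.Prime 2) := ⟨Nat.prime_two⟩
  obtain ⟨N, hN, hNodd, hNz⟩ := bsq_main S e
  have hNbot := hO N hN hNodd
  have hz2 : orderOf (bsqZ e) = 2 := bsqZ_order e
  have hzc : bsqZ e ∈ Subgroup.center G := by
    rw [Subgroup.mem_center_iff]
    intro g
    have h1 := hNz g
    rw [hNbot, Subgroup.mem_bot] at h1
    calc g * bsqZ e = (bsqZ e * g * (bsqZ e)⁻¹ * g⁻¹)⁻¹ * (bsqZ e * g) := by group
      _ = bsqZ e * g := by rw [h1]; group
  have hcen : ∀ c ∈ Subgroup.center G, c = 1 ∨ c = bsqZ e := by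
    intro c hc
    have hcc : ∀ g : G, g * c = c * g := Subgroup.mem_center_iff.mp hc
    have hc2 : ∃ k, orderOf c = 2 ^ k := by
      have ho : orderOf c ≠ 0 := (orderOf_pos c).ne'
      obtain ⟨k, r, hr, hkr⟩ := Nat.exists_eq_two_pow_mul_odd ho
      have hcr : orderOf (c ^ 2 ^ k) = r := by
        rw [orderOf_pow_of_dvd (by positivity) ⟨r, hkr⟩, hkr,
          Nat.mul_div_cancel_left r (by positivity)]
      have hbot : Subgroup.zpowers (c ^ 2 ^ k) = ⊥ := by
        apply hO
        · constructor
          rintro x hx g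
          have hcen' : c ^ 2 ^ k ∈ Subgroup.center G := Subgroup.pow_mem _ hc _
          have hxc : x ∈ Subgroup.center G := by
            obtain ⟨i, rfl⟩ := hx
            exact Subgroup.zpow_mem _ hcen' i
          have h5 : g * x * g⁻¹ = x := by
            rw [Subgroup.mem_center_iff.mp hxc g]
            group
          rw [h5]
          exact hx
        · rw [Nat.card_zpowers, hcr]
          exact hr
      have h1 : c ^ 2 ^ k = 1 := by
        have := Subgroup.mem_zpowers (c ^ 2 ^ k)
        rw [hbot, Subgroup.mem_bot] at this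
        exact this
      have h2 : orderOf c ∣ 2 ^ k := orderOf_dvd_of_pow_eq_one h1
      obtain ⟨j, -, hj⟩ := (Nat.dvd_prime_pow Nat.prime_two).mp h2
      exact ⟨j, hj⟩
    obtain ⟨k, hk⟩ := hc2
    have hp : IsPGroup 2 (Subgroup.zpowers c) :=
      IsPGroup.of_card (n := k) (by rw [Nat.card_zpowers, hk])
    obtain ⟨g, hg⟩ := bsq_conj_into S (Subgroup.zpowers c) hp
    have h3 : g * c * g⁻¹ ∈ (S : Subgroup G) := hg c (Subgroup.mem_zpowers c)
    have h4 : g * c * g⁻¹ = c := by
      rw [hcc g]
      group
    rw [h4] at h3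
    obtain ⟨q, hq⟩ := exists_of_mem e h3
    have hqc : ∀ r : QuaternionGroup 2, q * r = r * q := by
      intro r
      apply quatHom_injective e
      rw [map_mul, map_mul, hq]
      exact (hcc _).symm
    rcases bsq_q8_center q hqc with h | h
    · left
      rw [← hq, h, map_one]
    · right
      rw [← hq, h]
      rfl
  have hcz : Subgroup.center G = Subgroup.zpowers (bsqZ e) := by
    apply le_antisymm
    · intro c hc
      rcases hcen c hc with h | h
      · rw [h]
        exact Subgroup.one_mem _
      · rw [h]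
        exact Subgroup.mem_zpowers _
    · rw [Subgroup.zpowers_le]
      exact hzc
  rw [hcz, Nat.card_zpowers, hz2]

end Cfsg.Agent.Helper8
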