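import Cfsg.Agent.Helper8.CoxLower
import Cfsg.Prelude.Def_ChevStructure
set_option autoImplicit false

namespace Cfsg.Agent.Helper8.Cox

def B2Mn : ℕ := 0x1040000000000000401
def B2Mf (a b : ℕ) : ℕ := bget B2Mn (a * 8 + b)

def B2T1 : ℕ := 0x1
def B2P1 : ℕ := 0x0
def B2G1 : ℕ := 0x0
def B2D1 : ℕ := 0x0
def B2tb1 (v a : ℕ) : ℕ := bget B2T1 (v * 1 + a)
theorem B2up1 : upperOK 1 2 0 B2Mf B2tb1 (bget B2P1) (bget B2G1) B2D1 0 = true := by decide +kernel

def B2T2 : ℕ := 0x203030100020100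
def B2P2 : ℕ := 0x2010000
def B2G2 : ℕ := 0x1000100
def B2D2 : ℕ := 0x103
def B2tb2 (v a : ℕ) : ℕ := bget B2T2 (v * 2 + a)
theorem B2up2 : upperOK 2 4 1 B2Mf B2tb2 (bget B2P2) (bget B2G2) B2D2 1 = true := by decide +kernel

theorem B2_upper {G : Type*} [Group G] (s : ℕ → G) (hs : ∀ a < 2, s a * s a = 1)
    (hrel : ∀ a < 2, ∀ b < 2, (s a * s b) ^ B2Mf a b = 1) :
    Finite (Lv s 2) ∧ Nat.card (Lv s 2) ≤ 8 := by
  have h0 : Finite (Lv s 0) ∧ Nat.card (Lv s 0) ≤ 1 := by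
    rw [Lv_zero]; exact ⟨inferInstance, by rw [Subgroup.card_bot]⟩
  have h1 := upper_step (s := s) (j := 0) (fun a ha => hs a (by omega))
    (fun a ha b hb => hrel a (by omega) b (by omega)) (by norm_num) B2up1 h0
  have h2 := upper_step (s := s) (j := 1) (fun a ha => hs a (by omega))
    (fun a ha b hb => hrel a (by omega) b (by omega)) (by norm_num) B2up2 h1
  exact h2

theorem B2_tableOK : tableOK 2 4 B2tb2 = true := by decide +kernel
theorem B2_relOK : relOK 2 4 B2Mf B2tb2 = true := by decide +kernel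

theorem B2_orb0 : orbOK 2 4 B2tb2 3 1 0 4 0x3020100 0x2010000 0x1000100 0x3020100 = true := by decide +kernel
theorem B2_orb1 : orbOK 2 4 B2tb2 1 0 1 2 0x201 0x0 0x0 0x10000 = true := by decide +kernel

theorem B2_lower (σ : ℕ → Equiv.Perm (Fin 4))
    (hσ : ∀ a < 2, ∀ v : Fin 4, ((σ a v : Fin 4) : ℕ) = B2tb2 v a) :
    8 ≤ Nat.card (Lj σ 2 (2 ^ 2 - 1)) := by
  have h0 := orb_bound σ hσ B2_orb0
  have h1 := orb_bound σ hσ B2_orb1
  have hz : Nat.card (Lj σ 2 0) = 1 := by rw [Lj_zero]; exact Subgroup.card_bot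
  have e : (2 : ℕ) ^ 2 - 1 = 3 := by norm_num
  rw [e]
  omega

theorem B2_hM : ∀ a b : Fin 2, CoxeterMatrix.B 2 a b = B2Mf a b :=
  matOK_sound (by decide +kernel)

theorem B2_main : Nat.card (CoxeterMatrix.B 2).Group = 8 ∧
    Function.Injective (rho (CoxeterMatrix.B 2) B2Mf B2tb2 4 B2_hM B2_tableOK B2_relOK) :=
  card_and_injective (CoxeterMatrix.B 2) B2Mf B2tb2 4 8 B2_hM B2_tableOK B2_relOK
    (B2_upper (sN (CoxeterMatrix.B 2)) (fun _ ha => sN_sq _ ha)
      (fun _ ha _ hb => sN_rel _ B2Mf B2_hM ha hb))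
    (B2_lower _ (fun _ ha v => sig_apply B2_tableOK ha v))

theorem B2_cox : orderOf ((List.finRange 2).map (CoxeterMatrix.B 2).simple).prod = 4 :=
  cox_order (CoxeterMatrix.B 2) B2Mf B2tb2 4 B2_hM B2_tableOK B2_relOK B2_main.2 4 0x0
    (by decide +kernel)

def G2Mn : ℕ := 0x1060000000000000601
def G2Mf (a b : ℕ) : ℕ := bget G2Mn (a * 8 + b)

def G2T1 : ℕ := 0x1
def G2P1 : ℕ := 0x0
def G2G1 : ℕ := 0x0
def G2D1 : ℕ := 0x0
def G2tb1 (v a : ℕ) : ℕ := bget G2T1 (v * 1 + a)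
theorem G2up1 : upperOK 1 2 0 G2Mf G2tb1 (bget G2P1) (bget G2G1) G2D1 0 = true := by decide +kernel

def G2T2 : ℕ := 0x40505030204030100020100
def G2P2 : ℕ := 0x40302010000
def G2G2 : ℕ := 0x10001000100
def G2D2 : ℕ := 0x105
def G2tb2 (v a : ℕ) : ℕ := bget G2T2 (v * 2 + a)
theorem G2up2 : upperOK 2 6 1 G2Mf G2tb2 (bget G2P2) (bget G2G2) G2D2 1 = true := by decide +kernel

theorem G2_upper {G : Type*} [Group G] (s : ℕ → G) (hs : ∀ a < 2, s a * s a = 1)
    (hrel : ∀ a < 2, ∀ b < 2, (s a * s b) ^ G2Mf a b = 1) :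
    Finite (Lv s 2) ∧ Nat.card (Lv s 2) ≤ 12 := by
  have h0 : Finite (Lv s 0) ∧ Nat.card (Lv s 0) ≤ 1 := by
    rw [Lv_zero]; exact ⟨inferInstance, by rw [Subgroup.card_bot]⟩
  have h1 := upper_step (s := s) (j := 0) (fun a ha => hs a (by omega))
    (fun a ha b hb => hrel a (by omega) b (by omega)) (by norm_num) G2up1 h0
  have h2 := upper_step (s := s) (j := 1) (fun a ha => hs a (by omega))
    (fun a ha b hb => hrel a (by omega) b (by omega)) (by norm_num) G2up2 h1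
  exact h2

theorem G2_tableOK : tableOK 2 6 G2tb2 = true := by decide +kernel
theorem G2_relOK : relOK 2 6 G2Mf G2tb2 = true := by decide +kernel

theorem G2_orb0 : orbOK 2 6 G2tb2 3 1 0 6 0x50403020100 0x40302010000 0x10001000100 0x50403020100 = true := by decide +kernel
theorem G2_orb1 : orbOK 2 6 G2tb2 1 0 1 2 0x201 0x0 0x0 0x10000 = true := by decide +kernel

theorem G2_lower (σ : ℕ → Equiv.Perm (Fin 6))
    (hσ : ∀ a < 2, ∀ v : Fin 6, ((σ a v : Fin 6) : ℕ) = G2tb2 v a) :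
    12 ≤ Nat.card (Lj σ 2 (2 ^ 2 - 1)) := by
  have h0 := orb_bound σ hσ G2_orb0
  have h1 := orb_bound σ hσ G2_orb1
  have hz : Nat.card (Lj σ 2 0) = 1 := by rw [Lj_zero]; exact Subgroup.card_bot
  have e : (2 : ℕ) ^ 2 - 1 = 3 := by norm_num
  rw [e]
  omega

theorem G2_hM : ∀ a b : Fin 2, CoxeterMatrix.G₂ a b = G2Mf a b :=
  matOK_sound (by decide +kernel)

theorem G2_main : Nat.card (CoxeterMatrix.G₂).Group = 12 ∧
    Function.Injective (rho (CoxeterMatrix.G₂) G2Mf G2tb2 6 G2_hM G2_tableOK G2_relOK) :=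
  card_and_injective (CoxeterMatrix.G₂) G2Mf G2tb2 6 12 G2_hM G2_tableOK G2_relOK
    (G2_upper (sN (CoxeterMatrix.G₂)) (fun _ ha => sN_sq _ ha)
      (fun _ ha _ hb => sN_rel _ G2Mf G2_hM ha hb))
    (G2_lower _ (fun _ ha v => sig_apply G2_tableOK ha v))

theorem G2_cox : orderOf ((List.finRange 2).map (CoxeterMatrix.G₂).simple).prod = 6 :=
  cox_order (CoxeterMatrix.G₂) G2Mf G2tb2 6 G2_hM G2_tableOK G2_relOK G2_main.2 6 0x0
    (by decide +kernel)

def D4Mn : ℕ := 0x1020302000000000201030200000000030301030000000002020301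
def D4Mf (a b : ℕ) : ℕ := bget D4Mn (a * 8 + b)

def D4T1 : ℕ := 0x1
def D4P1 : ℕ := 0x0
def D4G1 : ℕ := 0x0
def D4D1 : ℕ := 0x0
def D4tb1 (v a : ℕ) : ℕ := bget D4T1 (v * 1 + a)
theorem D4up1 : upperOK 1 2 0 D4Mf D4tb1 (bget D4P1) (bget D4G1) D4D1 0 = true := by decide +kernel

def D4T2 : ℕ := 0x20100020100
def D4P2 : ℕ := 0x10000
def D4G2 : ℕ := 0x100
def D4D2 : ℕ := 0x10002
def D4tb2 (v a : ℕ) : ℕ := bget D4T2 (v * 2 + a)
theorem D4up2 : upperOK 2 3 1 D4Mf D4tb2 (bget D4P2) (bget D4G2) D4D2 1 = true := by decide +kernel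

def D4T3 : ℕ := 0x30302020103000201010000
def D4P3 : ℕ := 0x2010000
def D4G3 : ℕ := 0x10200
def D4D3 : ℕ := 0x20003010003020102000201
def D4tb3 (v a : ℕ) : ℕ := bget D4T3 (v * 3 + a)
theorem D4up3 : upperOK 3 4 2 D4Mf D4tb3 (bget D4P3) (bget D4G3) D4D3 4 = true := by decide +kernel

def D4T4 : ℕ := 0x607070707060506050306040402040503050302020401030001020101000000
def D4P4 : ℕ := 0x605030202010000
def D4G4 : ℕ := 0x301020200010300
def D4D4 : ℕ := 0x20307010307000307020106000106030005030204010204000204030003010003030102020301000301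
def D4tb4 (v a : ℕ) : ℕ := bget D4T4 (v * 4 + a)
theorem D4up4 : upperOK 4 8 3 D4Mf D4tb4 (bget D4P4) (bget D4G4) D4D4 14 = true := by decide +kernel

theorem D4_upper {G : Type*} [Group G] (s : ℕ → G) (hs : ∀ a < 4, s a * s a = 1)
    (hrel : ∀ a < 4, ∀ b < 4, (s a * s b) ^ D4Mf a b = 1) :
    Finite (Lv s 4) ∧ Nat.card (Lv s 4) ≤ 192 := by
  have h0 : Finite (Lv s 0) ∧ Nat.card (Lv s 0) ≤ 1 := by
    rw [Lv_zero]; exact ⟨inferInstance, by rw [Subgroup.card_bot]⟩
  have h1 := upper_step (s := s) (j := 0) (fun a ha => hs a (by omega))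
    (fun a ha b hb => hrel a (by omega) b (by omega)) (by norm_num) D4up1 h0
  have h2 := upper_step (s := s) (j := 1) (fun a ha => hs a (by omega))
    (fun a ha b hb => hrel a (by omega) b (by omega)) (by norm_num) D4up2 h1
  have h3 := upper_step (s := s) (j := 2) (fun a ha => hs a (by omega))
    (fun a ha b hb => hrel a (by omega) b (by omega)) (by norm_num) D4up3 h2
  have h4 := upper_step (s := s) (j := 3) (fun a ha => hs a (by omega))
    (fun a ha b hb => hrel a (by omega) b (by omega)) (by norm_num) D4up4 h3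
  exact h4

theorem D4_tableOK : tableOK 4 8 D4tb4 = true := by decide +kernel
theorem D4_relOK : relOK 4 8 D4Mf D4tb4 = true := by decide +kernel

theorem D4_orb0 : orbOK 4 8 D4tb4 15 7 0 8 0x706050403020100 0x605030202010000 0x301020200010300 0x706050403020100 = true := by decide +kernel
theorem D4_orb1 : orbOK 4 8 D4tb4 7 5 1 6 0x60504030201 0x40201010000 0x10202000100 0x5040302010000 = true := by decide +kernel
theorem D4_orb2 : orbOK 4 8 D4tb4 5 0 2 4 0x5040302 0x1000000 0x2020000 0x30201000000 = true := by decide +kernel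

theorem D4_lower (σ : ℕ → Equiv.Perm (Fin 8))
    (hσ : ∀ a < 4, ∀ v : Fin 8, ((σ a v : Fin 8) : ℕ) = D4tb4 v a) :
    192 ≤ Nat.card (Lj σ 4 (2 ^ 4 - 1)) := by
  have h0 := orb_bound σ hσ D4_orb0
  have h1 := orb_bound σ hσ D4_orb1
  have h2 := orb_bound σ hσ D4_orb2
  have hz : Nat.card (Lj σ 4 0) = 1 := by rw [Lj_zero]; exact Subgroup.card_bot
  have e : (2 : ℕ) ^ 4 - 1 = 15 := by norm_num
  rw [e]
  omega

theorem D4_hM : ∀ a b : Fin 4, Cfsg.Lie.coxeterD4 a b = D4Mf a b :=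
  matOK_sound (by decide +kernel)

theorem D4_main : Nat.card (Cfsg.Lie.coxeterD4).Group = 192 ∧
    Function.Injective (rho (Cfsg.Lie.coxeterD4) D4Mf D4tb4 8 D4_hM D4_tableOK D4_relOK) :=
  card_and_injective (Cfsg.Lie.coxeterD4) D4Mf D4tb4 8 192 D4_hM D4_tableOK D4_relOK
    (D4_upper (sN (Cfsg.Lie.coxeterD4)) (fun _ ha => sN_sq _ ha)
      (fun _ ha _ hb => sN_rel _ D4Mf D4_hM ha hb))
    (D4_lower _ (fun _ ha v => sig_apply D4_tableOK ha v))

theorem D4_cox : orderOf ((List.finRange 4).map (Cfsg.Lie.coxeterD4).simple).prod = 6 :=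
  cox_order (Cfsg.Lie.coxeterD4) D4Mf D4tb4 8 D4_hM D4_tableOK D4_relOK D4_main.2 6 0x0
    (by decide +kernel)

def F4Mn : ℕ := 0x1030202000000000301040200000000020401030000000002020301
def F4Mf (a b : ℕ) : ℕ := bget F4Mn (a * 8 + b)

def F4T1 : ℕ := 0x1
def F4P1 : ℕ := 0x0
def F4G1 : ℕ := 0x0
def F4D1 : ℕ := 0x0
def F4tb1 (v a : ℕ) : ℕ := bget F4T1 (v * 1 + a)
theorem F4up1 : upperOK 1 2 0 F4Mf F4tb1 (bget F4P1) (bget F4G1) F4D1 0 = true := by decide +kernel

def F4T2 : ℕ := 0x20100020100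
def F4P2 : ℕ := 0x10000
def F4G2 : ℕ := 0x100
def F4D2 : ℕ := 0x10002
def F4tb2 (v a : ℕ) : ℕ := bget F4T2 (v * 2 + a)
theorem F4up2 : upperOK 2 3 1 F4Mf F4tb2 (bget F4P2) (bget F4G2) F4D2 1 = true := by decide +kernel

def F4T3 : ℕ := 0x60707070506030604020405050302040103000201010000
def F4P3 : ℕ := 0x605030202010000
def F4G3 : ℕ := 0x201020200010200
def F4D3 : ℕ := 0x10207000207000106010204000204010003000201
def F4tb3 (v a : ℕ) : ℕ := bget F4T3 (v * 3 + a)
theorem F4up3 : upperOK 3 8 2 F4Mf F4tb3 (bget F4P3) (bget F4G3) F4D3 7 = true := by decide +kernel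

def F4T4 : ℕ := 0x1617171717151616151614151412151313101314111412101211110f0f130e12100f0d110d0c100e0e0b0f0d0a0e0c0c080d090b0c080a0a06090b070b0a06080507070909040805070305060406040303050204020103020002010101000000
def F4P4 : ℕ := 0x1615141210100f0e0d0c0b0a080806060504030302010000
def F4G4 : ℕ := 0x30201020200000101020203030203010302020001020300
def F4D4 : ℕ := 0x2031701031700031701021600021603011500011503001403021301021300021301001203001102001101001103010f02010f00020e03020d00020d01030c00030c00010b01020a00020a010309020009000108020307010307000307010205000205030004010004030103030202000202010301000301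
def F4tb4 (v a : ℕ) : ℕ := bget F4T4 (v * 4 + a)
theorem F4up4 : upperOK 4 24 3 F4Mf F4tb4 (bget F4P4) (bget F4G4) F4D4 40 = true := by decide +kernel

theorem F4_upper {G : Type*} [Group G] (s : ℕ → G) (hs : ∀ a < 4, s a * s a = 1)
    (hrel : ∀ a < 4, ∀ b < 4, (s a * s b) ^ F4Mf a b = 1) :
    Finite (Lv s 4) ∧ Nat.card (Lv s 4) ≤ 1152 := by
  have h0 : Finite (Lv s 0) ∧ Nat.card (Lv s 0) ≤ 1 := by
    rw [Lv_zero]; exact ⟨inferInstance, by rw [Subgroup.card_bot]⟩
  have h1 := upper_step (s := s) (j := 0) (fun a ha => hs a (by omega))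
    (fun a ha b hb => hrel a (by omega) b (by omega)) (by norm_num) F4up1 h0
  have h2 := upper_step (s := s) (j := 1) (fun a ha => hs a (by omega))
    (fun a ha b hb => hrel a (by omega) b (by omega)) (by norm_num) F4up2 h1
  have h3 := upper_step (s := s) (j := 2) (fun a ha => hs a (by omega))
    (fun a ha b hb => hrel a (by omega) b (by omega)) (by norm_num) F4up3 h2
  have h4 := upper_step (s := s) (j := 3) (fun a ha => hs a (by omega))
    (fun a ha b hb => hrel a (by omega) b (by omega)) (by norm_num) F4up4 h3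
  exact h4

theorem F4_tableOK : tableOK 4 24 F4tb4 = true := by decide +kernel
theorem F4_relOK : relOK 4 24 F4Mf F4tb4 = true := by decide +kernel

theorem F4_orb0 : orbOK 4 24 F4tb4 15 7 0 24 0x17161514131211100f0e0d0c0b0a09080706050403020100 0x1615141210100f0e0d0c0b0a080806060504030302010000 0x30201020200000101020203030203010302020001020300 0x17161514131211100f0e0d0c0b0a09080706050403020100 = true := by decide +kernel
theorem F4_orb1 : orbOK 4 24 F4tb4 7 3 1 8 0xa08060504030201 0x605030202010000 0x201020200010200 0x700060005040302010000 = true := by decide +kernel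
theorem F4_orb2 : orbOK 4 24 F4tb4 3 1 2 3 0x40302 0x10000 0x100 0x201000000 = true := by decide +kernel
theorem F4_orb3 : orbOK 4 24 F4tb4 1 0 3 2 0x403 0x0 0x0 0x100000000 = true := by decide +kernel

theorem F4_lower (σ : ℕ → Equiv.Perm (Fin 24))
    (hσ : ∀ a < 4, ∀ v : Fin 24, ((σ a v : Fin 24) : ℕ) = F4tb4 v a) :
    1152 ≤ Nat.card (Lj σ 4 (2 ^ 4 - 1)) := by
  have h0 := orb_bound σ hσ F4_orb0
  have h1 := orb_bound σ hσ F4_orb1
  have h2 := orb_bound σ hσ F4_orb2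
  have h3 := orb_bound σ hσ F4_orb3
  have hz : Nat.card (Lj σ 4 0) = 1 := by rw [Lj_zero]; exact Subgroup.card_bot
  have e : (2 : ℕ) ^ 4 - 1 = 15 := by norm_num
  rw [e]
  omega

theorem F4_hM : ∀ a b : Fin 4, CoxeterMatrix.F₄ a b = F4Mf a b :=
  matOK_sound (by decide +kernel)

theorem F4_main : Nat.card (CoxeterMatrix.F₄).Group = 1152 ∧
    Function.Injective (rho (CoxeterMatrix.F₄) F4Mf F4tb4 24 F4_hM F4_tableOK F4_relOK) :=
  card_and_injective (CoxeterMatrix.F₄) F4Mf F4tb4 24 1152 F4_hM F4_tableOK F4_relOK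
    (F4_upper (sN (CoxeterMatrix.F₄)) (fun _ ha => sN_sq _ ha)
      (fun _ ha _ hb => sN_rel _ F4Mf F4_hM ha hb))
    (F4_lower _ (fun _ ha v => sig_apply F4_tableOK ha v))

theorem F4_cox : orderOf ((List.finRange 4).map (CoxeterMatrix.F₄).simple).prod = 12 :=
  cox_order (CoxeterMatrix.F₄) F4Mf F4tb4 24 F4_hM F4_tableOK F4_relOK F4_main.2 12 0x0
    (by decide +kernel)

end Cfsg.Agent.Helper8.Cox
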