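import Cfsg.Agent.Helper8.CoxUpper
import Mathlib.GroupTheory.Coxeter.Basic
import Mathlib.GroupTheory.Perm.Basic
import Mathlib.GroupTheory.OrderOfElement
import Mathlib.GroupTheory.GroupAction.Basic
import Mathlib.Data.List.FinRange

set_option autoImplicit false

/-!
# Verified permutation representations of Coxeter groups (lower bounds)
-/

namespace Cfsg.Agent.Helper8.Cox

/-- The table maps `Fin k` to itself and every column is an involution. -/
def tableOK (n k : ℕ) (tb : ℕ → ℕ → ℕ) : Bool :=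
  allLt n (fun a => allLt k (fun v => Nat.blt (tb v a) k && Nat.beq (tb (tb v a) a) v))

theorem tableOK_range {n k : ℕ} {tb : ℕ → ℕ → ℕ} (h : tableOK n k tb = true) {a : ℕ}
    (ha : a < n) : ∀ v < k, tb v a < k := by
  intro v hv
  unfold tableOK at h
  have h1 := (allLt_iff _ _).mp ((allLt_iff _ _).mp h a ha) v hv
  rw [Bool.and_eq_true, Nat.blt_eq] at h1
  exact h1.1

theorem tableOK_inv {n k : ℕ} {tb : ℕ → ℕ → ℕ} (h : tableOK n k tb = true) {a : ℕ}
    (ha : a < n) : ∀ v < k, tb (tb v a) a = v := by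
  intro v hv
  unfold tableOK at h
  have h1 := (allLt_iff _ _).mp ((allLt_iff _ _).mp h a ha) v hv
  rw [Bool.and_eq_true] at h1
  exact Nat.eq_of_beq_eq_true h1.2

/-- Permutation of `Fin k` defined by an involutive function. -/
def mkPerm (k : ℕ) (f : ℕ → ℕ) (h1 : ∀ v < k, f v < k) (h2 : ∀ v < k, f (f v) = v) :
    Equiv.Perm (Fin k) where
  toFun v := ⟨f v, h1 v v.2⟩
  invFun v := ⟨f v, h1 v v.2⟩
  left_inv v := Fin.ext (h2 v v.2)
  right_inv v := Fin.ext (h2 v v.2)

/-- The permutations defined by the columns of the table. -/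
def sig (n k : ℕ) (tb : ℕ → ℕ → ℕ) (h : tableOK n k tb = true) (a : ℕ) : Equiv.Perm (Fin k) :=
  if ha : a < n then mkPerm k (fun v => tb v a) (tableOK_range h ha) (tableOK_inv h ha) else 1

theorem sig_apply {n k : ℕ} {tb : ℕ → ℕ → ℕ} (h : tableOK n k tb = true) {a : ℕ} (ha : a < n)
    (v : Fin k) : ((sig n k tb h a v : Fin k) : ℕ) = tb v a := by
  unfold sig; rw [dif_pos ha]; rfl

/-- The Coxeter relations hold for the table permutations. -/
def relOK (n k : ℕ) (M tb : ℕ → ℕ → ℕ) : Bool :=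
  allLt n (fun a => allLt n (fun b => allLt k (fun v =>
    Nat.beq ((fun w => tb (tb w b) a)^[M a b] v) v)))

theorem pow_apply_val {k : ℕ} (g : Equiv.Perm (Fin k)) (f : ℕ → ℕ)
    (hg : ∀ v : Fin k, ((g v : Fin k) : ℕ) = f v) :
    ∀ (m : ℕ) (v : Fin k), (((g ^ m) v : Fin k) : ℕ) = f^[m] v := by
  intro m
  induction m with
  | zero => intro v; simp
  | succ m ih =>
    intro v
    rw [pow_succ, Equiv.Perm.mul_apply, ih, hg, Function.iterate_succ_apply]

theorem rel_sig {n k : ℕ} {M tb : ℕ → ℕ → ℕ} (h : tableOK n k tb = true)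
    (hr : relOK n k M tb = true) {a b : ℕ} (ha : a < n) (hb : b < n) :
    (sig n k tb h a * sig n k tb h b) ^ M a b = 1 := by
  apply Equiv.ext
  intro v
  apply Fin.ext
  rw [pow_apply_val _ (fun w => tb (tb w b) a) (fun w => by
    rw [Equiv.Perm.mul_apply, sig_apply h ha, sig_apply h hb])]
  unfold relOK at hr
  have h1 := (allLt_iff _ _).mp ((allLt_iff _ _).mp ((allLt_iff _ _).mp hr a ha) b hb) v v.2
  rw [Equiv.Perm.one_apply]; exact Nat.eq_of_beq_eq_true h1

/-- The subgroup generated by the permutations `σ a` for `a < n` in the bit set `J`. -/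
def Lj {k : ℕ} (σ : ℕ → Equiv.Perm (Fin k)) (n J : ℕ) : Subgroup (Equiv.Perm (Fin k)) :=
  Subgroup.closure (σ '' {a | a < n ∧ J.testBit a = true})

theorem Lj_zero {k : ℕ} (σ : ℕ → Equiv.Perm (Fin k)) (n : ℕ) : Lj σ n 0 = ⊥ := by
  unfold Lj
  have : {a : ℕ | a < n ∧ Nat.testBit 0 a = true} = ∅ := by
    ext a; simp
  rw [this, Set.image_empty, Subgroup.closure_empty]

/-- Orbit certificate: `cnt` distinct points in the orbit of `x` under the generators in `J`,
where the generators in `J' ⊆ J` fix `x`. -/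
def orbOK (n k : ℕ) (tb : ℕ → ℕ → ℕ) (J J' x cnt O OP OG OI : ℕ) : Bool :=
  Nat.beq (bget O 0) x && Nat.blt x k &&
  allLt cnt (fun i => Nat.beq (bget OI (bget O i)) i &&
    (Nat.beq i 0 || (Nat.blt (bget OP i) i && Nat.blt (bget OG i) n && J.testBit (bget OG i) &&
      Nat.beq (tb (bget O (bget OP i)) (bget OG i)) (bget O i)))) &&
  allLt n (fun a => !(J'.testBit a) || (J.testBit a && Nat.beq (tb x a) x))

theorem orb_bound {n k : ℕ} {tb : ℕ → ℕ → ℕ} (σ : ℕ → Equiv.Perm (Fin k))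
    (hσ : ∀ a < n, ∀ v : Fin k, ((σ a v : Fin k) : ℕ) = tb v a)
    {J J' x cnt O OP OG OI : ℕ} (hc : orbOK n k tb J J' x cnt O OP OG OI = true) :
    cnt * Nat.card (Lj σ n J') ≤ Nat.card (Lj σ n J) := by
  unfold orbOK at hc
  simp only [Bool.and_eq_true] at hc
  obtain ⟨⟨⟨h0, hx⟩, ho⟩, hJ⟩ := hc
  have h0 := Nat.eq_of_beq_eq_true h0
  rw [Nat.blt_eq] at hx
  rw [allLt_iff] at ho hJ
  have hJ' : ∀ a < n, J'.testBit a = true → J.testBit a = true ∧ tb x a = x := by
    intro a ha hb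
    have h1 := hJ a ha
    rw [hb] at h1
    simp only [Bool.not_true, Bool.false_or, Bool.and_eq_true] at h1
    exact ⟨h1.1, Nat.eq_of_beq_eq_true h1.2⟩
  have hle : Lj σ n J' ≤ Lj σ n J := by
    unfold Lj
    apply Subgroup.closure_mono
    rintro _ ⟨a, ⟨ha, hb⟩, rfl⟩
    exact ⟨a, ⟨ha, (hJ' a ha hb).1⟩, rfl⟩
  have hfix : ∀ g ∈ Lj σ n J', g ⟨x, hx⟩ = ⟨x, hx⟩ := by
    have h1 : Lj σ n J' ≤ MulAction.stabilizer (Equiv.Perm (Fin k)) (⟨x, hx⟩ : Fin k) := by
      unfold Lj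
      rw [Subgroup.closure_le]
      rintro _ ⟨a, ⟨ha, hb⟩, rfl⟩
      rw [SetLike.mem_coe, MulAction.mem_stabilizer_iff, Equiv.Perm.smul_def]
      apply Fin.ext
      rw [hσ a ha]
      exact (hJ' a ha hb).2
    intro g hg
    have h2 := h1 hg
    rwa [MulAction.mem_stabilizer_iff, Equiv.Perm.smul_def] at h2
  have horb : ∀ i, i < cnt → ∃ g ∈ Lj σ n J, ((g ⟨x, hx⟩ : Fin k) : ℕ) = bget O i := by
    intro i
    induction i using Nat.strong_induction_on with
    | _ i ih =>
      intro hi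
      have h1 := ho i hi
      rw [Bool.and_eq_true, Bool.or_eq_true] at h1
      rcases h1.2 with h2 | h2
      · have h3 := Nat.eq_of_beq_eq_true h2
        subst h3
        exact ⟨1, Subgroup.one_mem _, by rw [Equiv.Perm.one_apply, h0]⟩
      · simp only [Bool.and_eq_true, Nat.blt_eq] at h2
        obtain ⟨⟨⟨hp, hg⟩, hJg⟩, ht⟩ := h2
        have ht := Nat.eq_of_beq_eq_true ht
        obtain ⟨g, hgL, hgx⟩ := ih _ hp (lt_trans hp hi)
        refine ⟨σ (bget OG i) * g, Subgroup.mul_mem _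
          (Subgroup.subset_closure ⟨_, ⟨hg, hJg⟩, rfl⟩) hgL, ?_⟩
        rw [Equiv.Perm.mul_apply, hσ _ hg, hgx, ht]
  choose g hg1 hg2 using horb
  let φ : Fin cnt × Lj σ n J' → Lj σ n J := fun p =>
    ⟨g p.1.1 p.1.2 * p.2.1, Subgroup.mul_mem _ (hg1 p.1.1 p.1.2) (hle p.2.2)⟩
  have hφ : Function.Injective φ := by
    rintro ⟨i, h⟩ ⟨i', h'⟩ e
    have e1 : g i.1 i.2 * h.1 = g i'.1 i'.2 * h'.1 := congrArg Subtype.val e
    have e2 : bget O i.1 = bget O i'.1 := by
      have e3 := congrArg (fun f : Equiv.Perm (Fin k) => ((f ⟨x, hx⟩ : Fin k) : ℕ)) e1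
      simp only [Equiv.Perm.mul_apply] at e3
      rw [hfix h.1 h.2, hfix h'.1 h'.2, hg2, hg2] at e3
      exact e3
    have e4 : i = i' := by
      apply Fin.ext
      have h1 := ho i.1 i.2
      have h2 := ho i'.1 i'.2
      rw [Bool.and_eq_true] at h1 h2
      have h3 := Nat.eq_of_beq_eq_true h1.1
      have h4 := Nat.eq_of_beq_eq_true h2.1
      rw [← h3, ← h4, e2]
    subst e4
    have e5 : h.1 = h'.1 := mul_left_cancel e1
    rw [Subtype.ext e5]
  have := Nat.card_le_card_of_injective φ hφ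
  rwa [Nat.card_prod, Nat.card_fin] at this

/-- The Coxeter element `s 0 * s 1 * ⋯ * s (n - 1)` acting on points. -/
def cstep (n : ℕ) (tb : ℕ → ℕ → ℕ) (v : ℕ) : ℕ := (List.range n).foldr (fun a acc => tb acc a) v

/-- The Coxeter element has order `h` on the `k` points. -/
def coxOK (n k : ℕ) (tb : ℕ → ℕ → ℕ) (h Wn : ℕ) : Bool :=
  Nat.blt 0 h && allLt k (fun v => Nat.beq ((cstep n tb)^[h] v) v) &&
  allLt h (fun d => Nat.beq d 0 || (Nat.blt (bget Wn d) k &&
    !Nat.beq ((cstep n tb)^[d] (bget Wn d)) (bget Wn d)))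

/-- The Coxeter matrix agrees with the byte-coded function `Mf`. -/
def matOK (n : ℕ) (M : Matrix (Fin n) (Fin n) ℕ) (Mf : ℕ → ℕ → ℕ) : Bool :=
  allLt n (fun a => allLt n (fun b =>
    if h : a < n ∧ b < n then Nat.beq (M ⟨a, h.1⟩ ⟨b, h.2⟩) (Mf a b) else true))

theorem matOK_sound {n : ℕ} {M : Matrix (Fin n) (Fin n) ℕ} {Mf : ℕ → ℕ → ℕ}
    (h : matOK n M Mf = true) : ∀ a b : Fin n, M a b = Mf a b := by
  intro a b
  have h1 := (allLt_iff _ _).mp ((allLt_iff _ _).mp h a a.2) b b.2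
  rw [dif_pos ⟨a.2, b.2⟩] at h1
  exact Nat.eq_of_beq_eq_true h1

section Glue

variable {n : ℕ} (M : CoxeterMatrix (Fin n))

/-- The simple reflections indexed by natural numbers. -/
noncomputable def sN (a : ℕ) : M.Group := if h : a < n then M.simple ⟨a, h⟩ else 1

theorem sN_of_lt {a : ℕ} (h : a < n) : sN M a = M.simple ⟨a, h⟩ := dif_pos h

theorem sN_sq {a : ℕ} (ha : a < n) : sN M a * sN M a = 1 := by
  rw [sN_of_lt M ha, ← M.toCoxeterSystem_simple]
  exact M.toCoxeterSystem.simple_mul_simple_self _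

theorem sN_rel (Mf : ℕ → ℕ → ℕ) (hM : ∀ a b : Fin n, M a b = Mf a b) {a b : ℕ} (ha : a < n)
    (hb : b < n) : (sN M a * sN M b) ^ Mf a b = 1 := by
  rw [sN_of_lt M ha, sN_of_lt M hb, ← hM ⟨a, ha⟩ ⟨b, hb⟩, ← M.toCoxeterSystem_simple]
  exact M.toCoxeterSystem.simple_mul_simple_pow _ _

theorem Lv_sN_top : Lv (sN M) n = ⊤ := by
  rw [eq_top_iff, ← M.toCoxeterSystem.subgroup_closure_range_simple]
  unfold Lv
  apply Subgroup.closure_mono
  rintro _ ⟨i, rfl⟩
  exact ⟨i.1, i.2, by rw [sN_of_lt M i.2, M.toCoxeterSystem_simple]⟩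

/-- The permutation representation defined by the table. -/
noncomputable def rho (Mf tb : ℕ → ℕ → ℕ) (k : ℕ) (hM : ∀ a b : Fin n, M a b = Mf a b)
    (ht : tableOK n k tb = true) (hr : relOK n k Mf tb = true) :
    M.Group →* Equiv.Perm (Fin k) :=
  M.toCoxeterSystem.lift ⟨fun i => sig n k tb ht i, fun i i' => by
    rw [hM i i']; exact rel_sig ht hr i.2 i'.2⟩

theorem rho_simple (Mf tb : ℕ → ℕ → ℕ) (k : ℕ) (hM : ∀ a b : Fin n, M a b = Mf a b)
    (ht : tableOK n k tb = true) (hr : relOK n k Mf tb = true) (i : Fin n) :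
    rho M Mf tb k hM ht hr (M.simple i) = sig n k tb ht i := by
  unfold rho
  rw [← M.toCoxeterSystem_simple]
  exact M.toCoxeterSystem.lift_apply_simple _ i

theorem card_and_injective (Mf tb : ℕ → ℕ → ℕ) (k N : ℕ) (hM : ∀ a b : Fin n, M a b = Mf a b)
    (ht : tableOK n k tb = true) (hr : relOK n k Mf tb = true)
    (hU : Finite (Lv (sN M) n) ∧ Nat.card (Lv (sN M) n) ≤ N)
    (hL : N ≤ Nat.card (Lj (sig n k tb ht) n (2 ^ n - 1))) :
    Nat.card M.Group = N ∧ Function.Injective (rho M Mf tb k hM ht hr) := by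
  have hfin : Finite M.Group := by
    have h1 := hU.1
    rw [Lv_sN_top] at h1
    exact Finite.of_equiv _ Subgroup.topEquiv.toEquiv
  have hup : Nat.card M.Group ≤ N := by
    have h1 := hU.2
    rwa [Lv_sN_top, Subgroup.card_top] at h1
  have hle : Lj (sig n k tb ht) n (2 ^ n - 1) ≤ (rho M Mf tb k hM ht hr).range := by
    unfold Lj
    rw [Subgroup.closure_le]
    rintro _ ⟨a, ⟨ha, _⟩, rfl⟩
    exact ⟨M.simple ⟨a, ha⟩, rho_simple M Mf tb k hM ht hr ⟨a, ha⟩⟩
  have h1 : N ≤ Nat.card (rho M Mf tb k hM ht hr).range :=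
    hL.trans (Subgroup.card_le_of_le hle)
  have hsurj : Function.Surjective (rho M Mf tb k hM ht hr).rangeRestrict :=
    MonoidHom.rangeRestrict_surjective _
  have hbij := hsurj.bijective_of_nat_card_le (hup.trans h1)
  have hinj : Function.Injective (rho M Mf tb k hM ht hr) := by
    intro x y hxy
    exact hbij.1 (Subtype.ext hxy)
  refine ⟨le_antisymm hup ?_, hinj⟩
  exact h1.trans (Nat.card_le_card_of_surjective _ hsurj)

theorem prod_sig_apply {k : ℕ} {tb : ℕ → ℕ → ℕ} (ht : tableOK n k tb = true) :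
    ∀ (l : List (Fin n)) (v : Fin k),
      ((((l.map (fun i : Fin n => sig n k tb ht i)).prod) v : Fin k) : ℕ) =
        (l.map (fun i : Fin n => (i : ℕ))).foldr (fun a acc => tb acc a) v := by
  intro l
  induction l with
  | nil => intro v; simp
  | cons i l ih =>
    intro v
    rw [List.map_cons, List.prod_cons, Equiv.Perm.mul_apply, sig_apply ht i.2, ih, List.map_cons,
      List.foldr_cons]

theorem cox_order (Mf tb : ℕ → ℕ → ℕ) (k : ℕ) (hM : ∀ a b : Fin n, M a b = Mf a b)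
    (ht : tableOK n k tb = true) (hr : relOK n k Mf tb = true)
    (hinj : Function.Injective (rho M Mf tb k hM ht hr)) (h Wn : ℕ)
    (hc : coxOK n k tb h Wn = true) :
    orderOf ((List.finRange n).map M.simple).prod = h := by
  rw [← orderOf_injective (rho M Mf tb k hM ht hr) hinj]
  have hval : ∀ v : Fin k,
      ((rho M Mf tb k hM ht hr ((List.finRange n).map M.simple).prod v : Fin k) : ℕ) =
        cstep n tb v := by
    intro v
    rw [map_list_prod, List.map_map]
    have e : (⇑(rho M Mf tb k hM ht hr) ∘ M.simple) = fun i : Fin n => sig n k tb ht i := by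
      funext i; exact rho_simple M Mf tb k hM ht hr i
    rw [e, prod_sig_apply ht, List.map_coe_finRange_eq_range]
    rfl
  unfold coxOK at hc
  simp only [Bool.and_eq_true] at hc
  obtain ⟨⟨hh, h1⟩, h2⟩ := hc
  rw [Nat.blt_eq] at hh
  rw [allLt_iff] at h1 h2
  rw [orderOf_eq_iff hh]
  constructor
  · apply Equiv.ext
    intro v
    apply Fin.ext
    rw [pow_apply_val _ _ hval, Equiv.Perm.one_apply]
    exact Nat.eq_of_beq_eq_true (h1 v v.2)
  · intro m hm hm0 hpow
    have h3 := h2 m hm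
    rw [Bool.or_eq_true] at h3
    rcases h3 with h3 | h3
    · have := Nat.eq_of_beq_eq_true h3
      omega
    · rw [Bool.and_eq_true, Nat.blt_eq] at h3
      obtain ⟨hw, hne⟩ := h3
      have h4 := pow_apply_val _ _ hval m ⟨bget Wn m, hw⟩
      rw [hpow, Equiv.Perm.one_apply] at h4
      rw [← h4] at hne
      simp at hne

end Glue

end Cfsg.Agent.Helper8.Cox
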