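import Mathlib.Data.Nat.Bitwise
import Mathlib.Algebra.Group.Subgroup.Basic
import Mathlib.SetTheory.Cardinal.Finite
import Mathlib.Tactic

set_option autoImplicit false

/-!
# Verified coset enumeration (upper bounds)

A kernel-checkable certificate that a subgroup `H` has at most `k` cosets in the subgroup
generated by involutions `s 0, …, s (n - 1)` satisfying Coxeter-type relations.
-/

namespace Cfsg.Agent.Helper8.Cox

/-- The `i`-th byte of the natural number `X`. -/
def bget (X i : ℕ) : ℕ := (X >>> (8 * i)) % 256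

/-- `f i` holds for all `i < k`. -/
def allLt : ℕ → (ℕ → Bool) → Bool
  | 0, _ => true
  | i + 1, f => f i && allLt i f

theorem allLt_iff (k : ℕ) (f : ℕ → Bool) : allLt k f = true ↔ ∀ i < k, f i = true := by
  induction k with
  | zero => simp [allLt]
  | succ k ih =>
    rw [allLt, Bool.and_eq_true, ih]
    constructor
    · rintro ⟨h1, h2⟩ i hi
      rcases Nat.lt_succ_iff_lt_or_eq.mp hi with h | rfl
      · exact h2 i h
      · exact h1
    · intro h
      exact ⟨h k (Nat.lt_succ_self k), fun i hi => h i (Nat.lt_succ_of_lt hi)⟩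

/-- Walk `r` known edges from `v` with letters `a, b, a, …`. -/
def walk (tb : ℕ → ℕ → ℕ) (n K : ℕ) : ℕ → ℕ → ℕ → ℕ → Option ℕ
  | 0, v, _, _ => some v
  | r + 1, v, a, b => if K.testBit (v * n + a) then walk tb n K r (tb v a) b a else none

/-- Mark the tree edges as known. -/
def treeK (tb : ℕ → ℕ → ℕ) (par gen : ℕ → ℕ) (n : ℕ) : ℕ → ℕ → ℕ → Option ℕ
  | 0, _, K => some K
  | c + 1, v, K =>
    if Nat.blt (par v) v && Nat.blt (gen v) n && Nat.beq (tb (par v) (gen v)) v &&
        Nat.beq (tb v (gen v)) (par v) then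
      treeK tb par gen n c (v + 1) (K ||| 2 ^ (par v * n + gen v) ||| 2 ^ (v * n + gen v))
    else none

/-- Process the relator deductions stored in the byte array `D`. -/
def dedK (M tb : ℕ → ℕ → ℕ) (n D : ℕ) : ℕ → ℕ → ℕ → Option ℕ
  | 0, _, K => some K
  | c + 1, i, K =>
    if Nat.blt (bget D (3 * i + 1)) n && Nat.blt (bget D (3 * i + 2)) n &&
        Nat.blt 0 (M (bget D (3 * i + 2)) (bget D (3 * i + 1))) then
      match walk tb n K (2 * M (bget D (3 * i + 2)) (bget D (3 * i + 1)) - 1) (bget D (3 * i))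
          (bget D (3 * i + 1)) (bget D (3 * i + 2)) with
      | some u =>
        if Nat.beq (tb u (bget D (3 * i + 2))) (bget D (3 * i)) &&
            Nat.beq (tb (bget D (3 * i)) (bget D (3 * i + 2))) u then
          dedK M tb n D c (i + 1)
            (K ||| 2 ^ (u * n + bget D (3 * i + 2)) |||
              2 ^ (bget D (3 * i) * n + bget D (3 * i + 2)))
        else none
      | none => none
    else none

/-- The complete certificate check for one level. -/
def upperOK (n k j0 : ℕ) (M tb : ℕ → ℕ → ℕ) (par gen : ℕ → ℕ) (D cnt : ℕ) : Bool :=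
  Nat.ble j0 n && allLt j0 (fun a => Nat.beq (tb 0 a) 0) &&
  allLt k (fun v => allLt n (fun a => Nat.blt (tb v a) k)) &&
  (match treeK tb par gen n (k - 1) 1 (2 ^ j0 - 1) with
   | some K1 => (match dedK M tb n D cnt 0 K1 with
      | some K2 => Nat.beq K2 (2 ^ (k * n) - 1)
      | none => false)
   | none => false)

section Upper

variable {G : Type*} [Group G]

/-- Coset representatives along the tree. -/
noncomputable def crep (s : ℕ → G) (par gen : ℕ → ℕ) : ℕ → G
  | v => if _h : par v < v then s (gen v) * crep s par gen (par v) else 1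
termination_by v => v

theorem crep_of_lt (s : ℕ → G) (par gen : ℕ → ℕ) {v : ℕ} (h : par v < v) :
    crep s par gen v = s (gen v) * crep s par gen (par v) := by
  rw [crep, dif_pos h]

theorem crep_zero (s : ℕ → G) (par gen : ℕ → ℕ) : crep s par gen 0 = 1 := by
  rw [crep, dif_neg (Nat.not_lt_zero _)]

/-- Alternating products `⋯ s a * s b * s a`. -/
def alt (s : ℕ → G) : ℕ → ℕ → ℕ → G
  | 0, _, _ => 1
  | r + 1, a, b => alt s r b a * s a

theorem alt_even (s : ℕ → G) (j a b : ℕ) : alt s (2 * j) a b = (s b * s a) ^ j := by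
  induction j with
  | zero => rw [Nat.mul_zero, alt, pow_zero]
  | succ j ih =>
    rw [show 2 * (j + 1) = 2 * j + 1 + 1 by ring, alt, alt, ih, pow_succ, mul_assoc]

theorem alt_odd (s : ℕ → G) (j a b : ℕ) :
    s b * alt s (2 * j + 1) a b = (s b * s a) ^ (j + 1) := by
  rw [alt, alt_even]
  induction j with
  | zero => simp
  | succ j ih =>
    rw [pow_succ' (s a * s b), pow_succ' (s b * s a) (j + 1), ← ih]
    simp only [mul_assoc]

/-- The edge `(v, a)` of the coset table is correct modulo `H`. -/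
def Edge (s : ℕ → G) (par gen : ℕ → ℕ) (H : Subgroup G) (tb : ℕ → ℕ → ℕ) (v a : ℕ) : Prop :=
  (crep s par gen (tb v a))⁻¹ * s a * crep s par gen v ∈ H

/-- All edges marked in `K` are correct. -/
def Inv (s : ℕ → G) (par gen : ℕ → ℕ) (H : Subgroup G) (tb : ℕ → ℕ → ℕ) (n K : ℕ) : Prop :=
  ∀ v a, a < n → K.testBit (v * n + a) = true → Edge s par gen H tb v a

theorem inv_set {s : ℕ → G} {par gen : ℕ → ℕ} {H : Subgroup G} {tb : ℕ → ℕ → ℕ} {n K u b : ℕ}
    (hK : Inv s par gen H tb n K) (hb : b < n) (hE : Edge s par gen H tb u b) :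
    Inv s par gen H tb n (K ||| 2 ^ (u * n + b)) := by
  intro v a ha hbit
  rw [Nat.testBit_or, Bool.or_eq_true] at hbit
  rcases hbit with h | h
  · exact hK v a ha h
  · rw [Nat.testBit_two_pow, decide_eq_true_eq] at h
    have h1 : (u * n + b) % n = b := by
      rw [Nat.mul_comm, Nat.mul_add_mod, Nat.mod_eq_of_lt hb]
    have h2 : (v * n + a) % n = a := by
      rw [Nat.mul_comm, Nat.mul_add_mod, Nat.mod_eq_of_lt ha]
    have h3 : b = a := by rw [← h1, ← h2, h]
    subst h3
    have h4 : u * n = v * n := by omega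
    have h5 : u = v := Nat.eq_of_mul_eq_mul_right (by omega) h4
    subst h5
    exact hE

theorem walk_sound {s : ℕ → G} {par gen : ℕ → ℕ} {H : Subgroup G} {tb : ℕ → ℕ → ℕ} {n K : ℕ}
    (hK : Inv s par gen H tb n K) :
    ∀ (r v a b u : ℕ), a < n → b < n → walk tb n K r v a b = some u →
      (crep s par gen u)⁻¹ * alt s r a b * crep s par gen v ∈ H := by
  intro r
  induction r with
  | zero =>
    intro v a b u _ _ h
    rw [walk, Option.some.injEq] at h
    subst h
    rw [alt, mul_one, inv_mul_cancel]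
    exact H.one_mem
  | succ r ih =>
    intro v a b u ha hb h
    rw [walk] at h
    split_ifs at h with hbit
    have h1 := ih (tb v a) b a u hb ha h
    have h2 : (crep s par gen (tb v a))⁻¹ * s a * crep s par gen v ∈ H := hK v a ha hbit
    have h3 := H.mul_mem h1 h2
    rw [alt]
    have e : (crep s par gen u)⁻¹ * alt s r b a * crep s par gen (tb v a) *
        ((crep s par gen (tb v a))⁻¹ * s a * crep s par gen v) =
        (crep s par gen u)⁻¹ * (alt s r b a * s a) * crep s par gen v := by group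
    rw [← e]; exact h3

theorem ded_sound {s : ℕ → G} {par gen : ℕ → ℕ} {H : Subgroup G} {tb M : ℕ → ℕ → ℕ} {n K : ℕ}
    (hK : Inv s par gen H tb n K) (hs : ∀ a < n, s a * s a = 1)
    (hrel : ∀ a < n, ∀ b < n, (s a * s b) ^ M a b = 1)
    {v a b u : ℕ} (ha : a < n) (hb : b < n) (hm : 0 < M b a)
    (hw : walk tb n K (2 * M b a - 1) v a b = some u) (h1 : tb u b = v) (h2 : tb v b = u) :
    Inv s par gen H tb n (K ||| 2 ^ (u * n + b) ||| 2 ^ (v * n + b)) := by
  have hX := walk_sound hK _ v a b u ha hb hw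
  have e1 : 2 * M b a - 1 = 2 * (M b a - 1) + 1 := by omega
  have e2 : s b * alt s (2 * M b a - 1) a b = 1 := by
    rw [e1, alt_odd, show M b a - 1 + 1 = M b a by omega]
    exact hrel b hb a ha
  have e3 : alt s (2 * M b a - 1) a b = s b := by
    have h3 : alt s (2 * M b a - 1) a b = (s b)⁻¹ := eq_inv_of_mul_eq_one_right e2
    rw [h3]; exact inv_eq_of_mul_eq_one_left (hs b hb)
  rw [e3] at hX
  have hEv : Edge s par gen H tb v b := by
    unfold Edge; rw [h2]; exact hX
  have hEu : Edge s par gen H tb u b := by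
    unfold Edge; rw [h1]
    have h3 := H.inv_mem hX
    have e : ((crep s par gen u)⁻¹ * s b * crep s par gen v)⁻¹ =
        (crep s par gen v)⁻¹ * s b * crep s par gen u := by
      rw [mul_inv_rev, mul_inv_rev, inv_inv, inv_eq_of_mul_eq_one_left (hs b hb), mul_assoc]
    rw [← e]; exact h3
  exact inv_set (inv_set hK hb hEu) hb hEv

theorem tree_sound {s : ℕ → G} {par gen : ℕ → ℕ} {H : Subgroup G} {tb : ℕ → ℕ → ℕ} {n K : ℕ}
    (hK : Inv s par gen H tb n K) (hs : ∀ a < n, s a * s a = 1)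
    {v : ℕ} (hp : par v < v) (hg : gen v < n) (h1 : tb (par v) (gen v) = v)
    (h2 : tb v (gen v) = par v) :
    Inv s par gen H tb n (K ||| 2 ^ (par v * n + gen v) ||| 2 ^ (v * n + gen v)) := by
  have hEp : Edge s par gen H tb (par v) (gen v) := by
    unfold Edge
    rw [h1, crep_of_lt s par gen hp, mul_assoc, inv_mul_cancel]
    exact H.one_mem
  have hEv : Edge s par gen H tb v (gen v) := by
    unfold Edge
    rw [h2, crep_of_lt s par gen hp, mul_assoc, ← mul_assoc (s (gen v)), hs _ hg, one_mul,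
      inv_mul_cancel]
    exact H.one_mem
  exact inv_set (inv_set hK hg hEp) hg hEv

theorem treeK_sound {s : ℕ → G} {par gen : ℕ → ℕ} {H : Subgroup G} {tb : ℕ → ℕ → ℕ} {n : ℕ}
    (hs : ∀ a < n, s a * s a = 1) :
    ∀ (c v K K' : ℕ), Inv s par gen H tb n K → treeK tb par gen n c v K = some K' →
      Inv s par gen H tb n K' := by
  intro c
  induction c with
  | zero =>
    intro v K K' hK h
    rw [treeK, Option.some.injEq] at h
    subst h; exact hK
  | succ c ih =>
    intro v K K' hK h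
    rw [treeK] at h
    split_ifs at h with hc
    simp only [Bool.and_eq_true, Nat.blt_eq] at hc
    obtain ⟨⟨⟨hp, hg⟩, h1⟩, h2⟩ := hc
    exact ih _ _ _ (tree_sound hK hs hp hg (Nat.eq_of_beq_eq_true h1)
      (Nat.eq_of_beq_eq_true h2)) h

theorem dedK_sound {s : ℕ → G} {par gen : ℕ → ℕ} {H : Subgroup G} {tb M : ℕ → ℕ → ℕ} {n D : ℕ}
    (hs : ∀ a < n, s a * s a = 1) (hrel : ∀ a < n, ∀ b < n, (s a * s b) ^ M a b = 1) :
    ∀ (c i K K' : ℕ), Inv s par gen H tb n K → dedK M tb n D c i K = some K' →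
      Inv s par gen H tb n K' := by
  intro c
  induction c with
  | zero =>
    intro i K K' hK h
    rw [dedK, Option.some.injEq] at h
    subst h; exact hK
  | succ c ih =>
    intro i K K' hK h
    rw [dedK] at h
    split_ifs at h with hc
    simp only [Bool.and_eq_true, Nat.blt_eq] at hc
    obtain ⟨⟨ha, hb⟩, hm⟩ := hc
    split at h
    · rename_i u hw
      split_ifs at h with hc2
      simp only [Bool.and_eq_true] at hc2
      exact ih _ _ _ (ded_sound hK hs hrel ha hb hm hw (Nat.eq_of_beq_eq_true hc2.1)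
        (Nat.eq_of_beq_eq_true hc2.2)) h
    · exact absurd h (by simp)

theorem base_inv {s : ℕ → G} {par gen : ℕ → ℕ} {H : Subgroup G} {tb : ℕ → ℕ → ℕ} {n j0 : ℕ}
    (hj : j0 ≤ n) (hb : ∀ a < j0, tb 0 a = 0) (hH : ∀ a < j0, s a ∈ H) :
    Inv s par gen H tb n (2 ^ j0 - 1) := by
  intro v a _ hbit
  rw [Nat.testBit_two_pow_sub_one, decide_eq_true_eq] at hbit
  have hv : v = 0 := by
    by_contra hv
    have h1 : n ≤ v * n := Nat.le_mul_of_pos_left n (Nat.pos_of_ne_zero hv)
    omega
  subst hv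
  have ha' : a < j0 := by omega
  unfold Edge
  rw [hb a ha', crep_zero, inv_one, one_mul, mul_one]
  exact hH a ha'

theorem upperOK_sound {s : ℕ → G} {par gen : ℕ → ℕ} {H : Subgroup G} {tb M : ℕ → ℕ → ℕ}
    {n k j0 D cnt : ℕ} (hs : ∀ a < n, s a * s a = 1)
    (hrel : ∀ a < n, ∀ b < n, (s a * s b) ^ M a b = 1) (hH : ∀ a < j0, s a ∈ H)
    (hc : upperOK n k j0 M tb par gen D cnt = true) :
    ∀ v < k, ∀ a < n, tb v a < k ∧ Edge s par gen H tb v a := by
  unfold upperOK at hc
  simp only [Bool.and_eq_true] at hc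
  obtain ⟨⟨⟨hj, hb⟩, hr⟩, hm⟩ := hc
  rw [Nat.ble_eq] at hj
  rw [allLt_iff] at hb hr
  have hb' : ∀ a < j0, tb 0 a = 0 := fun a ha => Nat.eq_of_beq_eq_true (hb a ha)
  have h0 := base_inv (par := par) (gen := gen) hj hb' hH
  split at hm
  · rename_i K1 hK1
    have h1 := treeK_sound hs _ _ _ _ h0 hK1
    split at hm
    · rename_i K2 hK2
      have h2 := dedK_sound hs hrel _ _ _ _ h1 hK2
      have hm := Nat.eq_of_beq_eq_true hm
      intro v hv a ha
      constructor
      · have := (allLt_iff _ _).mp (hr v hv) a ha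
        rwa [Nat.blt_eq] at this
      · apply h2 v a ha
        rw [hm, Nat.testBit_two_pow_sub_one, decide_eq_true_eq]
        calc v * n + a < v * n + n := by omega
          _ = (v + 1) * n := by ring
          _ ≤ k * n := Nat.mul_le_mul_right n hv
    · exact absurd hm (by simp)
  · exact absurd hm (by simp)

/-- The subgroup generated by `s a` for `a < j`. -/
def Lv (s : ℕ → G) (j : ℕ) : Subgroup G := Subgroup.closure (s '' {a | a < j})

theorem Lv_zero (s : ℕ → G) : Lv s 0 = ⊥ := by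
  unfold Lv
  have : {a : ℕ | a < 0} = ∅ := by ext a; simp
  rw [this, Set.image_empty, Subgroup.closure_empty]

theorem upper_cover {s : ℕ → G} {par gen : ℕ → ℕ} {H : Subgroup G} {tb M : ℕ → ℕ → ℕ}
    {n k j0 D cnt : ℕ} (hs : ∀ a < n, s a * s a = 1)
    (hrel : ∀ a < n, ∀ b < n, (s a * s b) ^ M a b = 1) (hH : ∀ a < j0, s a ∈ H) (hk : 0 < k)
    (hc : upperOK n k j0 M tb par gen D cnt = true) :
    ∀ g ∈ Lv s n, ∃ v < k, (crep s par gen v)⁻¹ * g ∈ H := by
  have hE := upperOK_sound (par := par) (gen := gen) hs hrel hH hc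
  have step : ∀ a < n, ∀ y : G, (∃ v < k, (crep s par gen v)⁻¹ * y ∈ H) →
      ∃ v < k, (crep s par gen v)⁻¹ * (s a * y) ∈ H := by
    rintro a ha y ⟨v, hv, hy⟩
    obtain ⟨h1, h2⟩ := hE v hv a ha
    refine ⟨tb v a, h1, ?_⟩
    have h3 := H.mul_mem h2 hy
    have e : (crep s par gen (tb v a))⁻¹ * s a * crep s par gen v * ((crep s par gen v)⁻¹ * y) =
        (crep s par gen (tb v a))⁻¹ * (s a * y) := by group
    rw [← e]; exact h3
  intro g hg
  unfold Lv at hg
  induction hg using Subgroup.closure_induction_left with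
  | one => exact ⟨0, hk, by rw [crep_zero, inv_one, one_mul]; exact H.one_mem⟩
  | mul_left x hx y _ ih =>
    obtain ⟨a, ha, rfl⟩ := hx
    exact step a ha y ih
  | inv_mul_cancel x hx y _ ih =>
    obtain ⟨a, ha, rfl⟩ := hx
    rw [inv_eq_of_mul_eq_one_left (hs a ha)]
    exact step a ha y ih

theorem upper_card {s : ℕ → G} {par gen : ℕ → ℕ} {H : Subgroup G} {tb M : ℕ → ℕ → ℕ}
    {n k j0 D cnt : ℕ} (hs : ∀ a < n, s a * s a = 1)
    (hrel : ∀ a < n, ∀ b < n, (s a * s b) ^ M a b = 1) (hH : ∀ a < j0, s a ∈ H) (hk : 0 < k)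
    (hc : upperOK n k j0 M tb par gen D cnt = true) (hfin : Finite H) :
    Finite (Lv s n) ∧ Nat.card (Lv s n) ≤ k * Nat.card H := by
  have hcov := upper_cover (par := par) (gen := gen) hs hrel hH hk hc
  choose f hf1 hf2 using hcov
  let φ : Lv s n → Fin k × H := fun g =>
    (⟨f g.1 g.2, hf1 g.1 g.2⟩, ⟨(crep s par gen (f g.1 g.2))⁻¹ * g.1, hf2 g.1 g.2⟩)
  have hφ : Function.Injective φ := by
    intro g g' h
    have h1 : f g.1 g.2 = f g'.1 g'.2 := by
      have := congrArg (fun p => (p.1 : ℕ)) h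
      exact this
    have h2 : (crep s par gen (f g.1 g.2))⁻¹ * g.1 = (crep s par gen (f g'.1 g'.2))⁻¹ * g'.1 := by
      have := congrArg (fun p => (p.2 : G)) h
      exact this
    rw [h1] at h2
    exact Subtype.ext (mul_left_cancel h2)
  refine ⟨Finite.of_injective φ hφ, ?_⟩
  have := Nat.card_le_card_of_injective φ hφ
  rwa [Nat.card_prod, Nat.card_fin] at this

/-- One level of the chain of upper bounds. -/
theorem upper_level {s : ℕ → G} {par gen : ℕ → ℕ} {tb M : ℕ → ℕ → ℕ}
    {j k D cnt : ℕ} (hs : ∀ a < j + 1, s a * s a = 1)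
    (hrel : ∀ a < j + 1, ∀ b < j + 1, (s a * s b) ^ M a b = 1) (hk : 0 < k)
    (hc : upperOK (j + 1) k j M tb par gen D cnt = true) (hfin : Finite (Lv s j)) :
    Finite (Lv s (j + 1)) ∧ Nat.card (Lv s (j + 1)) ≤ k * Nat.card (Lv s j) :=
  upper_card hs hrel (fun a ha => Subgroup.subset_closure ⟨a, ha, rfl⟩) hk hc hfin

/-- One level of the chain of upper bounds, with a numerical bound. -/
theorem upper_step {s : ℕ → G} {par gen : ℕ → ℕ} {tb M : ℕ → ℕ → ℕ}
    {j k D cnt N : ℕ} (hs : ∀ a < j + 1, s a * s a = 1)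
    (hrel : ∀ a < j + 1, ∀ b < j + 1, (s a * s b) ^ M a b = 1) (hk : 0 < k)
    (hc : upperOK (j + 1) k j M tb par gen D cnt = true)
    (h : Finite (Lv s j) ∧ Nat.card (Lv s j) ≤ N) :
    Finite (Lv s (j + 1)) ∧ Nat.card (Lv s (j + 1)) ≤ k * N := by
  have h1 := upper_level hs hrel hk hc h.1
  exact ⟨h1.1, h1.2.trans (Nat.mul_le_mul_left k h.2)⟩

end Upper

end Cfsg.Agent.Helper8.Cox
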