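import Mathlib

set_option autoImplicit false

namespace Cfsg.Agent.Helper8

open Module

/-- Generic reindexing of a finite sum along an injective map. -/
theorem fa_sum_reindex {α β R : Type*} [Fintype α] [CommSemiring R] (ι : α → β)
    (hι : Function.Injective ι) (c' : α → R) :
    ∃ (s : Finset β) (c : β → R), ∀ g : β → R, ∑ b ∈ s, c b * g b = ∑ a, c' a * g (ι a) := by
  classical
  refine ⟨Finset.univ.image ι, fun b => if h : ∃ a, ι a = b then c' h.choose else 0, fun g => ?_⟩
  rw [Finset.sum_image (fun a _ b _ h => hι h)]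
  apply Finset.sum_congr rfl
  intro a _
  have h : ∃ a', ι a' = ι a := ⟨a, rfl⟩
  show (if h : ∃ a', ι a' = ι a then c' h.choose else 0) * g (ι a) = c' a * g (ι a)
  rw [dif_pos h, hι h.choose_spec]

variable {F : Type*} [Field F] [Fintype F] [Algebra (ZMod 2) F]

/-- The automorphisms of a finite field of characteristic 2 form a basis of the additive
endomorphisms, over the field acting on values. -/
theorem fa_basis_exists :
    ∃ B : Basis (F ≃ₐ[ZMod 2] F) F (F →ₗ[ZMod 2] F), ∀ σ, B σ = σ.toLinearMap := by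
  have hli : LinearIndependent F (fun σ : F ≃ₐ[ZMod 2] F => σ.toLinearMap) := by
    have h := linearIndependent_toLinearMap (ZMod 2) F F
    exact h.comp (fun σ : F ≃ₐ[ZMod 2] F => (σ : F →ₐ[ZMod 2] F))
      (fun σ τ h => AlgEquiv.coe_toAlgHom_injective h)
  have hcard : Fintype.card (F ≃ₐ[ZMod 2] F) = finrank F (F →ₗ[ZMod 2] F) := by
    rw [Module.finrank_linearMap_self, ← IsGalois.card_aut_eq_finrank, Nat.card_eq_fintype_card]
  exact ⟨basisOfLinearIndependentOfCardEqFinrank hli hcard, fun σ => by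
    rw [coe_basisOfLinearIndependentOfCardEqFinrank]⟩

theorem fa_add_eq_sum (f : F →+ F) :
    ∃ c : (F ≃ₐ[ZMod 2] F) → F, ∀ x, f x = ∑ σ, c σ * σ x := by
  obtain ⟨B, hB⟩ := fa_basis_exists (F := F)
  refine ⟨fun σ => B.repr (f.toZModLinearMap 2) σ, fun x => ?_⟩
  have h := B.sum_repr (f.toZModLinearMap 2)
  have h2 := congrArg (fun g : F →ₗ[ZMod 2] F => g x) h
  simp only [LinearMap.sum_apply, LinearMap.smul_apply, hB, AlgEquiv.toLinearMap_apply,
    AddMonoidHom.coe_toZModLinearMap, smul_eq_mul] at h2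
  exact h2.symm

theorem fa_biadd_eq_sum (B : F →+ F →+ F) :
    ∃ c : (F ≃ₐ[ZMod 2] F) × (F ≃ₐ[ZMod 2] F) → F,
      ∀ x y, B x y = ∑ p, c p * (p.1 x * p.2 y) := by
  obtain ⟨Bs, hB⟩ := fa_basis_exists (F := F)
  have hg : ∀ τ : F ≃ₐ[ZMod 2] F, ∃ g : F →+ F,
      ∀ x, g x = Bs.repr ((B x).toZModLinearMap 2) τ := by
    intro τ
    refine ⟨AddMonoidHom.mk' (fun x => Bs.repr ((B x).toZModLinearMap 2) τ) ?_, fun x => rfl⟩
    intro x x'
    have : (B (x + x')).toZModLinearMap 2 =
        (B x).toZModLinearMap 2 + (B x').toZModLinearMap 2 := by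
      ext y; simp
    rw [this, map_add]; rfl
  choose g hgdef using hg
  have h1 : ∀ x y, B x y = ∑ τ, g τ x * τ y := by
    intro x y
    have h := Bs.sum_repr ((B x).toZModLinearMap 2)
    have h2 := congrArg (fun k : F →ₗ[ZMod 2] F => k y) h
    simp only [LinearMap.sum_apply, LinearMap.smul_apply, hB, AlgEquiv.toLinearMap_apply,
      AddMonoidHom.coe_toZModLinearMap, smul_eq_mul] at h2
    rw [← h2]
    apply Finset.sum_congr rfl
    intro τ _
    rw [hgdef]
  choose d hd using fun τ => fa_add_eq_sum (g τ)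
  refine ⟨fun p => d p.2 p.1, fun x y => ?_⟩
  rw [h1, Fintype.sum_prod_type_right]
  apply Finset.sum_congr rfl
  intro τ _
  rw [hd τ x, Finset.sum_mul]
  apply Finset.sum_congr rfl
  intro σ _
  dsimp only
  ring

end Cfsg.Agent.Helper8
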