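import Mathlib
import Cfsg.Agent.Helper24.NormalEA

set_option autoImplicit false

namespace Cfsg.Agent.Helper8

section HalfTrans

variable {P E : Type*} [Group P] [AddCommGroup E] [DistribMulAction P E]

/-- The norm map of an element `u` acting on `E`: `e ↦ ∑_{i<p} u^i • e`. -/
def nrm (p : ℕ) (u : P) (e : E) : E := ∑ i ∈ Finset.range p, (u ^ i) • e

theorem nrm_fix {p : ℕ} {u : P} (hu : u ^ p = 1) (e : E) : u • nrm p u e = nrm p u e := by
  unfold nrm
  rw [Finset.smul_sum]
  have h1 : ∀ i : ℕ, u • (u ^ i) • e = (u ^ (i + 1)) • e := fun i => by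
    rw [smul_smul, ← pow_succ']
  simp only [h1]
  have h2 := Finset.sum_range_succ (fun i => (u ^ i) • e) p
  have h3 := Finset.sum_range_succ' (fun i => (u ^ i) • e) p
  simp only [pow_zero, one_smul, hu] at h2 h3
  exact add_right_cancel (h3.symm.trans h2)

theorem nrm_of_fix {p : ℕ} {u : P} {e : E} (h : u • e = e) : nrm p u e = p • e := by
  unfold nrm
  have h1 : ∀ i : ℕ, (u ^ i) • e = e := by
    intro i
    induction i with
    | zero => rw [pow_zero, one_smul]
    | succ i ih => rw [pow_succ, mul_smul, h, ih]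
  simp only [h1, Finset.sum_const, Finset.card_range]

theorem nrm_comm {p : ℕ} {u h : P} (hc : h * u = u * h) (e : E) :
    h • nrm p u e = nrm p u (h • e) := by
  unfold nrm
  rw [Finset.smul_sum]
  apply Finset.sum_congr rfl
  intro i _
  rw [smul_smul, smul_smul]
  congr 1
  exact (Commute.pow_right (show Commute h u from hc) i).eq

theorem nrm_sub (p : ℕ) (u : P) (e₁ e₂ : E) : nrm p u (e₁ - e₂) = nrm p u e₁ - nrm p u e₂ := by
  unfold nrm
  rw [← Finset.sum_sub_distrib]
  apply Finset.sum_congr rfl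
  intro i _
  rw [smul_sub]

theorem nrm_add (p : ℕ) (u : P) (e₁ e₂ : E) : nrm p u (e₁ + e₂) = nrm p u e₁ + nrm p u e₂ := by
  unfold nrm
  rw [← Finset.sum_add_distrib]
  apply Finset.sum_congr rfl
  intro i _
  rw [smul_add]

omit [DistribMulAction P E] in
theorem eq_zero_of_coprime_nsmul {p q : ℕ} (hpq : Nat.Coprime p q) (hE : ∀ e : E, q • e = 0)
    {d : E} (h : p • d = 0) : d = 0 := by
  have h1 : addOrderOf d ∣ p := addOrderOf_dvd_of_nsmul_eq_zero h
  have h2 : addOrderOf d ∣ q := addOrderOf_dvd_of_nsmul_eq_zero (hE d)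
  have h3 : addOrderOf d ∣ 1 := by
    have := Nat.dvd_gcd h1 h2
    rwa [Nat.Coprime.gcd_eq_one hpq] at this
  exact AddMonoid.addOrderOf_eq_one_iff.mp (Nat.dvd_one.mp h3)

theorem ht_smul_eq_of_mem_zpowers {u v : P} (hu : u ∈ Subgroup.zpowers v) {e : E} (h : v • e = e) :
    u • e = e := by
  have : Subgroup.zpowers v ≤ MulAction.stabilizer P e := by
    rw [Subgroup.zpowers_le]; exact h
  exact this hu

omit [AddCommGroup E] [DistribMulAction P E] in
theorem ht_conj_ne_one {u : P} (hu : u ≠ 1) (ρ : P) : ρ * u * ρ⁻¹ ≠ 1 := by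
  intro e
  apply hu
  calc u = ρ⁻¹ * (ρ * u * ρ⁻¹) * ρ := by group
    _ = 1 := by rw [e]; group

omit [AddCommGroup E] [DistribMulAction P E] in
theorem ht_card_zpowers {p : ℕ} [Fact p.Prime] {w : P} (hw : w ^ p = 1) (hw1 : w ≠ 1) :
    Nat.card (Subgroup.zpowers w) = p := by
  have hpp : p.Prime := Fact.out
  rw [Nat.card_zpowers]
  rcases (Nat.dvd_prime hpp).mp (orderOf_dvd_of_pow_eq_one hw) with h | h
  · exact absurd (orderOf_eq_one_iff.mp h) hw1
  · exact h

omit [AddCommGroup E] [DistribMulAction P E] in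
theorem ht_mem_zpowers_symm [Finite P] {p : ℕ} [Fact p.Prime] {u v : P} (hu : u ^ p = 1)
    (hv : v ∈ Subgroup.zpowers u) (hv1 : v ≠ 1) : u ∈ Subgroup.zpowers v := by
  have hu1 : u ≠ 1 := by
    rintro rfl
    rw [Subgroup.zpowers_one_eq_bot, Subgroup.mem_bot] at hv
    exact hv1 hv
  have hvp : v ^ p = 1 := by
    obtain ⟨k, rfl⟩ := Subgroup.mem_zpowers_iff.mp hv
    rw [← zpow_natCast, ← zpow_mul, mul_comm, zpow_mul, zpow_natCast, hu, one_zpow]
  have hle : Subgroup.zpowers v ≤ Subgroup.zpowers u := by rw [Subgroup.zpowers_le]; exact hv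
  have := Subgroup.eq_of_le_of_card_ge hle (by rw [ht_card_zpowers hu hu1, ht_card_zpowers hvp hv1])
  rw [this]; exact Subgroup.mem_zpowers u

/-- A central element of order `p` acts without nonzero fixed points. -/
theorem fpf_of_central [Finite P] [FaithfulSMul P E] {p q : ℕ} (hpq : Nat.Coprime p q)
    (hE : ∀ e : E, q • e = 0)
    (hconst : ∀ a b : E, a ≠ 0 → b ≠ 0 →
      Nat.card (MulAction.stabilizer P a) = Nat.card (MulAction.stabilizer P b))
    {z : P} (hzc : ∀ g : P, g * z = z * g) (hzp : z ^ p = 1) (hz1 : z ≠ 1) :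
    ∀ a : E, z • a = a → a = 0 := by
  intro a ha
  by_contra ha0
  have hex : ∃ e : E, z • e ≠ e := by
    by_contra hne
    push Not at hne
    apply hz1
    apply FaithfulSMul.eq_of_smul_eq_smul (α := E)
    intro e
    rw [hne e, one_smul]
  obtain ⟨e, he⟩ := hex
  have hb0 : z • e - e ≠ 0 := fun h => he (sub_eq_zero.mp h)
  have hNb : nrm p z (z • e - e) = 0 := by
    rw [nrm_sub, ← nrm_comm (rfl : z * z = z * z), nrm_fix hzp, sub_self]
  have key : ∀ g : P, g • (a + (z • e - e)) = a + (z • e - e) →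
      g • a = a ∧ g • (z • e - e) = z • e - e := by
    intro g hg
    rw [smul_add] at hg
    have hd : g • a - a = (z • e - e) - g • (z • e - e) := by
      rw [sub_eq_sub_iff_add_eq_add, hg, add_comm]
    have hzd : z • (g • a - a) = g • a - a := by
      rw [smul_sub, ha, smul_smul, ← hzc g, ← smul_smul, ha]
    have hNd : nrm p z (g • a - a) = 0 := by
      rw [hd, nrm_sub, ← nrm_comm (hzc g), hNb, smul_zero, sub_zero]
    have hpd : p • (g • a - a) = 0 := by
      rw [← nrm_of_fix hzd]; exact hNd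
    have hd0 := eq_zero_of_coprime_nsmul hpq hE hpd
    have h1 : g • a = a := sub_eq_zero.mp hd0
    refine ⟨h1, ?_⟩
    rw [h1] at hg
    exact add_left_cancel hg
  have hab0 : a + (z • e - e) ≠ 0 := by
    intro h
    have hba : z • e - e = -a := eq_neg_of_add_eq_zero_right h
    have hzb : z • (z • e - e) = z • e - e := by rw [hba, smul_neg, ha]
    have : p • (z • e - e) = 0 := by rw [← nrm_of_fix hzb]; exact hNb
    exact hb0 (eq_zero_of_coprime_nsmul hpq hE this)
  have hle : MulAction.stabilizer P (a + (z • e - e)) ≤ MulAction.stabilizer P a := by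
    intro g hg
    rw [MulAction.mem_stabilizer_iff] at hg ⊢
    exact (key g hg).1
  have heq : MulAction.stabilizer P (a + (z • e - e)) = MulAction.stabilizer P a :=
    Subgroup.eq_of_le_of_card_ge hle (hconst _ _ ha0 hab0).le
  have hz_in : z ∈ MulAction.stabilizer P (a + (z • e - e)) := by
    rw [heq, MulAction.mem_stabilizer_iff]; exact ha
  have hzb : z • (z • e - e) = z • e - e := (key z (MulAction.mem_stabilizer_iff.mp hz_in)).2
  have : p • (z • e - e) = 0 := by rw [← nrm_of_fix hzb]; exact hNb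
  exact hb0 (eq_zero_of_coprime_nsmul hpq hE this)

/-- Two elements of `A ≅ Z_p × Z_p` generating `A` have no common nonzero fixed vector when
`z ∈ A` acts fixed-point-freely. -/
theorem fix_pair_zero [Finite P] {p : ℕ} [Fact p.Prime] {A : Subgroup P}
    (hAcard : Nat.card A = p ^ 2) (hAp : ∀ a ∈ A, a ^ p = 1) {z : P} (hzA : z ∈ A)
    (hz : ∀ a : E, z • a = a → a = 0)
    {u u' : P} (hu : u ∈ A) (hu1 : u ≠ 1) (hu' : u' ∈ A) (hnot : u' ∉ Subgroup.zpowers u)
    {e : E} (h1 : u • e = e) (h2 : u' • e = e) : e = 0 := by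
  have hpp : p.Prime := Fact.out
  have huT : u ∈ A ⊓ MulAction.stabilizer P e := ⟨hu, h1⟩
  have hu'T : u' ∈ A ⊓ MulAction.stabilizer P e := ⟨hu', h2⟩
  have hzu : Subgroup.zpowers u ≤ A ⊓ MulAction.stabilizer P e := by
    rw [Subgroup.zpowers_le]; exact huT
  have hc1 : Nat.card (Subgroup.zpowers u) = p := ht_card_zpowers (hAp u hu) hu1
  have hd1 : p ∣ Nat.card ↥(A ⊓ MulAction.stabilizer P e) := by
    rw [← hc1]; exact Subgroup.card_dvd_of_le hzu
  have hd2 : Nat.card ↥(A ⊓ MulAction.stabilizer P e) ∣ p ^ 2 := by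
    rw [← hAcard]; exact Subgroup.card_dvd_of_le inf_le_left
  obtain ⟨j, hj, hjc⟩ := (Nat.dvd_prime_pow hpp).mp hd2
  have hTA : A ⊓ MulAction.stabilizer P e = A := by
    apply Subgroup.eq_of_le_of_card_ge inf_le_left
    rw [hAcard, hjc]
    interval_cases j
    · exfalso
      rw [hjc, pow_zero] at hd1
      exact hpp.one_lt.ne' (Nat.dvd_one.mp hd1)
    · exfalso
      apply hnot
      have : Subgroup.zpowers u = A ⊓ MulAction.stabilizer P e :=
        Subgroup.eq_of_le_of_card_ge hzu (by rw [hc1, hjc, pow_one])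
      rw [this]; exact hu'T
    · exact le_refl _
  have hzT : z ∈ A ⊓ MulAction.stabilizer P e := by rw [hTA]; exact hzA
  exact hz e hzT.2

theorem nrm_zero_of_fix [Finite P] {p : ℕ} [Fact p.Prime] {A : Subgroup P}
    (hAcard : Nat.card A = p ^ 2) (hAp : ∀ a ∈ A, a ^ p = 1)
    (hAcomm : ∀ a ∈ A, ∀ b ∈ A, a * b = b * a) {z : P} (hzA : z ∈ A)
    (hz : ∀ a : E, z • a = a → a = 0)
    {u₁ u₂ : P} (hu₁ : u₁ ∈ A) (hu₁1 : u₁ ≠ 1) (hu₂ : u₂ ∈ A)
    (hnot : u₂ ∉ Subgroup.zpowers u₁) {e : E} (h : u₂ • e = e) : nrm p u₁ e = 0 := by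
  apply fix_pair_zero hAcard hAp hzA hz hu₁ hu₁1 hu₂ hnot
  · exact nrm_fix (hAp u₁ hu₁) e
  · rw [nrm_comm (hAcomm u₂ hu₂ u₁ hu₁), h]

theorem ht_case_one [Finite P] {p q : ℕ} [Fact p.Prime] (hp2 : p ≠ 2) (hP : IsPGroup p P)
    (hpq : Nat.Coprime p q) (hE : ∀ e : E, q • e = 0)
    (hconst : ∀ a b : E, a ≠ 0 → b ≠ 0 →
      Nat.card (MulAction.stabilizer P a) = Nat.card (MulAction.stabilizer P b))
    {A : Subgroup P} (hAn : A.Normal) (hAcard : Nat.card A = p ^ 2)
    (hAp : ∀ a ∈ A, a ^ p = 1) (hAcomm : ∀ a ∈ A, ∀ b ∈ A, a * b = b * a)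
    {z : P} (hzA : z ∈ A) (hz : ∀ a : E, z • a = a → a = 0)
    {u : P} (hu : u ∈ A) (hu1 : u ≠ 1) {a : E} (ha0 : a ≠ 0) (hua : u • a = a)
    {n : P} (hn : n * u * n⁻¹ ∉ Subgroup.zpowers u) : False := by
  have hpp : p.Prime := Fact.out
  have hu'A : n * u * n⁻¹ ∈ A := hAn.conj_mem u hu n
  have hu'1 : n * u * n⁻¹ ≠ 1 := ht_conj_ne_one hu1 n
  have hb0 : n • a ≠ 0 := by
    intro h
    apply ha0
    have : n⁻¹ • (n • a) = a := by rw [smul_smul, inv_mul_cancel, one_smul]
    rw [← this, h, smul_zero]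
  have hu'b : (n * u * n⁻¹) • (n • a) = n • a := by
    rw [smul_smul, inv_mul_cancel_right, mul_smul, hua]
  have hup : u ^ p = 1 := hAp u hu
  have NZ := fun {u₂ : P} (hu₂ : u₂ ∈ A) (hnot : u₂ ∉ Subgroup.zpowers u) {e : E}
      (h : u₂ • e = e) => nrm_zero_of_fix hAcard hAp hAcomm hzA hz hu hu1 hu₂ hnot h
  have key : ∀ h : P, h • (a + n • a) = a + n • a → h • a = a ∧ h • (n • a) = n • a := by
    intro h hh
    rw [smul_add] at hh
    have hu₁A : h * u * h⁻¹ ∈ A := hAn.conj_mem u hu h
    have hu₂A : h * (n * u * n⁻¹) * h⁻¹ ∈ A := hAn.conj_mem _ hu'A h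
    have hu₁1 : h * u * h⁻¹ ≠ 1 := ht_conj_ne_one hu1 h
    have hu₂1 : h * (n * u * n⁻¹) * h⁻¹ ≠ 1 := ht_conj_ne_one hu'1 h
    have h1a : (h * u * h⁻¹) • (h • a) = h • a := by
      rw [smul_smul, inv_mul_cancel_right, mul_smul, hua]
    have h2b : (h * (n * u * n⁻¹) * h⁻¹) • (h • (n • a)) = h • (n • a) := by
      rw [smul_smul, inv_mul_cancel_right, mul_smul, hu'b]
    have hu₂not : h * (n * u * n⁻¹) * h⁻¹ ∉ Subgroup.zpowers (h * u * h⁻¹) := by
      intro hmem
      obtain ⟨k, hk⟩ := Subgroup.mem_zpowers_iff.mp hmem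
      apply hn
      rw [Subgroup.mem_zpowers_iff]
      refine ⟨k, ?_⟩
      rw [conj_zpow] at hk
      calc u ^ k = h⁻¹ * (h * u ^ k * h⁻¹) * h := by group
        _ = h⁻¹ * (h * (n * u * n⁻¹) * h⁻¹) * h := by rw [hk]
        _ = n * u * n⁻¹ := by group
    have hN : nrm p u (h • a) + nrm p u (h • (n • a)) = p • a := by
      rw [← nrm_add, hh, nrm_add, nrm_of_fix hua, NZ hu'A hn hu'b, add_zero]
    by_cases hc : h * u * h⁻¹ ∈ Subgroup.zpowers u
    · have huu₁ : u ∈ Subgroup.zpowers (h * u * h⁻¹) := ht_mem_zpowers_symm hup hc hu₁1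
      have hfix : u • (h • a) = h • a := ht_smul_eq_of_mem_zpowers huu₁ h1a
      have hu₂not' : h * (n * u * n⁻¹) * h⁻¹ ∉ Subgroup.zpowers u := by
        intro hm
        apply hu₂not
        exact (Subgroup.zpowers_le.mpr huu₁) hm
      rw [nrm_of_fix hfix, NZ hu₂A hu₂not' h2b, add_zero] at hN
      have : p • (h • a - a) = 0 := by rw [smul_sub, hN, sub_self]
      have h1 : h • a = a := sub_eq_zero.mp (eq_zero_of_coprime_nsmul hpq hE this)
      refine ⟨h1, ?_⟩
      rw [h1] at hh
      exact add_left_cancel hh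
    · exfalso
      rw [NZ hu₁A hc h1a, zero_add] at hN
      have hu₂in : h * (n * u * n⁻¹) * h⁻¹ ∈ Subgroup.zpowers u := by
        by_contra hm
        rw [NZ hu₂A hm h2b] at hN
        exact ha0 (eq_zero_of_coprime_nsmul hpq hE hN.symm)
      have huu₂ : u ∈ Subgroup.zpowers (h * (n * u * n⁻¹) * h⁻¹) :=
        ht_mem_zpowers_symm hup hu₂in hu₂1
      have hfix : u • (h • (n • a)) = h • (n • a) := ht_smul_eq_of_mem_zpowers huu₂ h2b
      rw [nrm_of_fix hfix] at hN
      have : p • (h • (n • a) - a) = 0 := by rw [smul_sub, hN, sub_self]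
      have hba : h • (n • a) = a := sub_eq_zero.mp (eq_zero_of_coprime_nsmul hpq hE this)
      have hab : h • a = n • a := by
        rw [hba] at hh
        exact add_right_cancel (hh.trans (add_comm _ _))
      have hsq : (h * h) • a = a := by rw [mul_smul, hab, hba]
      have hodd : Odd (orderOf h) := by
        obtain ⟨k, hk⟩ := IsPGroup.iff_orderOf.mp hP h
        rw [hk]; exact (hpp.odd_of_ne_two hp2).pow
      obtain ⟨m, hm⟩ := hodd
      have hh_in : h ∈ Subgroup.zpowers (h * h) := by
        rw [Subgroup.mem_zpowers_iff]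
        refine ⟨((m + 1 : ℕ) : ℤ), ?_⟩
        rw [zpow_natCast, ← pow_two, ← pow_mul]
        have : 2 * (m + 1) = orderOf h + 1 := by omega
        rw [this, pow_succ, pow_orderOf_eq_one, one_mul]
      have hha : h • a = a := ht_smul_eq_of_mem_zpowers hh_in hsq
      have hbeq : n • a = a := by rw [← hab, hha]
      apply ha0
      refine fix_pair_zero hAcard hAp hzA hz hu hu1 hu'A hn hua ?_
      have := hu'b
      rw [hbeq] at this
      exact this
  have hab0 : a + n • a ≠ 0 := by
    intro h0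
    have hba : n • a = -a := eq_neg_of_add_eq_zero_right h0
    have : (n * u * n⁻¹) • a = a := by
      have h1 := hu'b
      rw [hba, smul_neg, neg_inj] at h1
      exact h1
    exact ha0 (fix_pair_zero hAcard hAp hzA hz hu hu1 hu'A hn hua this)
  have hle : MulAction.stabilizer P (a + n • a) ≤ MulAction.stabilizer P a := by
    intro g hg
    rw [MulAction.mem_stabilizer_iff] at hg ⊢
    exact (key g hg).1
  have heq : MulAction.stabilizer P (a + n • a) = MulAction.stabilizer P a :=
    Subgroup.eq_of_le_of_card_ge hle (hconst _ _ ha0 hab0).le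
  have hu_in : u ∈ MulAction.stabilizer P (a + n • a) := by
    rw [heq, MulAction.mem_stabilizer_iff]; exact hua
  have hub : u • (n • a) = n • a := (key u (MulAction.mem_stabilizer_iff.mp hu_in)).2
  exact hb0 (fix_pair_zero hAcard hAp hzA hz hu hu1 hu'A hn hub hu'b)

theorem ht_case_two {p q : ℕ} [Fact p.Prime] (hpq : Nat.Coprime p q) (hE : ∀ e : E, q • e = 0)
    {g z : P} (hgz : g * z = z * g) (hgp : g ^ p = 1) (hzp : z ^ p = 1)
    (hfz : ∀ i : ℕ, 0 < i → i < p → ∀ e : E, (z ^ i) • e = e → e = 0)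
    (hfg : ∀ k : ℕ, ∀ e : E, (g * z ^ k) • e = e → e = 0) : ∀ e : E, e = 0 := by
  intro e
  apply eq_zero_of_coprime_nsmul hpq hE
  have hcomm : ∀ k : ℕ, Commute g (z ^ k) := fun k => Commute.pow_right hgz k
  have hzk : ∀ k : ℕ, (z ^ k) ^ p = 1 := fun k => by
    rw [← pow_mul, mul_comm, pow_mul, hzp, one_pow]
  have h1 : ∀ k : ℕ, nrm p (g * z ^ k) e = 0 := fun k =>
    hfg k _ (nrm_fix (by rw [(hcomm k).mul_pow, hgp, hzk, one_mul]) e)
  have h2 : ∑ k ∈ Finset.range p, nrm p (g * z ^ k) e = p • e := by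
    have h3 : ∀ i ∈ Finset.range p, ∑ k ∈ Finset.range p, ((g * z ^ k) ^ i) • e
        = (g ^ i) • nrm p (z ^ i) e := by
      intro i _
      unfold nrm
      rw [Finset.smul_sum]
      apply Finset.sum_congr rfl
      intro k _
      rw [smul_smul]
      congr 1
      rw [(hcomm k).mul_pow, ← pow_mul, ← pow_mul, mul_comm k i]
    unfold nrm
    rw [Finset.sum_comm, Finset.sum_congr rfl h3, Finset.sum_eq_single 0]
    · rw [pow_zero, one_smul, pow_zero]
      exact nrm_of_fix (one_smul _ _)
    · intro i hi hi0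
      have hip : i < p := Finset.mem_range.mp hi
      have : nrm p (z ^ i) e = 0 :=
        hfz i (Nat.pos_of_ne_zero hi0) hip _ (nrm_fix (hzk i) e)
      rw [this, smul_zero]
    · intro h0
      exact absurd (Finset.mem_range.mpr (Fact.out : p.Prime).pos) h0
  rw [← h2]
  exact Finset.sum_eq_zero (fun k _ => h1 k)

end HalfTrans

/-- Isaacs–Passman: a `p`-group (`p` odd) acting faithfully on an elementary abelian `q`-group
such that all nonzero vectors have stabilizers of the same order is cyclic and acts freely. -/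
theorem half_trans_main {P E : Type*} [Group P] [Finite P]
    [AddCommGroup E] [Finite E] [DistribMulAction P E] [FaithfulSMul P E]
    {p q : ℕ} [Fact p.Prime] (hp2 : p ≠ 2) (hP : IsPGroup p P) (hq : q.Prime)
    (hE : ∀ e : E, q • e = 0)
    (hconst : ∀ a b : E, a ≠ 0 → b ≠ 0 →
      Nat.card (MulAction.stabilizer P a) = Nat.card (MulAction.stabilizer P b)) :
    IsCyclic P ∧ ∀ g : P, g ≠ 1 → ∀ a : E, g • a = a → a = 0 := by
  have hpp : p.Prime := Fact.out
  have triv : (∀ g : P, ∀ e : E, g • e = e) →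
      IsCyclic P ∧ ∀ g : P, g ≠ 1 → ∀ a : E, g • a = a → a = 0 := by
    intro h
    have h1 : ∀ g : P, g = 1 := by
      intro g
      apply FaithfulSMul.eq_of_smul_eq_smul (α := E)
      intro e
      rw [h g e, one_smul]
    haveI : Subsingleton P := ⟨fun a b => by rw [h1 a, h1 b]⟩
    exact ⟨inferInstance, fun g hg => absurd (h1 g) hg⟩
  by_cases hpq' : p = q
  · subst hpq'
    apply triv
    by_cases hE0 : ∀ e : E, e = 0
    · intro g e; rw [hE0 e, smul_zero]
    · push Not at hE0
      obtain ⟨e₀, he₀⟩ := hE0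
      have hdvd : p ∣ Nat.card E := by
        have h1 : addOrderOf e₀ ∣ p := addOrderOf_dvd_of_nsmul_eq_zero (hE e₀)
        rcases (Nat.dvd_prime hpp).mp h1 with h | h
        · exact absurd (AddMonoid.addOrderOf_eq_one_iff.mp h) he₀
        · rw [← h]; exact addOrderOf_dvd_natCard e₀
      have hfix := hP.card_modEq_card_fixedPoints E
      have hdvd2 : p ∣ Nat.card (MulAction.fixedPoints P E) :=
        (Nat.modEq_zero_iff_dvd.mp (hfix.symm.trans (Nat.modEq_zero_iff_dvd.mpr hdvd)))
      have hex : ∃ a : E, a ≠ 0 ∧ ∀ g : P, g • a = a := by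
        by_contra hne
        push Not at hne
        have hsub : Subsingleton (MulAction.fixedPoints P E) := by
          constructor
          rintro ⟨a, ha⟩ ⟨b, hb⟩
          have ha0 : a = 0 := by
            by_contra h0
            obtain ⟨g, hg⟩ := hne a h0
            exact hg (ha g)
          have hb0 : b = 0 := by
            by_contra h0
            obtain ⟨g, hg⟩ := hne b h0
            exact hg (hb g)
          subst ha0; subst hb0; rfl
        have hle1 : Nat.card (MulAction.fixedPoints P E) ≤ 1 :=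
          Finite.card_le_one_iff_subsingleton.mpr hsub
        have hpos : 0 < Nat.card (MulAction.fixedPoints P E) := by
          haveI : Nonempty (MulAction.fixedPoints P E) := ⟨⟨0, fun g => smul_zero g⟩⟩
          exact Nat.card_pos
        have h3 := Nat.le_of_dvd hpos hdvd2
        have h4 := hpp.two_le
        omega
      obtain ⟨a, ha0, ha⟩ := hex
      have htop : MulAction.stabilizer P a = ⊤ := by
        rw [eq_top_iff]; intro g _; exact ha g
      intro g e
      by_cases he : e = 0
      · rw [he, smul_zero]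
      · have hc := hconst e a he ha0
        rw [htop, Subgroup.card_top] at hc
        have htop' : MulAction.stabilizer P e = ⊤ := (Subgroup.card_eq_iff_eq_top _).mp hc
        have hg : g ∈ MulAction.stabilizer P e := by rw [htop']; trivial
        exact hg
  · have hpq : Nat.Coprime p q := (Nat.coprime_primes hpp hq).mpr hpq'
    have fpfc := fun {z : P} (hzc : ∀ g : P, g * z = z * g) (hzp : z ^ p = 1) (hz1 : z ≠ 1) =>
      fpf_of_central hpq hE hconst hzc hzp hz1
    have hcyc : IsCyclic P := by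
      by_contra hnc
      obtain ⟨A, hAn, ⟨hAc, hAp⟩, hAcard⟩ :=
        Cfsg.Agent.Helper24.exists_normal_elementary_sq hp2 hP hnc
      haveI := hAn
      haveI : Group.IsNilpotent P := hP.isNilpotent
      have hAcomm : ∀ a ∈ A, ∀ b ∈ A, a * b = b * a := by
        intro a ha b hb
        have := hAc.is_comm.comm ⟨a, ha⟩ ⟨b, hb⟩
        exact congrArg Subtype.val this
      have hAne : A ≠ ⊥ := by
        intro h
        rw [h, Subgroup.card_bot] at hAcard
        have := hpp.two_le
        nlinarith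
      obtain ⟨z, hzA, hz1, hzc⟩ := Cfsg.Agent.Helper24.exists_mem_center_of_normal A hAne
      have hzc' : ∀ g : P, g * z = z * g := fun g => (Subgroup.mem_center_iff.mp hzc g)
      have hzp : z ^ p = 1 := hAp z hzA
      have hz := fpfc hzc' hzp hz1
      have hex : ∃ g ∈ A, g ∉ Subgroup.zpowers z := by
        by_contra hne
        push Not at hne
        have hle : A ≤ Subgroup.zpowers z := fun g hg => hne g hg
        have h1 : Nat.card A ≤ Nat.card (Subgroup.zpowers z) := Subgroup.card_le_of_le hle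
        rw [hAcard, ht_card_zpowers hzp hz1] at h1
        have := hpp.two_le
        nlinarith
      obtain ⟨g, hgA, hgz⟩ := hex
      by_cases hI : ∃ u ∈ A, u ≠ 1 ∧ ∃ a : E, a ≠ 0 ∧ u • a = a
      · obtain ⟨u, huA, hu1, a, ha0, hua⟩ := hI
        have hexn : ∃ n : P, n * u * n⁻¹ ∉ Subgroup.zpowers u := by
          by_contra hne
          push Not at hne
          haveI : (Subgroup.zpowers u).Normal := by
            constructor
            intro x hx n
            obtain ⟨k, rfl⟩ := Subgroup.mem_zpowers_iff.mp hx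
            rw [← conj_zpow]
            exact Subgroup.zpow_mem _ (hne n) k
          have hne' : Subgroup.zpowers u ≠ ⊥ := by
            intro h
            apply hu1
            have := Subgroup.mem_zpowers u
            rw [h, Subgroup.mem_bot] at this
            exact this
          obtain ⟨x, hx, hx1, hxc⟩ :=
            Cfsg.Agent.Helper24.exists_mem_center_of_normal (Subgroup.zpowers u) hne'
          have hux : u ∈ Subgroup.zpowers x := ht_mem_zpowers_symm (hAp u huA) hx hx1
          have huc : u ∈ Subgroup.center P := (Subgroup.zpowers_le.mpr hxc) hux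
          exact ha0 (fpfc (fun g => Subgroup.mem_center_iff.mp huc g) (hAp u huA) hu1 a hua)
        obtain ⟨n, hn⟩ := hexn
        exact ht_case_one hp2 hP hpq hE hconst hAn hAcard hAp hAcomm hzA hz huA hu1 ha0 hua hn
      · push Not at hI
        have hall : ∀ e : E, e = 0 := by
          apply ht_case_two hpq hE (hAcomm g hgA z hzA) (hAp g hgA) hzp
          · intro i hi0 hip e he
            by_contra he0
            have hzi1 : z ^ i ≠ 1 := by
              intro h
              have h5 := orderOf_dvd_of_pow_eq_one h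
              have h6 : orderOf z = p := by
                rw [← Nat.card_zpowers]; exact ht_card_zpowers hzp hz1
              rw [h6] at h5
              exact absurd (Nat.le_of_dvd hi0 h5) (not_le.mpr hip)
            exact hI (z ^ i) (A.pow_mem hzA i) hzi1 e he0 he
          · intro k e he
            by_contra he0
            have hmem : g * z ^ k ∈ A := A.mul_mem hgA (A.pow_mem hzA k)
            have hne1 : g * z ^ k ≠ 1 := by
              intro h
              apply hgz
              have : g = (z ^ k)⁻¹ := eq_inv_of_mul_eq_one_left h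
              rw [this]
              exact Subgroup.inv_mem _ (Subgroup.pow_mem _ (Subgroup.mem_zpowers z) k)
            exact hI (g * z ^ k) hmem hne1 e he0 he
        apply hnc
        have h1 : ∀ x : P, x = 1 := by
          intro x
          apply FaithfulSMul.eq_of_smul_eq_smul (α := E)
          intro e
          rw [hall e, smul_zero, smul_zero]
        haveI : Subsingleton P := ⟨fun a b => by rw [h1 a, h1 b]⟩
        infer_instance
    refine ⟨hcyc, ?_⟩
    intro g hg1 a hga
    have hcomm : ∀ x y : P, x * y = y * x := by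
      obtain ⟨γ, hγ⟩ := hcyc.exists_generator
      intro x y
      obtain ⟨m, rfl⟩ := Subgroup.mem_zpowers_iff.mp (hγ x)
      obtain ⟨n, rfl⟩ := Subgroup.mem_zpowers_iff.mp (hγ y)
      rw [← zpow_add, ← zpow_add, add_comm]
    obtain ⟨k, hk⟩ := IsPGroup.iff_orderOf.mp hP g
    have hk0 : k ≠ 0 := by
      rintro rfl
      rw [pow_zero] at hk
      exact hg1 (orderOf_eq_one_iff.mp hk)
    obtain ⟨j, rfl⟩ := Nat.exists_eq_succ_of_ne_zero hk0
    have hwp : (g ^ (p ^ j)) ^ p = 1 := by
      rw [← pow_mul, ← pow_succ, ← hk, pow_orderOf_eq_one]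
    have hw1 : g ^ (p ^ j) ≠ 1 := by
      intro h
      have h5 := orderOf_dvd_of_pow_eq_one h
      rw [hk] at h5
      have h6 := Nat.le_of_dvd (pow_pos hpp.pos j) h5
      have h7 : p ^ j < p ^ j.succ := Nat.pow_lt_pow_right hpp.one_lt (Nat.lt_succ_self j)
      omega
    have hwa : (g ^ (p ^ j)) • a = a :=
      ht_smul_eq_of_mem_zpowers (Subgroup.pow_mem _ (Subgroup.mem_zpowers g) _) hga
    exact fpfc (fun x => hcomm x _) hwp hw1 a hwa

end Cfsg.Agent.Helper8
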