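import Cfsg.Agent.Helper8.Isolated

set_option autoImplicit false

namespace Cfsg.Agent.Helper8

variable {G : Type*} [Group G]

/-- The set of conjugates of `z`. -/
def isoZ (z : G) : Set G := {y | ∃ g : G, y = g * z * g⁻¹}

theorem isoZ_self (z : G) : z ∈ isoZ z := ⟨1, by group⟩

theorem isoZ_conj {z y : G} (hy : y ∈ isoZ z) (c : G) : c * y * c⁻¹ ∈ isoZ z := by
  obtain ⟨g, rfl⟩ := hy
  exact ⟨c * g, by group⟩

theorem isoZ_sq {z y : G} (hz : z * z = 1) (hy : y ∈ isoZ z) : y * y = 1 := by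
  obtain ⟨g, rfl⟩ := hy
  calc g * z * g⁻¹ * (g * z * g⁻¹) = g * (z * z) * g⁻¹ := by group
    _ = 1 := by rw [hz]; group

theorem isoZ_isolated {z y : G} (hz : Cfsg.IsIsolatedInvolution z) (hy : y ∈ isoZ z) :
    Cfsg.IsIsolatedInvolution y := by
  have hzz := sq_of_orderOf_two hz.1
  have hyy := isoZ_sq hzz hy
  obtain ⟨g, rfl⟩ := hy
  refine ⟨?_, ?_⟩
  · apply orderOf_two_of_sq _ hyy
    intro h
    apply ne_one_of_orderOf_two hz.1
    have : z = g⁻¹ * (g * z * g⁻¹) * g := by group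
    rw [this, h]; group
  · intro g' hc
    have h1 : Commute z ((g⁻¹ * g' * g) * z * (g⁻¹ * g' * g)⁻¹) := by
      show z * _ = _ * z
      calc z * ((g⁻¹ * g' * g) * z * (g⁻¹ * g' * g)⁻¹)
          = g⁻¹ * ((g * z * g⁻¹) * (g' * (g * z * g⁻¹) * g'⁻¹)) * g := by group
        _ = g⁻¹ * ((g' * (g * z * g⁻¹) * g'⁻¹) * (g * z * g⁻¹)) * g := by rw [hc.eq]
        _ = (g⁻¹ * g' * g) * z * (g⁻¹ * g' * g)⁻¹ * z := by group
    have h2 := hz.2 _ h1
    calc g' * (g * z * g⁻¹) * g'⁻¹ = g * ((g⁻¹ * g' * g) * z * (g⁻¹ * g' * g)⁻¹) * g⁻¹ := by group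
      _ = g * z * g⁻¹ := by rw [h2]

variable [Finite G]

theorem isoZ_odd {z y₁ y₂ : G} (hz : Cfsg.IsIsolatedInvolution z) (h₁ : y₁ ∈ isoZ z)
    (h₂ : y₂ ∈ isoZ z) : ∃ j : ℕ, orderOf (y₁ * y₂) = 2 * j + 1 := by
  have hi := isoZ_isolated hz h₁
  obtain ⟨g₁, rfl⟩ := h₁
  obtain ⟨g₂, rfl⟩ := h₂
  have := isolated_odd hi (g₂ * g₁⁻¹)
  have e : g₂ * g₁⁻¹ * (g₁ * z * g₁⁻¹) * (g₂ * g₁⁻¹)⁻¹ = g₂ * z * g₂⁻¹ := by group
  rwa [e] at this

theorem isoZ_conj_cent {z y t : G} (hz : Cfsg.IsIsolatedInvolution z) (hy : y ∈ isoZ z)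
    (htz : Commute t z) (hty : Commute t y) : ∃ c : G, Commute c t ∧ c * z * c⁻¹ = y := by
  obtain ⟨g, rfl⟩ := hy
  obtain ⟨k, hk, -, -, hkz⟩ := isolated_conj_exists hz g
  refine ⟨k, ?_, hkz⟩
  obtain ⟨n, rfl⟩ := Subgroup.mem_zpowers_iff.mp hk
  exact ((htz.mul_right hty).zpow_right n).symm

theorem isoZ_phi {z t y : G} (hz : Cfsg.IsIsolatedInvolution z) (htt : t * t = 1)
    (htz : Commute t z) (hne : t ≠ z) (hy : y ∈ isoZ z) :
    ∃ m : ℕ, orderOf (t * y) = 2 * m ∧ t * (t * y) ^ m ∈ isoZ z ∧ Commute t ((t * y) ^ m) ∧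
      Commute y ((t * y) ^ m) := by
  have hzz := sq_of_orderOf_two hz.1
  have hyy := isoZ_sq hzz hy
  have hyi := isoZ_isolated hz hy
  rcases invol_dichotomy htt hyy (orderOf_pos _) with ⟨j, hj, hconj, -⟩ | ⟨m, hm, hu1, huu, htu, hyu⟩
  · exfalso
    have ht : t ∈ isoZ z := by
      have h0 : t = ((t * y) ^ j)⁻¹ * ((t * y) ^ j * t * ((t * y) ^ j)⁻¹) * (((t * y) ^ j)⁻¹)⁻¹ := by
        group
      rw [hconj] at h0
      rw [h0]; exact isoZ_conj hy _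
    obtain ⟨g, hg⟩ := ht
    have := hz.2 g (by rw [← hg]; exact htz.symm)
    exact hne (by rw [hg, this])
  · refine ⟨m, hm, ?_, htu, hyu⟩
    have har : t * (t * y) * t = (t * y)⁻¹ := dih_rel_left htt hyy
    have hbr : y * (t * y) * y = (t * y)⁻¹ := dih_rel_right htt hyy
    obtain ⟨r, hr⟩ : ∃ r, r = t * y := ⟨_, rfl⟩
    rw [← hr] at hm hu1 huu htu hyu har hbr ⊢
    rcases Nat.even_or_odd' m with ⟨i, rfl | rfl⟩
    · exfalso
      have e1 : r ^ i * y * (r ^ i)⁻¹ = r ^ (2 * i) * y := by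
        rw [mul_assoc, dih_swap' hyy hbr i, ← mul_assoc, ← pow_add]; congr 2; ring
      have hc : Commute y (r ^ i * y * (r ^ i)⁻¹) := by
        rw [e1]; show y * (r ^ (2 * i) * y) = r ^ (2 * i) * y * y
        rw [← mul_assoc, hyu]
      have := hyi.2 _ hc
      rw [e1] at this
      exact hu1 (mul_right_cancel (this.trans (one_mul y).symm))
    · have e1 : r ^ i * (r * t) * (r ^ i)⁻¹ = r ^ (2 * i + 1) * t := by
        rw [mul_assoc, mul_assoc, dih_swap' htt har i, ← mul_assoc, ← mul_assoc, ← pow_succ,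
          ← pow_add]
        congr 2; ring
      have e2 : r * t = t * y * t⁻¹ := by rw [hr, inv_eq_self_of_sq htt]
      have e3 : t * r ^ (2 * i + 1) = (r ^ i * t) * y * (r ^ i * t)⁻¹ := by
        rw [htu, ← e1, e2]; group
      rw [e3]
      exact isoZ_conj hy _

theorem isoZ_phi_unique {z t y z₁ : G} (hz : Cfsg.IsIsolatedInvolution z) (htt : t * t = 1)
    (htz : Commute t z) (hne : t ≠ z) (hy : y ∈ isoZ z) (hz₁ : z₁ ∈ isoZ z)
    (htz₁ : Commute t z₁) (hc : Commute y (t * z₁)) {m : ℕ} (hm : orderOf (t * y) = 2 * m) :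
    t * (t * y) ^ m = z₁ := by
  have hzz := sq_of_orderOf_two hz.1
  have h11 := isoZ_sq hzz hz₁
  have hne₁ : t ≠ z₁ := by
    rintro rfl
    obtain ⟨g, hg⟩ := hz₁
    exact hne (by rw [hg]; exact hz.2 g (by rw [← hg]; exact htz.symm))
  have hvv : (t * z₁) * (t * z₁) = 1 := by
    calc t * z₁ * (t * z₁) = t * (z₁ * t) * z₁ := by group
      _ = t * (t * z₁) * z₁ := by rw [htz₁.eq]
      _ = (t * t) * (z₁ * z₁) := by group
      _ = 1 := by rw [htt, h11, one_mul]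
  have hv1 : t * z₁ ≠ 1 := by
    intro h
    apply hne₁
    have : t = z₁⁻¹ := eq_inv_of_mul_eq_one_left h
    rw [this, inv_eq_self_of_sq h11]
  have hv2 : orderOf (t * z₁) = 2 := orderOf_two_of_sq hv1 hvv
  obtain ⟨n, hn⟩ := isoZ_odd hz hz₁ hy
  have hcomm : Commute (t * z₁) (z₁ * y) := by
    have c1 : Commute (t * z₁) z₁ := htz₁.mul_left (Commute.refl z₁)
    exact c1.mul_right hc.symm
  have hprod : t * y = (t * z₁) * (z₁ * y) := by
    calc t * y = t * (z₁ * z₁) * y := by rw [h11, mul_one]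
      _ = _ := by group
  have hcop : (orderOf (t * z₁)).Coprime (orderOf (z₁ * y)) := by
    rw [hv2, hn]; exact Nat.coprime_two_left.mpr ⟨n, rfl⟩
  have hord : orderOf (t * y) = 2 * (2 * n + 1) := by
    rw [hprod, hcomm.orderOf_mul_eq_mul_orderOf_of_coprime hcop, hv2, hn]
  have hmn : m = 2 * n + 1 := by omega
  subst hmn
  rw [hprod, hcomm.mul_pow]
  have h1 : (z₁ * y) ^ (2 * n + 1) = 1 := by rw [← hn]; exact pow_orderOf_eq_one _
  have h2 : (t * z₁) ^ (2 * n + 1) = t * z₁ := by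
    rw [pow_succ, pow_mul, pow_two, hvv, one_pow, one_mul]
  rw [h1, h2, mul_one, ← mul_assoc, htt, one_mul]

/-- Fibre counting: the conjugates of an isolated involution `z` split as a product. -/
theorem isoZ_card_fiber {z t : G} (hz : Cfsg.IsIsolatedInvolution z) (htt : t * t = 1)
    (htz : Commute t z) (hne : t ≠ z) :
    Nat.card {y : G // y ∈ isoZ z} =
      Nat.card {y : G // y ∈ isoZ z ∧ Commute y t} *
        Nat.card {y : G // y ∈ isoZ z ∧ Commute y (t * z)} := by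
  classical
  have hP3 : ∀ z₁ : G, ∃ c : G, (z₁ ∈ isoZ z ∧ Commute z₁ t) →
      (Commute c t ∧ c * z * c⁻¹ = z₁) := by
    intro z₁
    by_cases h : z₁ ∈ isoZ z ∧ Commute z₁ t
    · obtain ⟨c, hc⟩ := isoZ_conj_cent hz h.1 htz h.2.symm
      exact ⟨c, fun _ => hc⟩
    · exact ⟨1, fun h' => absurd h' h⟩
  choose c hc using hP3
  have hP1 := fun y (hy : y ∈ isoZ z) => isoZ_phi hz htt htz hne hy
  obtain ⟨φ, hφdef⟩ : ∃ φ : G → G, ∀ y, φ y = t * (t * y) ^ (orderOf (t * y) / 2) := ⟨_, fun _ => rfl⟩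
  have hφ : ∀ y, y ∈ isoZ z → φ y ∈ isoZ z ∧ Commute (φ y) t ∧ Commute y (t * φ y) := by
    intro y hy
    obtain ⟨m, hm, h1, h2, h3⟩ := hP1 y hy
    have hm' : orderOf (t * y) / 2 = m := by omega
    rw [hφdef, hm']
    refine ⟨h1, ?_, ?_⟩
    · exact (Commute.refl t).mul_left h2.symm
    · rw [← mul_assoc, htt, one_mul]; exact h3
  have hφu : ∀ y z₁, y ∈ isoZ z → z₁ ∈ isoZ z → Commute z₁ t → Commute y (t * z₁) →
      φ y = z₁ := by
    intro y z₁ hy hz₁ hzt hcy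
    obtain ⟨m, hm, -⟩ := hP1 y hy
    have hm' : orderOf (t * y) / 2 = m := by omega
    rw [hφdef, hm']
    exact isoZ_phi_unique hz htt htz hne hy hz₁ hzt.symm hcy hm
  have hconjtz : ∀ d z₁ : G, Commute d t → d * z * d⁻¹ = z₁ → t * z₁ = d * (t * z) * d⁻¹ := by
    intro d z₁ hd hdz
    rw [← hdz]
    calc t * (d * z * d⁻¹) = (t * d) * z * d⁻¹ := by group
      _ = (d * t) * z * d⁻¹ := by rw [hd.eq]
      _ = d * (t * z) * d⁻¹ := by group
  have hA : ∀ y, y ∈ isoZ z → (c (φ y))⁻¹ * y * c (φ y) ∈ isoZ z ∧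
      Commute ((c (φ y))⁻¹ * y * c (φ y)) (t * z) := by
    intro y hy
    obtain ⟨h1, h2, h3⟩ := hφ y hy
    obtain ⟨hd1, hd2⟩ := hc (φ y) ⟨h1, h2⟩
    refine ⟨by simpa using isoZ_conj hy (c (φ y))⁻¹, ?_⟩
    rw [hconjtz _ _ hd1 hd2] at h3
    show (c (φ y))⁻¹ * y * c (φ y) * (t * z) = t * z * ((c (φ y))⁻¹ * y * c (φ y))
    calc (c (φ y))⁻¹ * y * c (φ y) * (t * z)
        = (c (φ y))⁻¹ * (y * (c (φ y) * (t * z) * (c (φ y))⁻¹)) * c (φ y) := by group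
      _ = (c (φ y))⁻¹ * ((c (φ y) * (t * z) * (c (φ y))⁻¹) * y) * c (φ y) := by rw [h3.eq]
      _ = t * z * ((c (φ y))⁻¹ * y * c (φ y)) := by group
  have hB : ∀ z₁ y', z₁ ∈ isoZ z → Commute z₁ t → y' ∈ isoZ z → Commute y' (t * z) →
      φ (c z₁ * y' * (c z₁)⁻¹) = z₁ := by
    intro z₁ y' hz₁ hzt hy' hyc
    obtain ⟨hd1, hd2⟩ := hc z₁ ⟨hz₁, hzt⟩
    apply hφu _ _ (isoZ_conj hy' _) hz₁ hzt
    rw [hconjtz _ _ hd1 hd2]
    show c z₁ * y' * (c z₁)⁻¹ * (c z₁ * (t * z) * (c z₁)⁻¹) =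
      c z₁ * (t * z) * (c z₁)⁻¹ * (c z₁ * y' * (c z₁)⁻¹)
    calc c z₁ * y' * (c z₁)⁻¹ * (c z₁ * (t * z) * (c z₁)⁻¹)
        = c z₁ * (y' * (t * z)) * (c z₁)⁻¹ := by group
      _ = c z₁ * ((t * z) * y') * (c z₁)⁻¹ := by rw [hyc.eq]
      _ = c z₁ * (t * z) * (c z₁)⁻¹ * (c z₁ * y' * (c z₁)⁻¹) := by group
  refine (Nat.card_congr ?_).trans (Nat.card_prod _ _)
  exact
    { toFun := fun y => (⟨φ y.1, (hφ y.1 y.2).1, (hφ y.1 y.2).2.1⟩,
        ⟨(c (φ y.1))⁻¹ * y.1 * c (φ y.1), hA y.1 y.2⟩)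
      invFun := fun p => ⟨c p.1.1 * p.2.1 * (c p.1.1)⁻¹, isoZ_conj p.2.2.1 _⟩
      left_inv := by
        rintro ⟨y, hy⟩
        apply Subtype.ext
        show c (φ y) * ((c (φ y))⁻¹ * y * c (φ y)) * (c (φ y))⁻¹ = y
        group
      right_inv := by
        rintro ⟨⟨z₁, hz₁, hzt⟩, ⟨y', hy', hyc⟩⟩
        have hφ' := hB z₁ y' hz₁ hzt hy' hyc
        apply Prod.ext
        · apply Subtype.ext
          exact hφ'
        · apply Subtype.ext
          show (c (φ (c z₁ * y' * (c z₁)⁻¹)))⁻¹ * (c z₁ * y' * (c z₁)⁻¹) *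
            c (φ (c z₁ * y' * (c z₁)⁻¹)) = y'
          rw [hφ']
          group }

/-- The odd-order elements inverted by an isolated involution `z` and commuting with `x ∈ C(z)`
correspond to the conjugates of `z` commuting with `x`. -/
theorem isoK_card {z x : G} (hz : Cfsg.IsIsolatedInvolution z) (hxz : Commute x z) :
    Nat.card {k : G // Odd (orderOf k) ∧ z * k * z⁻¹ = k⁻¹ ∧ Commute k x} =
      Nat.card {y : G // y ∈ isoZ z ∧ Commute y x} := by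
  refine Nat.card_congr (Equiv.ofBijective
    (fun k => ⟨k.1 * z * k.1⁻¹, ⟨k.1, rfl⟩,
      (k.2.2.2.mul_left hxz.symm).mul_left k.2.2.2.inv_left⟩) ⟨?_, ?_⟩)
  · rintro ⟨k, hk, hkz, hkx⟩ ⟨k', hk', hkz', hkx'⟩ h
    have h' : k * z * k⁻¹ = k' * z * k'⁻¹ := congrArg Subtype.val h
    apply Subtype.ext
    apply inverted_unique hk hkz hk' hkz'
    calc z * (k⁻¹ * k') = k⁻¹ * (k * z * k⁻¹) * k' := by group
      _ = k⁻¹ * (k' * z * k'⁻¹) * k' := by rw [h']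
      _ = (k⁻¹ * k') * z := by group
  · rintro ⟨y, ⟨g, rfl⟩, hyx⟩
    obtain ⟨k, hk, hodd, hinv, hkz⟩ := isolated_conj_exists hz g
    obtain ⟨n, rfl⟩ := Subgroup.mem_zpowers_iff.mp hk
    refine ⟨⟨_, hodd, hinv, ?_⟩, Subtype.ext hkz⟩
    exact ((hxz.mul_right hyx.symm).zpow_right n).symm

omit [Finite G] in
/-- Orbit–stabiliser for the conjugacy class of `z`. -/
theorem isoZ_card_mul (z : G) :
    Nat.card G = Nat.card (Subgroup.centralizer ({z} : Set G)) *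
      Nat.card {y : G // y ∈ isoZ z} := by
  rw [Subgroup.card_eq_card_quotient_mul_card_subgroup (Subgroup.centralizer ({z} : Set G)),
    mul_comm]
  congr 1
  refine Nat.card_congr (Equiv.ofBijective
    (fun q => Quotient.liftOn' q (fun g => (⟨g * z * g⁻¹, g, rfl⟩ : {y : G // y ∈ isoZ z})) ?_)
    ⟨?_, ?_⟩)
  · intro a b hab
    have hab' := QuotientGroup.leftRel_apply.mp hab
    have hc : z * (a⁻¹ * b) = (a⁻¹ * b) * z :=
      Subgroup.mem_centralizer_iff.mp hab' z (Set.mem_singleton z)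
    apply Subtype.ext
    show a * z * a⁻¹ = b * z * b⁻¹
    calc a * z * a⁻¹ = a * (z * (a⁻¹ * b)) * b⁻¹ := by group
      _ = a * ((a⁻¹ * b) * z) * b⁻¹ := by rw [hc]
      _ = b * z * b⁻¹ := by group
  · intro q₁ q₂
    refine Quotient.inductionOn₂' q₁ q₂ ?_
    intro a b h
    have h' : a * z * a⁻¹ = b * z * b⁻¹ := congrArg Subtype.val h
    refine Quotient.sound' (QuotientGroup.leftRel_apply.mpr ?_)
    rw [Subgroup.mem_centralizer_iff]
    intro w hw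
    rw [Set.mem_singleton_iff] at hw
    subst hw
    calc w * (a⁻¹ * b) = a⁻¹ * (a * w * a⁻¹) * b := by group
      _ = a⁻¹ * (b * w * b⁻¹) * b := by rw [h']
      _ = (a⁻¹ * b) * w := by group
  · rintro ⟨y, g, rfl⟩
    exact ⟨Quotient.mk'' g, rfl⟩

end Cfsg.Agent.Helper8
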