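import Cfsg.Agent.Helper8.Isolated
import Cfsg.Prelude.Def_Transfer
import Mathlib.GroupTheory.Focal
import Mathlib.GroupTheory.Nilpotent
import Mathlib.GroupTheory.Solvable

set_option autoImplicit false

namespace Cfsg.Agent.Helper8

variable {G : Type*} [Group G]

theorem pres_two_normal (L : Type*) [Group L] : (Cfsg.pResidual 2 L).Normal := by
  refine ⟨fun n hn g => ?_⟩
  unfold Cfsg.pResidual at hn ⊢
  induction hn using Subgroup.closure_induction with
  | mem x hx =>
    apply Subgroup.subset_closure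
    show Nat.Coprime (orderOf (g * x * g⁻¹)) 2
    have h1 : orderOf (g * x * g⁻¹) = orderOf x := (MulAut.conj g).orderOf_eq x
    rw [h1]; exact hx
  | one => rw [mul_one, mul_inv_cancel]; exact Subgroup.one_mem _
  | mul x y _ _ ihx ihy =>
    have e : g * (x * y) * g⁻¹ = (g * x * g⁻¹) * (g * y * g⁻¹) := by group
    rw [e]; exact Subgroup.mul_mem _ ihx ihy
  | inv x _ ih =>
    have e : g * x⁻¹ * g⁻¹ = (g * x * g⁻¹)⁻¹ := by group
    rw [e]; exact Subgroup.inv_mem _ ih

theorem mem_pres_two_of_odd {L : Type*} [Group L] {x : L} (hx : Odd (orderOf x)) :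
    x ∈ Cfsg.pResidual 2 L :=
  Subgroup.subset_closure (show Nat.Coprime (orderOf x) 2 from Nat.coprime_two_right.mpr hx)

theorem exists_two_pow_mem_pres {L : Type*} [Group L] [Finite L] (c : L) :
    ∃ j : ℕ, c ^ (2 ^ j) ∈ Cfsg.pResidual 2 L := by
  obtain ⟨j, m, hm, e⟩ := Nat.exists_eq_two_pow_mul_odd (orderOf_pos c).ne'
  refine ⟨j, mem_pres_two_of_odd ?_⟩
  have h1 : (c ^ (2 ^ j)) ^ m = 1 := by rw [← pow_mul, ← e, pow_orderOf_eq_one]
  exact Odd.of_dvd_nat hm (orderOf_dvd_of_pow_eq_one h1)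

/-- A hom into a group where every element has `2`-power order kills `pResidual 2`. -/
theorem pres_two_le_ker {L A : Type*} [Group L] [Group A] (f : L →* A)
    (hA : ∀ a : A, ∃ i : ℕ, a ^ (2 ^ i) = 1) : Cfsg.pResidual 2 L ≤ f.ker := by
  unfold Cfsg.pResidual
  rw [Subgroup.closure_le]
  intro x hx
  have hx' : Nat.Coprime (orderOf x) 2 := hx
  rw [SetLike.mem_coe, MonoidHom.mem_ker]
  obtain ⟨i, hi⟩ := hA (f x)
  have h1 : orderOf (f x) ∣ orderOf x := orderOf_map_dvd f x
  have h2 : orderOf (f x) ∣ 2 ^ i := orderOf_dvd_of_pow_eq_one hi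
  have h3 : Nat.Coprime (orderOf (f x)) (2 ^ i) :=
    (Nat.Coprime.coprime_dvd_left h1 hx').pow_right i
  exact orderOf_eq_one_iff.mp (h3.eq_one_of_dvd h2)

variable [Finite G]

/-- An isolated involution is central in every Sylow 2-subgroup containing it. -/
theorem isolated_sylow_comm {z : G} (hz : Cfsg.IsIsolatedInvolution z) (S : Sylow 2 G)
    (hzS : z ∈ (S : Subgroup G)) {s : G} (hs : s ∈ (S : Subgroup G)) : s * z = z * s := by
  have : Fact (Nat.Prime 2) := ⟨Nat.prime_two⟩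
  have hzz := sq_of_orderOf_two hz.1
  obtain ⟨j, hj⟩ := isolated_odd hz s
  have hmem : z * (s * z * s⁻¹) ∈ (S : Subgroup G) :=
    Subgroup.mul_mem _ hzS (Subgroup.mul_mem _ (Subgroup.mul_mem _ hs hzS) (Subgroup.inv_mem _ hs))
  obtain ⟨i, hi⟩ := (IsPGroup.iff_orderOf.mp S.2) ⟨_, hmem⟩
  rw [← Subgroup.orderOf_coe] at hi
  have hi' : orderOf (z * (s * z * s⁻¹)) = 2 ^ i := hi
  have h1 : orderOf (z * (s * z * s⁻¹)) = 1 := by
    rcases Nat.eq_zero_or_pos i with h0 | hpos
    · rw [hi', h0, pow_zero]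
    · exfalso
      have h2 : 2 ∣ 2 ^ i := dvd_pow_self 2 hpos.ne'
      rw [← hi', hj] at h2
      omega
  have h2 : z * (s * z * s⁻¹) = 1 := orderOf_eq_one_iff.mp h1
  have h3 : s * z * s⁻¹ = z := by
    have h4 : s * z * s⁻¹ = z⁻¹ := (inv_eq_of_mul_eq_one_right h2).symm
    rw [h4]; exact inv_eq_of_mul_eq_one_left hzz
  calc s * z = s * z * s⁻¹ * s := by group
    _ = z * s := by rw [h3]

/-- The centralizer of an isolated involution controls fusion of elements commuting with it. -/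
theorem isolated_fusion {z : G} (hz : Cfsg.IsIsolatedInvolution z) {y u : G}
    (hy : z * y = y * z) (hu : z * (u * y * u⁻¹) = (u * y * u⁻¹) * z) :
    ∃ c : G, c * z = z * c ∧ u * y * u⁻¹ = c * y * c⁻¹ := by
  obtain ⟨k, hk, -, -, hkz⟩ := isolated_conj_exists hz u⁻¹
  rw [inv_inv] at hk hkz
  have ht : (u⁻¹ * z * u) * y = y * (u⁻¹ * z * u) := by
    have h1 : u⁻¹ * (z * (u * y * u⁻¹)) * u = u⁻¹ * ((u * y * u⁻¹) * z) * u := by rw [hu]
    calc (u⁻¹ * z * u) * y = u⁻¹ * (z * (u * y * u⁻¹)) * u := by group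
      _ = u⁻¹ * ((u * y * u⁻¹) * z) * u := h1
      _ = y * (u⁻¹ * z * u) := by group
  have hky : k * y = y * k := by
    have h1 : Subgroup.zpowers (z * (u⁻¹ * z * u)) ≤ Subgroup.centralizer ({y} : Set G) := by
      rw [Subgroup.zpowers_le, Subgroup.mem_centralizer_iff]
      intro h hh
      rw [Set.mem_singleton_iff] at hh
      subst hh
      calc h * (z * (u⁻¹ * z * u)) = (h * z) * (u⁻¹ * z * u) := by group
        _ = (z * h) * (u⁻¹ * z * u) := by rw [hy]
        _ = z * (h * (u⁻¹ * z * u)) := by group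
        _ = z * ((u⁻¹ * z * u) * h) := by rw [ht]
        _ = z * (u⁻¹ * z * u) * h := by group
    have h2 := Subgroup.mem_centralizer_iff.mp (h1 hk) y (Set.mem_singleton y)
    exact h2.symm
  refine ⟨u * k, ?_, ?_⟩
  · have h1 : k * z = (u⁻¹ * z * u) * k := by
      calc k * z = k * z * k⁻¹ * k := by group
        _ = (u⁻¹ * z * u) * k := by rw [hkz]
    calc u * k * z = u * (k * z) := by group
      _ = u * ((u⁻¹ * z * u) * k) := by rw [h1]
      _ = z * (u * k) := by group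
  · calc u * y * u⁻¹ = u * (y * k * k⁻¹) * u⁻¹ := by group
      _ = u * (k * y * k⁻¹) * u⁻¹ := by rw [hky]
      _ = u * k * y * (u * k)⁻¹ := by group

end Cfsg.Agent.Helper8
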