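import Cfsg.Prelude.Def_LieRecognition
import Cfsg.Agent.Helper8.ElemCent
import Mathlib.GroupTheory.Sylow
import Mathlib.GroupTheory.PGroup
import Mathlib.GroupTheory.Index
import Mathlib.Algebra.Group.Subgroup.Pointwise

set_option autoImplicit false

namespace Cfsg.Agent.Helper8

/-- The two-point stabiliser of the rank-one set-up. -/
abbrev r1D (G : Type*) {Ω : Type*} [Group G] [MulAction G Ω] (a : Ω) (t : G) : Subgroup G :=
  MulAction.stabilizer G a ⊓ MulAction.stabilizer G (t • a)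

theorem r1_mem_D_iff {G Ω : Type*} [Group G] [MulAction G Ω] {a : Ω} {t : G} (d : G) :
    d ∈ r1D G a t ↔ d • a = a ∧ d • (t • a) = t • a := by
  rw [Subgroup.mem_inf, MulAction.mem_stabilizer_iff, MulAction.mem_stabilizer_iff]

theorem r1_invIn_iff {G Ω : Type*} [Group G] [MulAction G Ω] {a : Ω} (s : G) :
    s ∈ Cfsg.involutionsIn (MulAction.stabilizer G a : Set G) ↔ s ∈ invFix G a := by
  constructor
  · rintro ⟨h1, h2, h3⟩
    exact ⟨h2, h3, MulAction.mem_stabilizer_iff.mp h1⟩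
  · rintro ⟨h1, h2, h3⟩
    exact ⟨MulAction.mem_stabilizer_iff.mpr h3, h1, h2⟩

section

variable {G Ω : Type*} [Group G] [MulAction G Ω] {a : Ω} {t : G} {Q : Subgroup G}
  (hS : Cfsg.IsRankOneSetup G Ω a t Q)

include hS

theorem r1_tt_smul (x : Ω) : t • (t • x) = x := by rw [← mul_smul, hS.mul_self, one_smul]

theorem r1_tt_mul (u : G) : t * (t * u) = u := by rw [← mul_assoc, hS.mul_self, one_mul]

theorem r1_b_ne : t • a ≠ a := fun h => hS.not_mem (MulAction.mem_stabilizer_iff.mpr h)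

theorem r1_ti : t⁻¹ = t := inv_eq_self_of_sq hS.mul_self

theorem r1_stab_le_normalizer : MulAction.stabilizer G a ≤ Subgroup.normalizer (Q : Set G) := by
  intro h hh
  rw [Subgroup.mem_normalizer_iff]
  intro n
  constructor
  · exact hS.conj_mem h hh n
  · intro hn
    have := hS.conj_mem h⁻¹ (Subgroup.inv_mem _ hh) _ hn
    have e : h⁻¹ * (h * n * h⁻¹) * h⁻¹⁻¹ = n := by group
    rwa [e] at this

theorem r1_conj_mem {h x : G} (hh : h • a = a) (hx : x ∈ Q) : h * x * h⁻¹ ∈ Q :=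
  hS.conj_mem h (MulAction.mem_stabilizer_iff.mpr hh) x hx

theorem r1_conj_mem' {h x : G} (hh : h • a = a) (hx : x ∈ Q) : h⁻¹ * x * h ∈ Q := by
  have := hS.conj_mem h⁻¹ (Subgroup.inv_mem _ (MulAction.mem_stabilizer_iff.mpr hh)) x hx
  rwa [inv_inv] at this

theorem r1_decomp {g : G} (hg : g • a = a) : ∃ q ∈ Q, ∃ d ∈ r1D G a t, g = q * d := by
  have hmem : g ∈ Q ⊔ r1D G a t := by
    rw [hS.sup_eq]; exact MulAction.mem_stabilizer_iff.mpr hg
  have hle : r1D G a t ≤ Subgroup.normalizer (Q : Set G) :=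
    inf_le_left.trans (r1_stab_le_normalizer hS)
  have h := Subgroup.coe_mul_of_right_le_normalizer_left Q (r1D G a t) hle
  have h' : g ∈ ((Q ⊔ r1D G a t : Subgroup G) : Set G) := hmem
  rw [h] at h'
  obtain ⟨q, hq, d, hd, rfl⟩ := Set.mem_mul.mp h'
  exact ⟨q, hq, d, hd, rfl⟩

theorem r1_Q_inter {q : G} (hq : q ∈ Q) (hqb : q • (t • a) = t • a) : q = 1 := by
  have : q ∈ Q ⊓ MulAction.stabilizer G (t • a) := ⟨hq, MulAction.mem_stabilizer_iff.mpr hqb⟩
  rw [hS.inf_eq_bot] at this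
  exact Subgroup.mem_bot.mp this

theorem r1_Q_fix {q : G} (hq : q ∈ Q) : q • a = a := MulAction.mem_stabilizer_iff.mp (hS.le hq)

theorem r1_trans2 {x y z w : Ω} (hxy : x ≠ y) (hzw : z ≠ w) : ∃ g : G, g • x = z ∧ g • y = w :=
  MulAction.is_two_pretransitive_iff.mp hS.two_transitive hxy hzw

theorem r1_trans (x y : Ω) : ∃ g : G, g • x = y := by
  have := hS.two_transitive
  have : MulAction.IsPretransitive G Ω := MulAction.isPretransitive_of_is_two_pretransitive
  exact MulAction.exists_smul_eq G x y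

theorem r1_Q_trans {c : Ω} (hc : c ≠ a) : ∃ q ∈ Q, q • (t • a) = c := by
  obtain ⟨g, hga, hgb⟩ := r1_trans2 hS (r1_b_ne hS).symm (Ne.symm hc)
  obtain ⟨q, hq, d, hd, rfl⟩ := r1_decomp hS hga
  refine ⟨q, hq, ?_⟩
  rw [← hgb, mul_smul, ((r1_mem_D_iff d).mp hd).2]

theorem r1_Q_free {q : G} (hq : q ∈ Q) {c : Ω} (hc : c ≠ a) (hqc : q • c = c) : q = 1 := by
  obtain ⟨q', hq', rfl⟩ := r1_Q_trans hS hc
  have h1 : (q'⁻¹ * q * q') • (t • a) = t • a := by
    rw [mul_smul, mul_smul, hqc, inv_smul_smul]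
  have h2 : q'⁻¹ * q * q' ∈ Q :=
    Subgroup.mul_mem _ (Subgroup.mul_mem _ (Subgroup.inv_mem _ hq') hq) hq'
  have h3 := r1_Q_inter hS h2 h1
  calc q = q' * (q'⁻¹ * q * q') * q'⁻¹ := by group
    _ = 1 := by rw [h3]; group

theorem r1_Q_unique {x y : G} (hx : x ∈ Q) (hy : y ∈ Q) {c : Ω} (hc : c ≠ a)
    (h : x • c = y • c) : x = y := by
  have h1 : (y⁻¹ * x) • c = c := by rw [mul_smul, h, inv_smul_smul]
  have h2 := r1_Q_free hS (Subgroup.mul_mem _ (Subgroup.inv_mem _ hy) hx) hc h1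
  calc x = y * (y⁻¹ * x) := by group
    _ = y := by rw [h2, mul_one]

theorem r1_Q_regular {b c : Ω} (hb : b ≠ a) (hc : c ≠ a) : ∃! x : Q, (x : G) • b = c := by
  obtain ⟨q₁, hq₁, rfl⟩ := r1_Q_trans hS hb
  obtain ⟨q₂, hq₂, rfl⟩ := r1_Q_trans hS hc
  refine ⟨⟨q₂ * q₁⁻¹, Subgroup.mul_mem _ hq₂ (Subgroup.inv_mem _ hq₁)⟩, ?_, ?_⟩
  · show (q₂ * q₁⁻¹) • (q₁ • (t • a)) = q₂ • (t • a)
    rw [mul_smul, inv_smul_smul]
  · rintro ⟨x, hx⟩ hxe
    apply Subtype.ext
    show x = q₂ * q₁⁻¹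
    have hxe' : x • (q₁ • (t • a)) = q₂ • (t • a) := hxe
    apply r1_Q_unique hS hx (Subgroup.mul_mem _ hq₂ (Subgroup.inv_mem _ hq₁)) hb
    rw [hxe', mul_smul, inv_smul_smul]

theorem r1_canon_exists {g : G} (hg : g • a ≠ a) :
    ∃ x y : G, x • a = a ∧ y ∈ Q ∧ g = x * t * y := by
  have h1 : g⁻¹ • a ≠ a := by
    intro h; apply hg
    calc g • a = g • (g⁻¹ • a) := by rw [h]
      _ = a := smul_inv_smul g a
  obtain ⟨q, hq, hqb⟩ := r1_Q_trans hS h1
  refine ⟨g * q * t, q⁻¹, ?_, Subgroup.inv_mem _ hq, ?_⟩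
  · rw [mul_smul, mul_smul, hqb, smul_inv_smul]
  · rw [mul_assoc (g * q) t t, hS.mul_self, mul_one, mul_assoc, mul_inv_cancel, mul_one]

theorem r1_canon_unique {x y x' y' : G} (hx : x • a = a) (hy : y ∈ Q) (hx' : x' • a = a)
    (hy' : y' ∈ Q) (h : x * t * y = x' * t * y') : x = x' ∧ y = y' := by
  have key : ∀ x y : G, x • a = a → (x * t * y)⁻¹ • a = y⁻¹ • (t • a) := by
    intro x y hx
    rw [mul_inv_rev, mul_inv_rev, r1_ti hS, mul_smul, mul_smul, inv_smul_eq_iff.mpr hx.symm]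
  have h1 : (y⁻¹ : G) • (t • a) = y'⁻¹ • (t • a) := by
    rw [← key x y hx, ← key x' y' hx', h]
  have hyy : y⁻¹ = y'⁻¹ :=
    r1_Q_unique hS (Subgroup.inv_mem _ hy) (Subgroup.inv_mem _ hy') (r1_b_ne hS) h1
  have hyy' : y = y' := inv_injective hyy
  subst hyy'
  exact ⟨mul_right_cancel (mul_right_cancel h), rfl⟩

theorem r1_D_fix_a {d : G} (hd : d ∈ r1D G a t) : d • a = a := ((r1_mem_D_iff d).mp hd).1

theorem r1_D_fix_b {d : G} (hd : d ∈ r1D G a t) : d • (t • a) = t • a := ((r1_mem_D_iff d).mp hd).2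

theorem r1_t_conj_D {d : G} (hd : d ∈ r1D G a t) : t * d * t ∈ r1D G a t := by
  rw [r1_mem_D_iff]
  constructor
  · rw [mul_smul, mul_smul, r1_D_fix_b hS hd, r1_tt_smul hS]
  · rw [mul_smul, mul_smul, r1_tt_smul hS, r1_D_fix_a hS hd]

theorem r1_form_unique {g h f g' h' f' : G} (hg : g ∈ Q) (hh : h ∈ r1D G a t) (hf : f ∈ Q)
    (hg' : g' ∈ Q) (hh' : h' ∈ r1D G a t) (hf' : f' ∈ Q)
    (he : g * h * t * f = g' * h' * t * f') : g = g' ∧ h = h' ∧ f = f' := by
  have hgh : (g * h) • a = a := by rw [mul_smul, r1_D_fix_a hS hh, r1_Q_fix hS hg]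
  have hgh' : (g' * h') • a = a := by rw [mul_smul, r1_D_fix_a hS hh', r1_Q_fix hS hg']
  obtain ⟨e1, e2⟩ := r1_canon_unique hS hgh hf hgh' hf' he
  have h3 : g'⁻¹ * g = h' * h⁻¹ := by
    calc g'⁻¹ * g = g'⁻¹ * (g * h) * h⁻¹ := by group
      _ = g'⁻¹ * (g' * h') * h⁻¹ := by rw [e1]
      _ = h' * h⁻¹ := by group
  have h4 : (g'⁻¹ * g) • (t • a) = t • a := by
    rw [h3, mul_smul, inv_smul_eq_iff.mpr (r1_D_fix_b hS hh).symm]
    exact r1_D_fix_b hS hh'
  have h5 := r1_Q_inter hS (Subgroup.mul_mem _ (Subgroup.inv_mem _ hg') hg) h4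
  have hgg : g = g' := by
    calc g = g' * (g'⁻¹ * g) := by group
      _ = g' := by rw [h5, mul_one]
  subst hgg
  exact ⟨rfl, mul_left_cancel e1, e2⟩

end

theorem isPGroup_zpowers_of_sq {G : Type*} [Group G] {s : G} (hss : s * s = 1) :
    IsPGroup 2 (Subgroup.zpowers s) := by
  rintro ⟨c, hc⟩
  obtain ⟨k, rfl⟩ := Subgroup.mem_zpowers_iff.mp hc
  refine ⟨1, ?_⟩
  apply Subtype.ext
  show (s ^ k) ^ 2 ^ 1 = 1
  rw [pow_one, ← zpow_natCast, ← zpow_mul, mul_comm, zpow_mul, zpow_natCast, pow_two, hss, one_zpow]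

section fin

variable {G Ω : Type*} [Group G] [Finite G] [MulAction G Ω] {a : Ω} {t : G} {Q : Subgroup G}
  (hS : Cfsg.IsRankOneSetup G Ω a t Q)

include hS

theorem r1_finite : Finite Ω := by
  have hsurj : Function.Surjective (fun g : G => g • a) := fun y => r1_trans hS a y
  exact Finite.of_surjective _ hsurj

/-- Involutions of `G_a` lie in `Q`. -/
theorem r1_invol_mem_Q {s : G} (hsa : s • a = a) (hss : s * s = 1) : s ∈ Q := by
  obtain ⟨q, hq, d, hd, rfl⟩ := r1_decomp hS hsa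
  have hda := r1_D_fix_a hS hd
  have h1 : d * d = (q * (d * q * d⁻¹))⁻¹ := by
    have : (q * (d * q * d⁻¹)) * (d * d) = 1 := by
      calc (q * (d * q * d⁻¹)) * (d * d) = (q * d) * (q * d) := by group
        _ = 1 := hss
    exact eq_inv_of_mul_eq_one_right this
  have h2 : d * d ∈ Q := by
    rw [h1]
    exact Subgroup.inv_mem _ (Subgroup.mul_mem _ hq (r1_conj_mem hS hda hq))
  have h3 : d * d = 1 :=
    r1_Q_inter hS h2 (by rw [mul_smul, r1_D_fix_b hS hd, r1_D_fix_b hS hd])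
  have h4 : d = 1 := eq_one_of_sq_of_odd_card _ hS.odd_card hd h3
  rw [h4, mul_one]; exact hq

theorem r1_card_Omega : Nat.card Ω = Nat.card Q + 1 := by
  classical
  have : Finite Ω := r1_finite hS
  have hb := r1_b_ne hS
  have hmem : ∀ q : Q, (q : G) • (t • a) ≠ a := by
    intro q h
    apply hb
    have : (q : G) • (t • a) = (q : G) • a := by rw [h, r1_Q_fix hS q.2]
    exact smul_left_cancel _ this
  let f : Q → {c : Ω // c ≠ a} := fun q => ⟨(q : G) • (t • a), hmem q⟩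
  have hf : Function.Bijective f := by
    constructor
    · intro q q' h
      have h' : (q : G) • (t • a) = (q' : G) • (t • a) := congrArg Subtype.val h
      exact Subtype.ext (r1_Q_unique hS q.2 q'.2 hb h')
    · rintro ⟨c, hc⟩
      obtain ⟨q, hq, hqc⟩ := r1_Q_trans hS hc
      exact ⟨⟨q, hq⟩, Subtype.ext hqc⟩
  rw [← Nat.card_congr (Equiv.optionSubtypeNe a), Finite.card_option,
    Nat.card_congr (Equiv.ofBijective f hf)]

theorem r1_card_stab :
    Nat.card (MulAction.stabilizer G a) = Nat.card Q * Nat.card (r1D G a t) := by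
  rw [← Nat.card_prod]
  have hmem : ∀ p : Q × r1D G a t, (p.1 : G) * (p.2 : G) ∈ MulAction.stabilizer G a := by
    intro p
    rw [MulAction.mem_stabilizer_iff, mul_smul, r1_D_fix_a hS p.2.2, r1_Q_fix hS p.1.2]
  let f : Q × r1D G a t → MulAction.stabilizer G a := fun p => ⟨(p.1 : G) * (p.2 : G), hmem p⟩
  have hf : Function.Bijective f := by
    constructor
    · rintro ⟨⟨q, hq⟩, ⟨d, hd⟩⟩ ⟨⟨q', hq'⟩, ⟨d', hd'⟩⟩ h
      have h' : q * d = q' * d' := congrArg Subtype.val h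
      have h'' : q * d * t * 1 = q' * d' * t * 1 := by rw [h']
      obtain ⟨e1, e2, -⟩ := r1_form_unique hS hq hd (Subgroup.one_mem _) hq' hd'
        (Subgroup.one_mem _) h''
      subst e1; subst e2; rfl
    · rintro ⟨g, hg⟩
      obtain ⟨q, hq, d, hd, rfl⟩ := r1_decomp hS (MulAction.mem_stabilizer_iff.mp hg)
      exact ⟨(⟨q, hq⟩, ⟨d, hd⟩), rfl⟩
  exact (Nat.card_congr (Equiv.ofBijective f hf)).symm

theorem r1_card_G :
    Nat.card G = Nat.card Q * Nat.card (r1D G a t) * (Nat.card Q + 1) := by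
  have : MulAction.IsPretransitive G Ω := by
    have := hS.two_transitive
    exact MulAction.isPretransitive_of_is_two_pretransitive
  rw [← r1_card_stab hS, ← r1_card_Omega hS, ← Subgroup.card_mul_index (MulAction.stabilizer G a),
    MulAction.index_stabilizer_of_transitive]

theorem r1_sylow : ∃ P : Sylow 2 G, (P : Subgroup G) ≤ Q := by
  have : Fact (Nat.Prime 2) := ⟨Nat.prime_two⟩
  obtain ⟨P₀⟩ : Nonempty (Sylow 2 Q) := inferInstance
  have hH : Nat.card ((P₀ : Subgroup Q).map Q.subtype) = 2 ^ (Nat.card G).factorization 2 := by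
    have h1 : Nat.card ((P₀ : Subgroup Q).map Q.subtype) = Nat.card (P₀ : Subgroup Q) :=
      Subgroup.card_map_of_injective Q.subtype_injective
    rw [h1, P₀.card_eq_multiplicity, r1_card_G hS]
    congr 1
    have hQ0 : Nat.card Q ≠ 0 := Nat.card_pos.ne'
    have hD0 : Nat.card (r1D G a t) ≠ 0 := Nat.card_pos.ne'
    rw [Nat.factorization_mul (mul_ne_zero hQ0 hD0) (by omega), Nat.factorization_mul hQ0 hD0]
    have e1 : (Nat.card (r1D G a t)).factorization 2 = 0 := by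
      apply Nat.factorization_eq_zero_of_not_dvd
      have := hS.odd_card
      rw [← Nat.not_even_iff_odd, even_iff_two_dvd] at this
      exact this
    have e2 : (Nat.card Q + 1).factorization 2 = 0 := by
      apply Nat.factorization_eq_zero_of_not_dvd
      have := hS.even_card
      rw [even_iff_two_dvd] at this
      omega
    rw [Finsupp.add_apply, Finsupp.add_apply, e1, e2, add_zero, add_zero]
  refine ⟨Sylow.ofCard _ hH, ?_⟩
  rw [Sylow.coe_ofCard]
  exact Subgroup.map_subtype_le _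

theorem r1_fix_only {s : G} (hs1 : s ≠ 1) (hss : s * s = 1) (hsa : s • a = a) {c : Ω}
    (hc : s • c = c) : c = a := by
  by_contra hca
  exact hs1 (r1_Q_free hS (r1_invol_mem_Q hS hsa hss) hca hc)

theorem r1_exists_fix {u : G} (huu : u * u = 1) : ∃ x : Ω, u • x = x := by
  have : Finite Ω := r1_finite hS
  have : Fact (Nat.Prime 2) := ⟨Nat.prime_two⟩
  have hp : IsPGroup 2 (Subgroup.zpowers u) := isPGroup_zpowers_of_sq huu
  have hmod := hp.card_modEq_card_fixedPoints Ω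
  have hodd : ¬ 2 ∣ Nat.card Ω := by
    rw [r1_card_Omega hS]
    have := hS.even_card
    rw [even_iff_two_dvd] at this
    omega
  have hne : Nat.card (MulAction.fixedPoints (Subgroup.zpowers u) Ω) ≠ 0 := by
    intro h0
    rw [h0] at hmod
    exact hodd (Nat.modEq_zero_iff_dvd.mp hmod)
  have hnon : Nonempty (MulAction.fixedPoints (Subgroup.zpowers u) Ω) := by
    by_contra hcon
    rw [not_nonempty_iff] at hcon
    exact hne Nat.card_of_isEmpty
  obtain ⟨x, hx⟩ := hnon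
  exact ⟨x, hx ⟨u, Subgroup.mem_zpowers u⟩⟩

/-- Every involution of `G` fixes exactly one point. -/
theorem r1_uf : ∀ s : G, s ≠ 1 → s * s = 1 → ∃! x : Ω, s • x = x := by
  intro s hs1 hss
  obtain ⟨x, hx⟩ := r1_exists_fix hS hss
  refine ⟨x, hx, ?_⟩
  intro y hy
  obtain ⟨g, hg⟩ := r1_trans hS x a
  have h1 : g * s * g⁻¹ ∈ invFix G a := invFix_conj hg ⟨hs1, hss, hx⟩
  have h2 : (g * s * g⁻¹) • (g • y) = g • y := by
    rw [mul_smul, mul_smul, inv_smul_smul, hy]
  have h3 := r1_fix_only hS h1.1 h1.2.1 h1.2.2 h2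
  rw [← hg] at h3
  exact smul_left_cancel g h3

theorem r1_Q_ne_bot : ∃ x ∈ Q, x ≠ 1 := by
  obtain ⟨x, hx, hx1, -⟩ := exists_invol_of_even Q hS.even_card
  exact ⟨x, hx, hx1⟩

theorem r1_invFix_nonempty : (invFix G a).Nonempty := by
  obtain ⟨x, hx, hx1, hxx⟩ := exists_invol_of_even Q hS.even_card
  exact ⟨x, hx1, hxx, r1_Q_fix hS hx⟩

theorem r1_t_swap : t ∈ invSwap G a (t • a) := ⟨hS.ne_one, hS.mul_self, rfl⟩

end fin

end Cfsg.Agent.Helper8
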