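import Cfsg.Agent.Helper8.RankOne

set_option autoImplicit false

namespace Cfsg.Agent.Helper8

/-- The relation between a swapping involution `w` and its distinguished involution `s` of the
point stabiliser: `w s w = r⁻¹ w r` for some `r ∈ Q`. -/
def r1R {G Ω : Type*} [Group G] [MulAction G Ω] (Q : Subgroup G) (a : Ω) (w s : G) : Prop :=
  s ∈ invFix G a ∧ ∃ r ∈ Q, w * s * w = r⁻¹ * w * r

section

variable {G Ω : Type*} [Group G] [Finite G] [MulAction G Ω] {a : Ω} {t : G} {Q : Subgroup G}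
  (hS : Cfsg.IsRankOneSetup G Ω a t Q)

include hS

/-- Transfer the set-up to another involution swapping `a` and `t • a`. -/
theorem r1_setup_swap {w : G} (hw : w ∈ invSwap G a (t • a)) :
    Cfsg.IsRankOneSetup G Ω a w Q := by
  have hwa : w • a = t • a := hw.2.2
  refine ⟨hS.two_transitive, hw.2.1, hw.1, ?_, hS.le, hS.conj_mem, ?_, ?_, hS.even_card, ?_⟩
  · intro h
    rw [MulAction.mem_stabilizer_iff, hwa] at h
    exact r1_b_ne hS h
  · rw [hwa]; exact hS.inf_eq_bot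
  · rw [hwa]; exact hS.sup_eq
  · rw [hwa]; exact hS.odd_card

theorem r1_K_iff (k : G) :
    k ∈ Cfsg.invertedBy (r1D G a t) t ↔ t * k ∈ invSwap G a (t • a) := by
  have hti := r1_ti hS
  constructor
  · rintro ⟨hkD, hk⟩
    rw [hti] at hk
    refine ⟨?_, ?_, ?_⟩
    · intro h
      apply r1_b_ne hS
      have : (t * k) • a = a := by rw [h, one_smul]
      rwa [mul_smul, r1_D_fix_a hS hkD] at this
    · calc t * k * (t * k) = (t * k * t) * k := by group
        _ = 1 := by rw [hk, inv_mul_cancel]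
    · rw [mul_smul, r1_D_fix_a hS hkD]
  · intro hw
    have hwi := invSwap_inv hw
    refine ⟨?_, ?_⟩
    · rw [r1_mem_D_iff]
      constructor
      · have : k • a = t • ((t * k) • a) := by rw [← mul_smul t (t * k), r1_tt_mul hS]
        rw [this, hw.2.2, r1_tt_smul hS]
      · have : k • (t • a) = t • ((t * k) • (t • a)) := by
          rw [← mul_smul t (t * k), r1_tt_mul hS]
        rw [this, invSwap_symm hw]
    · rw [hti]
      calc t * k * t = (t * k) * t := rfl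
        _ = (t * k)⁻¹ * t := by rw [hwi]
        _ = k⁻¹ * (t⁻¹ * t) := by group
        _ = k⁻¹ := by rw [inv_mul_cancel, mul_one]

theorem r1_card_K : Nat.card (Cfsg.invertedBy (r1D G a t) t) = Nat.card (invFix G a) := by
  have huf := r1_uf hS
  rw [← card_invSwap_eq huf (r1_b_ne hS).symm rfl (r1_invFix_nonempty hS)]
  refine Nat.card_congr ⟨fun k => ⟨t * k.1, (r1_K_iff hS k.1).mp k.2⟩,
    fun w => ⟨t * w.1, (r1_K_iff hS _).mpr (by rw [r1_tt_mul hS]; exact w.2)⟩, ?_, ?_⟩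
  · intro k; apply Subtype.ext; exact r1_tt_mul hS k.1
  · intro w; apply Subtype.ext; exact r1_tt_mul hS w.1

theorem r1_K_trans {s s' : G} (hs : s ∈ invFix G a) (hs' : s' ∈ invFix G a) :
    ∃ k ∈ Cfsg.invertedBy (r1D G a t) t, k⁻¹ * s * k = s' := by
  have huf := r1_uf hS
  have hti := r1_ti hS
  have hts : t * s * t⁻¹ ∈ invFix G (t • a) := invSwap_conj (r1_t_swap hS) hs
  obtain ⟨w, hw, h1, -, -⟩ := exists_invSwap huf (r1_b_ne hS).symm hs' hts
  refine ⟨t * w, (r1_K_iff hS _).mpr (by rw [r1_tt_mul hS]; exact hw), ?_⟩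
  calc (t * w)⁻¹ * s * (t * w) = w⁻¹ * (t⁻¹ * s * t) * w := by group
    _ = w⁻¹ * (t * s * t⁻¹) * w := by rw [hti]
    _ = w⁻¹ * (w * s' * w⁻¹) * w := by rw [h1]
    _ = s' := by group

/-- The unique pair `(s, r)` with `t s t = r⁻¹ t r`. -/
theorem r1_pair : ∃ s r : G, (s ∈ invFix G a ∧ r ∈ Q ∧ t * s * t = r⁻¹ * t * r) ∧
    ∀ s' r' : G, s' ∈ invFix G a → r' ∈ Q → t * s' * t = r'⁻¹ * t * r' → s' = s ∧ r' = r := by
  have huf := r1_uf hS
  have hti := r1_ti hS
  have htt' := r1_tt_mul hS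
  obtain ⟨c, hc, -⟩ := huf t hS.ne_one hS.mul_self
  have hca : c ≠ a := by
    intro h; rw [h] at hc; exact r1_b_ne hS hc
  obtain ⟨r, hr, hrc⟩ := r1_Q_trans hS hca
  have htc : t ∈ invFix G c := ⟨hS.ne_one, hS.mul_self, hc⟩
  have hg : (t * r⁻¹) • c = a := by rw [mul_smul, ← hrc, inv_smul_smul, r1_tt_smul hS]
  have hs := invFix_conj hg htc
  have hs_eq : (t * r⁻¹) * t * (t * r⁻¹)⁻¹ = t * r⁻¹ * t * r * t := by
    rw [mul_inv_rev, inv_inv, hti]; simp only [mul_assoc]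
  rw [hs_eq] at hs
  refine ⟨t * r⁻¹ * t * r * t, r, ⟨hs, hr, ?_⟩, ?_⟩
  · simp only [mul_assoc, htt', hS.mul_self, mul_one]
  · intro s' r' hs' hr' h
    have hm1 : (t * s' * t) ≠ 1 := by
      intro h1
      apply hs'.1
      calc s' = t * (t * s' * t) * t := by simp only [mul_assoc, htt', hS.mul_self, mul_one]
        _ = 1 := by rw [h1, mul_one, hS.mul_self]
    have hmm : (t * s' * t) * (t * s' * t) = 1 := by
      calc (t * s' * t) * (t * s' * t) = t * (s' * s') * t := by simp only [mul_assoc, htt']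
        _ = 1 := by rw [hs'.2.1, mul_one, hS.mul_self]
    have hfix1 : (t * s' * t) • (t • a) = t • a := by
      rw [mul_smul, mul_smul, r1_tt_smul hS, hs'.2.2]
    have hfix2 : (t * s' * t) • (r'⁻¹ • c) = r'⁻¹ • c := by
      rw [h, mul_smul, mul_smul, smul_inv_smul, hc]
    have heq := uf_eq huf hm1 hmm hfix1 hfix2
    have hr'c : r' • (t • a) = c := by rw [heq, smul_inv_smul]
    have hrr : r' = r := r1_Q_unique hS hr' hr (r1_b_ne hS) (hr'c.trans hrc.symm)
    refine ⟨?_, hrr⟩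
    calc s' = t * (t * s' * t) * t := by simp only [mul_assoc, htt', hS.mul_self, mul_one]
      _ = t * (r'⁻¹ * t * r') * t := by rw [h]
      _ = t * r⁻¹ * t * r * t := by rw [hrr]; simp only [mul_assoc]

theorem r1R_exists : ∃ s, r1R Q a t s := by
  obtain ⟨s, r, ⟨h1, h2, h3⟩, -⟩ := r1_pair hS
  exact ⟨s, h1, r, h2, h3⟩

theorem r1R_unique {s s' : G} (h : r1R Q a t s) (h' : r1R Q a t s') : s = s' := by
  obtain ⟨s₀, r₀, -, huniq⟩ := r1_pair hS
  obtain ⟨h1, r, h2, h3⟩ := h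
  obtain ⟨h1', r', h2', h3'⟩ := h'
  rw [(huniq s r h1 h2 h3).1, (huniq s' r' h1' h2' h3').1]

theorem r1R_conj {w s d : G} (h : r1R Q a w s) (hd : d • a = a) :
    r1R Q a (d * w * d⁻¹) (d * s * d⁻¹) := by
  obtain ⟨h1, r, h2, h3⟩ := h
  refine ⟨invFix_conj hd h1, d * r * d⁻¹, r1_conj_mem hS hd h2, ?_⟩
  calc d * w * d⁻¹ * (d * s * d⁻¹) * (d * w * d⁻¹) = d * (w * s * w) * d⁻¹ := by group
    _ = d * (r⁻¹ * w * r) * d⁻¹ := by rw [h3]
    _ = (d * r * d⁻¹)⁻¹ * (d * w * d⁻¹) * (d * r * d⁻¹) := by group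

theorem r1_swap_conj {w d : G} (hw : w ∈ invSwap G a (t • a)) (hd : d ∈ r1D G a t) :
    d * w * d⁻¹ ∈ invSwap G a (t • a) := by
  obtain ⟨h1, h2, h3⟩ := hw
  have hda := r1_D_fix_a hS hd
  have hdb := r1_D_fix_b hS hd
  refine ⟨?_, ?_, ?_⟩
  · intro h; apply h1
    calc w = d⁻¹ * (d * w * d⁻¹) * d := by group
      _ = 1 := by rw [h]; group
  · calc d * w * d⁻¹ * (d * w * d⁻¹) = d * (w * w) * d⁻¹ := by group
      _ = 1 := by rw [h2]; group
  · rw [mul_smul, mul_smul, inv_smul_eq_iff.mpr hda.symm, h3, hdb]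

theorem r1R_surj {s : G} (hs : s ∈ invFix G a) : ∃ w ∈ invSwap G a (t • a), r1R Q a w s := by
  have huf := r1_uf hS
  obtain ⟨s₀, hR⟩ := r1R_exists hS
  have hney : (invFix G (t • a)).Nonempty := ⟨_, invSwap_conj (r1_t_swap hS) hs⟩
  obtain ⟨d, hda, hdb, hd⟩ := exists_conj_invFix huf (r1_b_ne hS).symm hR.1 hs hney
  refine ⟨d * t * d⁻¹, r1_swap_conj hS (r1_t_swap hS) ((r1_mem_D_iff d).mpr ⟨hda, hdb⟩), ?_⟩
  have := r1R_conj hS hR hda
  rwa [hd] at this

theorem r1R_inj {w w' s : G} (hw : w ∈ invSwap G a (t • a)) (hw' : w' ∈ invSwap G a (t • a))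
    (h : r1R Q a w s) (h' : r1R Q a w' s) : w = w' := by
  classical
  have huf := r1_uf hS
  have hex : ∀ v : invSwap G a (t • a), ∃ s, r1R Q a v.1 s :=
    fun v => r1R_exists (r1_setup_swap hS v.2)
  let Φ : invSwap G a (t • a) → invFix G a :=
    fun v => ⟨Classical.choose (hex v), (Classical.choose_spec (hex v)).1⟩
  have hΦ : ∀ v : invSwap G a (t • a), r1R Q a v.1 (Φ v).1 :=
    fun v => Classical.choose_spec (hex v)
  have hsurj : Function.Surjective Φ := by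
    rintro ⟨s, hs⟩
    obtain ⟨v, hv, hR⟩ := r1R_surj hS hs
    refine ⟨⟨v, hv⟩, Subtype.ext ?_⟩
    exact r1R_unique (r1_setup_swap hS hv) (hΦ ⟨v, hv⟩) hR
  have hcard : Nat.card (invSwap G a (t • a)) ≤ Nat.card (invFix G a) :=
    (card_invSwap_eq huf (r1_b_ne hS).symm rfl (r1_invFix_nonempty hS)).le
  have hbij := hsurj.bijective_of_nat_card_le hcard
  have e1 : Φ ⟨w, hw⟩ = ⟨s, h.1⟩ :=
    Subtype.ext (r1R_unique (r1_setup_swap hS hw) (hΦ ⟨w, hw⟩) h)
  have e2 : Φ ⟨w', hw'⟩ = ⟨s, h.1⟩ :=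
    Subtype.ext (r1R_unique (r1_setup_swap hS hw') (hΦ ⟨w', hw'⟩) h')
  have := hbij.1 (e1.trans e2.symm)
  exact congrArg Subtype.val this

theorem r1_cent_iff {w s d : G} (hw : w ∈ invSwap G a (t • a)) (hR : r1R Q a w s)
    (hd : d ∈ r1D G a t) : d * w = w * d ↔ d * s = s * d := by
  have hda := r1_D_fix_a hS hd
  have hRc := r1R_conj hS hR hda
  constructor
  · intro h
    have e : d * w * d⁻¹ = w := by rw [h]; group
    rw [e] at hRc
    have := r1R_unique (r1_setup_swap hS hw) hRc hR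
    calc d * s = (d * s * d⁻¹) * d := by group
      _ = s * d := by rw [this]
  · intro h
    have e : d * s * d⁻¹ = s := by rw [h]; group
    rw [e] at hRc
    have := r1R_inj hS (r1_swap_conj hS hw hd) hw hRc hR
    calc d * w = (d * w * d⁻¹) * d := by group
      _ = w * d := by rw [this]

end

end Cfsg.Agent.Helper8
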