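import Cfsg.Agent.Helper8.RankOne2
import Mathlib.GroupTheory.QuotientGroup.Basic

set_option autoImplicit false

namespace Cfsg.Agent.Helper8

/-- If `r` inverts `x` and has odd order then `x` has order at most two. -/
theorem sq_eq_one_of_conj_inv_of_odd {G : Type*} [Group G] {r x : G} (h : r * x * r⁻¹ = x⁻¹)
    {j : ℕ} (hr : r ^ (2 * j + 1) = 1) : x * x = 1 := by
  have h2 : (r * r) * x = x * (r * r) := by
    have : r * (r * x * r⁻¹) * r⁻¹ = x := by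
      rw [h]
      calc r * x⁻¹ * r⁻¹ = (r * x * r⁻¹)⁻¹ := by group
        _ = x := by rw [h, inv_inv]
    calc (r * r) * x = (r * (r * x * r⁻¹) * r⁻¹) * (r * r) := by group
      _ = x * (r * r) := by rw [this]
  have h3 : Commute (r * r) x := h2
  have h4 : Commute ((r * r) ^ j) x := h3.pow_left j
  have h5 : (r * r) ^ j * r = 1 := by
    rw [← pow_two, ← pow_mul, ← pow_succ]; exact hr
  have h6 : r = ((r * r) ^ j)⁻¹ := eq_inv_of_mul_eq_one_right h5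
  have h7 : Commute r x := by rw [h6]; exact h4.inv_left
  have h8 : x = x⁻¹ := by
    calc x = r * x * r⁻¹ := by rw [h7.eq]; group
      _ = x⁻¹ := h
  have h9 : x * x⁻¹ = 1 := mul_inv_cancel x
  rw [← h8] at h9
  exact h9

theorem swap_pow_odd {G Ω : Type*} [Group G] [MulAction G Ω] {g : G} {a b : Ω} (h1 : g • a = b)
    (h2 : g • b = a) (k : ℕ) : g ^ (2 * k + 1) • a = b ∧ g ^ (2 * k + 1) • b = a := by
  have key : g ^ (2 * k) • a = a ∧ g ^ (2 * k) • b = b := by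
    induction k with
    | zero => simp
    | succ n ih =>
      have e : g ^ (2 * (n + 1)) = g ^ (2 * n) * g * g := by
        rw [show 2 * (n + 1) = 2 * n + 1 + 1 by ring, pow_succ, pow_succ]
      rw [e]
      constructor
      · rw [mul_smul, mul_smul, h1, h2, ih.1]
      · rw [mul_smul, mul_smul, h2, h1, ih.2]
  rw [pow_succ]
  constructor
  · rw [mul_smul, h1, key.2]
  · rw [mul_smul, h2, key.1]

section

variable {G Ω : Type*} [Group G] [Finite G] [MulAction G Ω] {a : Ω} {t : G} {Q : Subgroup G}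
  (hS : Cfsg.IsRankOneSetup G Ω a t Q)

include hS

theorem r1_odd_order {s u : G} (hs1 : s ≠ 1) (hss : s * s = 1) (hsa : s • a = a) (hu1 : u ≠ 1)
    (huu : u * u = 1) (hua : u • a ≠ a) : ∃ j : ℕ, orderOf (s * u) = 2 * j + 1 := by
  have huf := r1_uf hS
  rcases invol_dichotomy hss huu (orderOf_pos _) with ⟨j, hj, -⟩ | ⟨k, -, hc1, hcc, hsc, huc⟩
  · exact ⟨j, hj⟩
  · exfalso
    obtain ⟨y, hy, -⟩ := huf u hu1 huu
    have h1 : (s * u) ^ k • a = a := commute_fix huf hs1 hss hsc hsa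
    have h2 : (s * u) ^ k • y = y := commute_fix huf hu1 huu huc hy
    have h3 : a = y := uf_eq huf hc1 hcc h1 h2
    apply hua
    rw [h3]; exact hy

/-- A normal subgroup of odd order fixes `a`, when `G` has two distinct commuting involutions. -/
theorem r1_odd_normal_le
    (h2 : ∃ x y : G, x ≠ 1 ∧ y ≠ 1 ∧ x ≠ y ∧ x * x = 1 ∧ y * y = 1 ∧ x * y = y * x)
    {M : Subgroup G} (hMn : M.Normal) (hodd : Odd (Nat.card M)) :
    M ≤ MulAction.stabilizer G a := by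
  have huf := r1_uf hS
  obtain ⟨x, y, hx1, hy1, hxy, hxx, hyy, hcomm⟩ := h2
  obtain ⟨p, hp, -⟩ := huf x hx1 hxx
  have hyp : y • p = p := commute_fix huf hx1 hxx hcomm hp
  have key : ∀ o ∈ M, o • p = p := by
    intro o ho
    by_contra hop
    have hy' : o * y * o⁻¹ ∈ invFix G (o • p) := invFix_conj rfl ⟨hy1, hyy, hyp⟩
    rcases invol_dichotomy hxx hy'.2.1 (orderOf_pos _) with
      ⟨j, -, hj, -⟩ | ⟨k, -, hc1, hcc, hsc, huc⟩
    · let φ := QuotientGroup.mk' M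
      have ho1 : φ o = 1 := (QuotientGroup.eq_one_iff o).mpr ho
      have hφy' : φ (o * y * o⁻¹) = φ y := by
        rw [map_mul, map_mul, map_inv, ho1, one_mul, inv_one, mul_one]
      have hφc : Commute (φ x) (φ y) := by
        show φ x * φ y = φ y * φ x
        rw [← map_mul, ← map_mul, hcomm]
      have h3 := congrArg φ hj
      rw [map_mul, map_mul, map_inv, map_pow, map_mul, hφy'] at h3
      have hc2 : Commute ((φ x * φ y) ^ j) (φ x) :=
        ((Commute.refl (φ x)).mul_left hφc.symm).pow_left j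
      have h4 : φ x = φ y := by rw [← h3, hc2.eq, mul_assoc, mul_inv_cancel, mul_one]
      have h5 : x⁻¹ * y ∈ M := QuotientGroup.eq.mp h4
      have h6 : (x⁻¹ * y) * (x⁻¹ * y) = 1 := by
        rw [inv_eq_self_of_sq hxx]
        calc x * y * (x * y) = x * (y * x) * y := by group
          _ = x * (x * y) * y := by rw [hcomm]
          _ = (x * x) * (y * y) := by group
          _ = 1 := by rw [hxx, hyy, one_mul]
      have h7 := eq_one_of_sq_of_odd_card M hodd h5 h6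
      apply hxy
      calc x = x * (x⁻¹ * y) := by rw [h7, mul_one]
        _ = y := by group
    · have h1 : (x * (o * y * o⁻¹)) ^ k • p = p := commute_fix huf hx1 hxx hsc hp
      have h2 : (x * (o * y * o⁻¹)) ^ k • (o • p) = o • p :=
        commute_fix huf hy'.1 hy'.2.1 huc hy'.2.2
      exact hop (uf_eq huf hc1 hcc h1 h2).symm
  intro m hm
  rw [MulAction.mem_stabilizer_iff]
  obtain ⟨g, hg⟩ := r1_trans hS a p
  have := key (g * m * g⁻¹) (hMn.conj_mem m hm g)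
  rw [← hg, mul_smul, mul_smul, inv_smul_smul] at this
  exact smul_left_cancel g this

/-- Regularity of the conjugate `g Q g⁻¹` on the points other than `g • a`. -/
theorem r1_conj_regular (g : G) {c c' : Ω} (hc : c ≠ g • a) (hc' : c' ≠ g • a) :
    ∃ q ∈ Q, (g * q * g⁻¹) • c = c' ∧ ∀ q' ∈ Q, (g * q' * g⁻¹) • c = c' → q' = q := by
  have h1 : g⁻¹ • c ≠ a := by
    intro h; apply hc; rw [← h, smul_inv_smul]
  have h2 : g⁻¹ • c' ≠ a := by
    intro h; apply hc'; rw [← h, smul_inv_smul]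
  obtain ⟨⟨q, hq⟩, hqc, huniq⟩ := r1_Q_regular hS h1 h2
  have hqc' : q • g⁻¹ • c = g⁻¹ • c' := hqc
  refine ⟨q, hq, ?_, ?_⟩
  · rw [mul_smul, mul_smul, hqc', smul_inv_smul]
  · intro q' hq' h
    have : ((⟨q', hq'⟩ : Q) : G) • g⁻¹ • c = g⁻¹ • c' := by
      show q' • g⁻¹ • c = g⁻¹ • c'
      rw [← h, mul_smul, mul_smul, inv_smul_smul]
    exact congrArg Subtype.val (huniq ⟨q', hq'⟩ this)

/-- If `X` fixes `g • a`, `c`, `c'`, the element of `g Q g⁻¹` moving `c` to `c'` centralises `X`. -/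
theorem r1_cent_trans (X : Set G) (g : G) {c c' : Ω} (hc : c ≠ g • a) (hc' : c' ≠ g • a)
    (hXp : ∀ x ∈ X, x • (g • a) = g • a) (hXc : ∀ x ∈ X, x • c = c)
    (hXc' : ∀ x ∈ X, x • c' = c') :
    ∃ q ∈ Q, g * q * g⁻¹ ∈ Subgroup.centralizer X ∧ (g * q * g⁻¹) • c = c' := by
  obtain ⟨q, hq, hqc, huniq⟩ := r1_conj_regular hS g hc hc'
  refine ⟨q, hq, ?_, hqc⟩
  rw [Subgroup.mem_centralizer_iff]
  intro x hx
  have hxa : (g⁻¹ * x * g) • a = a := by rw [mul_smul, mul_smul, hXp x hx, inv_smul_smul]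
  have hq'' : (g⁻¹ * x * g) * q * (g⁻¹ * x * g)⁻¹ ∈ Q := r1_conj_mem hS hxa hq
  have e : g * ((g⁻¹ * x * g) * q * (g⁻¹ * x * g)⁻¹) * g⁻¹ = x * (g * q * g⁻¹) * x⁻¹ := by group
  have h1 : (g * ((g⁻¹ * x * g) * q * (g⁻¹ * x * g)⁻¹) * g⁻¹) • c = c' := by
    rw [e, mul_smul, mul_smul, inv_smul_eq_iff.mpr (hXc x hx).symm, hqc, hXc' x hx]
  have h2 := huniq _ hq'' h1
  have h3 : x * (g * q * g⁻¹) * x⁻¹ = g * q * g⁻¹ := by rw [← e, h2]
  calc x * (g * q * g⁻¹) = (x * (g * q * g⁻¹) * x⁻¹) * x := by group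
    _ = (g * q * g⁻¹) * x := by rw [h3]

theorem r1_fix_stab_trans (X : Set G) {p c c' : Ω} (hc : c ≠ p) (hc' : c' ≠ p)
    (hXp : ∀ x ∈ X, x • p = p) (hXc : ∀ x ∈ X, x • c = c) (hXc' : ∀ x ∈ X, x • c' = c') :
    ∃ g ∈ Subgroup.centralizer X, g • p = p ∧ g • c = c' := by
  obtain ⟨g₀, rfl⟩ := r1_trans hS a p
  obtain ⟨q, hq, hcent, hqc⟩ := r1_cent_trans hS X g₀ hc hc' hXp hXc hXc'
  refine ⟨g₀ * q * g₀⁻¹, hcent, ?_, hqc⟩
  rw [mul_smul, mul_smul, inv_smul_smul, r1_Q_fix hS hq]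

theorem r1_fix_trans (X : Set G)
    (h3 : ∃ b c d : Ω, b ≠ c ∧ b ≠ d ∧ c ≠ d ∧ ∀ x ∈ X, x • b = b ∧ x • c = c ∧ x • d = d)
    {p q : Ω} (hXp : ∀ x ∈ X, x • p = p) (hXq : ∀ x ∈ X, x • q = q) :
    ∃ g ∈ Subgroup.centralizer X, g • p = q := by
  by_cases hpq : p = q
  · exact ⟨1, Subgroup.one_mem _, by rw [one_smul, hpq]⟩
  obtain ⟨b, c, d, hbc, hbd, hcd, hfix⟩ := h3
  obtain ⟨r, hrp, hrq, hXr⟩ : ∃ r : Ω, r ≠ p ∧ r ≠ q ∧ ∀ x ∈ X, x • r = r := by
    rcases eq_or_ne b p with hb | hb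
    · rcases eq_or_ne c q with hc' | hc'
      · exact ⟨d, fun h => hbd (hb.trans h.symm), fun h => hcd (hc'.trans h.symm),
          fun x hx => (hfix x hx).2.2⟩
      · exact ⟨c, fun h => hbc (hb.trans h.symm), hc', fun x hx => (hfix x hx).2.1⟩
    · rcases eq_or_ne b q with hb' | hb'
      · rcases eq_or_ne c p with hc' | hc'
        · exact ⟨d, fun h => hcd (hc'.trans h.symm), fun h => hbd (hb'.trans h.symm),
            fun x hx => (hfix x hx).2.2⟩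
        · exact ⟨c, hc', fun h => hbc (hb'.trans h.symm), fun x hx => (hfix x hx).2.1⟩
      · exact ⟨b, hb, hb', fun x hx => (hfix x hx).1⟩
  obtain ⟨g, hg, -, hgp⟩ := r1_fix_stab_trans hS X (Ne.symm hrp) (Ne.symm hrq) hXr hXp hXq
  exact ⟨g, hg, hgp⟩

theorem r1_fix_two_trans (X : Set G)
    (h3 : ∃ b c d : Ω, b ≠ c ∧ b ≠ d ∧ c ≠ d ∧ ∀ x ∈ X, x • b = b ∧ x • c = c ∧ x • d = d)
    {b₁ b₂ c₁ c₂ : Ω} (hb₁ : ∀ x ∈ X, x • b₁ = b₁) (hb₂ : ∀ x ∈ X, x • b₂ = b₂)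
    (hc₁ : ∀ x ∈ X, x • c₁ = c₁) (hc₂ : ∀ x ∈ X, x • c₂ = c₂) (hb : b₁ ≠ b₂) (hc : c₁ ≠ c₂) :
    ∃ g ∈ Subgroup.centralizer X, g • b₁ = c₁ ∧ g • b₂ = c₂ := by
  obtain ⟨g₁, hg₁, hg₁b⟩ := r1_fix_trans hS X h3 hb₁ hc₁
  have hfix : ∀ x ∈ X, x • (g₁ • b₂) = g₁ • b₂ := by
    intro x hx
    have := Subgroup.mem_centralizer_iff.mp hg₁ x hx
    rw [← mul_smul, this, mul_smul, hb₂ x hx]
  have hne : g₁ • b₂ ≠ c₁ := by
    intro h; apply hb; rw [← hg₁b] at h; exact (smul_left_cancel g₁ h).symm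
  obtain ⟨g₂, hg₂, hg₂c, hg₂b⟩ := r1_fix_stab_trans hS X hne (Ne.symm hc) hc₁ hfix hc₂
  refine ⟨g₂ * g₁, Subgroup.mul_mem _ hg₂ hg₁, ?_, ?_⟩
  · rw [mul_smul, hg₁b, hg₂c]
  · rw [mul_smul, hg₂b]

/-- An involution centralising `X` and swapping `a` and `t • a`. -/
theorem r1_exists_swap_cent (X : Set G) (hX : X ⊆ (r1D G a t : Set G))
    (h3 : ∃ b c d : Ω, b ≠ c ∧ b ≠ d ∧ c ≠ d ∧ ∀ x ∈ X, x • b = b ∧ x • c = c ∧ x • d = d) :
    ∃ w ∈ Subgroup.centralizer X, w ∈ invSwap G a (t • a) := by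
  have hXa : ∀ x ∈ X, x • a = a := fun x hx => r1_D_fix_a hS (hX hx)
  have hXb : ∀ x ∈ X, x • (t • a) = t • a := fun x hx => r1_D_fix_b hS (hX hx)
  obtain ⟨g, hg, hga, hgb⟩ :=
    r1_fix_two_trans hS X h3 hXa hXb hXb hXa (r1_b_ne hS).symm (r1_b_ne hS)
  obtain ⟨k, hk⟩ := hS.odd_card
  have hggD : g * g ∈ r1D G a t :=
    (r1_mem_D_iff _).mpr ⟨by rw [mul_smul, hga, hgb], by rw [mul_smul, hgb, hga]⟩
  have hpow : (g * g) ^ (2 * k + 1) = 1 := by
    have := pow_card_eq_one' (G := r1D G a t) (x := ⟨g * g, hggD⟩)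
    rw [hk] at this
    exact congrArg Subtype.val this
  obtain ⟨hwa, hwb⟩ := swap_pow_odd hga hgb k
  refine ⟨g ^ (2 * k + 1), Subgroup.pow_mem _ hg _, ?_, ?_, hwa⟩
  · intro h
    rw [h, one_smul] at hwa
    exact r1_b_ne hS hwa.symm
  · rw [← pow_add, ← two_mul, pow_mul, pow_two]
    exact hpow

theorem r1_cent_Q_even (X : Set G) (hX : X ⊆ (r1D G a t : Set G))
    (h3 : ∃ b c d : Ω, b ≠ c ∧ b ≠ d ∧ c ≠ d ∧ ∀ x ∈ X, x • b = b ∧ x • c = c ∧ x • d = d) :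
    Even (Nat.card ↥(Subgroup.centralizer X ⊓ Q)) := by
  have huf := r1_uf hS
  have hXa : ∀ x ∈ X, x • a = a := fun x hx => r1_D_fix_a hS (hX hx)
  obtain ⟨w, hwC, hw⟩ := r1_exists_swap_cent hS X hX h3
  obtain ⟨p, hp, -⟩ := huf w hw.1 hw.2.1
  have hXp : ∀ x ∈ X, x • p = p := by
    intro x hx
    have hc : w * x = x * w := (Subgroup.mem_centralizer_iff.mp hwC x hx).symm
    exact commute_fix huf hw.1 hw.2.1 hc hp
  obtain ⟨g₁, hg₁, hg₁p⟩ := r1_fix_trans hS X h3 hXp hXa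
  have hz := invFix_conj hg₁p (⟨hw.1, hw.2.1, hp⟩ : w ∈ invFix G p)
  have hzQ : g₁ * w * g₁⁻¹ ∈ Q := r1_invol_mem_Q hS hz.2.2 hz.2.1
  have hzC : g₁ * w * g₁⁻¹ ∈ Subgroup.centralizer X :=
    Subgroup.mul_mem _ (Subgroup.mul_mem _ hg₁ hwC) (Subgroup.inv_mem _ hg₁)
  by_contra hodd
  rw [Nat.not_even_iff_odd] at hodd
  exact hz.1 (eq_one_of_sq_of_odd_card _ hodd (Subgroup.mem_inf.mpr ⟨hzC, hzQ⟩) hz.2.1)

theorem r1_cent_stab_eq (X : Set G) (hX : X ⊆ (r1D G a t : Set G)) :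
    (Subgroup.centralizer X ⊓ Q) ⊔ (Subgroup.centralizer X ⊓ r1D G a t) =
      Subgroup.centralizer X ⊓ MulAction.stabilizer G a := by
  have hXa : ∀ x ∈ X, x • a = a := fun x hx => r1_D_fix_a hS (hX hx)
  have hXb : ∀ x ∈ X, x • (t • a) = t • a := fun x hx => r1_D_fix_b hS (hX hx)
  apply le_antisymm
  · exact sup_le (inf_le_inf_left _ hS.le) (inf_le_inf_left _ inf_le_left)
  · intro g hg
    obtain ⟨hgC, hga⟩ := Subgroup.mem_inf.mp hg
    rw [MulAction.mem_stabilizer_iff] at hga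
    have hne : g • (t • a) ≠ a := by
      intro h
      apply r1_b_ne hS
      have : g • (t • a) = g • a := by rw [h, hga]
      exact smul_left_cancel g this
    have hfix : ∀ x ∈ X, x • (g • (t • a)) = g • (t • a) := by
      intro x hx
      have := Subgroup.mem_centralizer_iff.mp hgC x hx
      rw [← mul_smul, this, mul_smul, hXb x hx]
    have h1 : (t • a) ≠ (1 : G) • a := by rw [one_smul]; exact r1_b_ne hS
    have h2 : g • (t • a) ≠ (1 : G) • a := by rw [one_smul]; exact hne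
    obtain ⟨q, hq, hqC, hqb⟩ := r1_cent_trans hS X 1 h1 h2
      (by intro x hx; rw [one_smul]; exact hXa x hx) hXb hfix
    rw [one_mul, inv_one, mul_one] at hqC hqb
    have hmem : q⁻¹ * g ∈ Subgroup.centralizer X ⊓ r1D G a t := by
      refine Subgroup.mem_inf.mpr ⟨Subgroup.mul_mem _ (Subgroup.inv_mem _ hqC) hgC,
        (r1_mem_D_iff _).mpr ⟨?_, ?_⟩⟩
      · rw [mul_smul, hga, inv_smul_eq_iff, r1_Q_fix hS hq]
      · rw [mul_smul, ← hqb, inv_smul_smul]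
    have : g = q * (q⁻¹ * g) := by group
    rw [this]
    exact Subgroup.mul_mem_sup (Subgroup.mem_inf.mpr ⟨hqC, hq⟩) hmem

/-- `D` is transitive by conjugation on the involutions swapping `a` and `t • a`. -/
theorem r1_D_trans_swap {w w' : G} (hw : w ∈ invSwap G a (t • a))
    (hw' : w' ∈ invSwap G a (t • a)) : ∃ d ∈ r1D G a t, d * w * d⁻¹ = w' := by
  have huf := r1_uf hS
  obtain ⟨s, hR⟩ := r1R_exists (r1_setup_swap hS hw)
  obtain ⟨s', hR'⟩ := r1R_exists (r1_setup_swap hS hw')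
  have hney : (invFix G (t • a)).Nonempty := ⟨_, invSwap_conj (r1_t_swap hS) hR.1⟩
  obtain ⟨d, hda, hdb, hd⟩ := exists_conj_invFix huf (r1_b_ne hS).symm hR.1 hR'.1 hney
  have hdD : d ∈ r1D G a t := (r1_mem_D_iff d).mpr ⟨hda, hdb⟩
  have hRc := r1R_conj hS hR hda
  rw [hd] at hRc
  exact ⟨d, hdD, r1R_inj hS (r1_swap_conj hS hw hdD) hw' hRc hR'⟩

end

end Cfsg.Agent.Helper8
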