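import Mathlib

set_option autoImplicit false

namespace Cfsg.Agent.Helper8

open Module

theorem suz_sigma_decomp (n : ℕ) (σ : GaloisField 2 n → GaloisField 2 n)
    (β : GaloisField 2 n → GaloisField 2 n → GaloisField 2 n)
    (hσmul : ∀ s t, σ (s * t) = σ s * σ t)
    (hσadd : ∀ s t, σ (s + t) = σ s + σ t + β s t)
    (hβadd1 : ∀ s s' t, β (s + s') t = β s t + β s' t)
    (hβadd2 : ∀ s t t', β s (t + t') = β s t + β s t')
    (hβne : ∃ s t, β s t ≠ 0) :
    ∃ τ ι : GaloisField 2 n ≃+* GaloisField 2 n, ∀ w, σ w = τ w * ι w := by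
  classical
  haveI : Fact (Nat.Prime 2) := ⟨Nat.prime_two⟩
  letI : Fintype (GaloisField 2 n) := Fintype.ofFinite _
  letI : Fintype (GaloisField 2 n ≃ₐ[ZMod 2] GaloisField 2 n) := Fintype.ofFinite _
  have hli : LinearIndependent (GaloisField 2 n)
      (fun τ : GaloisField 2 n ≃ₐ[ZMod 2] GaloisField 2 n =>
        (τ : GaloisField 2 n →ₐ[ZMod 2] GaloisField 2 n).toLinearMap) := by
    have h := linearIndependent_algHom_toLinearMap (ZMod 2) (GaloisField 2 n) (GaloisField 2 n)
    exact h.comp (fun τ : GaloisField 2 n ≃ₐ[ZMod 2] GaloisField 2 n =>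
      (τ : GaloisField 2 n →ₐ[ZMod 2] GaloisField 2 n)) AlgEquiv.coe_toAlgHom_injective
  have hcardG : Fintype.card (GaloisField 2 n ≃ₐ[ZMod 2] GaloisField 2 n) =
      finrank (GaloisField 2 n) (GaloisField 2 n →ₗ[ZMod 2] GaloisField 2 n) := by
    rw [Module.finrank_linearMap_self, ← Nat.card_eq_fintype_card]
    exact IsGalois.card_aut_eq_finrank (ZMod 2) (GaloisField 2 n)
  haveI : Nonempty (GaloisField 2 n ≃ₐ[ZMod 2] GaloisField 2 n) := ⟨AlgEquiv.refl⟩
  let B := basisOfLinearIndependentOfCardEqFinrank hli hcardG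
  have hB : ∀ τ : GaloisField 2 n ≃ₐ[ZMod 2] GaloisField 2 n,
      B τ = (τ : GaloisField 2 n →ₐ[ZMod 2] GaloisField 2 n).toLinearMap := fun τ => by
    simp [B]
  have huniq : ∀ d d' : (GaloisField 2 n ≃ₐ[ZMod 2] GaloisField 2 n) → GaloisField 2 n,
      (∀ s, ∑ τ, d τ * τ s = ∑ τ, d' τ * τ s) → d = d' := by
    intro d d' h
    have h1 : ∑ τ, (d τ - d' τ) • (fun τ : GaloisField 2 n ≃ₐ[ZMod 2] GaloisField 2 n =>
        (τ : GaloisField 2 n →ₐ[ZMod 2] GaloisField 2 n).toLinearMap) τ = 0 := by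
      apply LinearMap.ext
      intro s
      simp only [LinearMap.sum_apply, LinearMap.smul_apply, smul_eq_mul, AlgHom.toLinearMap_apply,
        LinearMap.zero_apply, AlgEquiv.coe_toAlgHom, sub_mul, Finset.sum_sub_distrib]
      rw [h s, sub_self]
    have h2 := Fintype.linearIndependent_iff.1 hli _ h1
    funext τ
    exact sub_eq_zero.1 (h2 τ)
  have hrep : ∀ (f : GaloisField 2 n →ₗ[ZMod 2] GaloisField 2 n) (s : GaloisField 2 n),
      f s = ∑ τ, B.repr f τ * τ s := by
    intro f s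
    have h := B.sum_repr f
    have h2 := congrArg (fun g : GaloisField 2 n →ₗ[ZMod 2] GaloisField 2 n => g s) h
    simp only [LinearMap.sum_apply, LinearMap.smul_apply, smul_eq_mul, hB,
      AlgHom.toLinearMap_apply, AlgEquiv.coe_toAlgHom] at h2
    exact h2.symm
  let L : GaloisField 2 n → (GaloisField 2 n →ₗ[ZMod 2] GaloisField 2 n) := fun t =>
    (AddMonoidHom.mk' (fun s => β s t) (fun s s' => hβadd1 s s' t)).toZModLinearMap 2
  have hL : ∀ t s, L t s = β s t := fun t s => rfl
  let c : GaloisField 2 n → (GaloisField 2 n ≃ₐ[ZMod 2] GaloisField 2 n) → GaloisField 2 n :=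
    fun t τ => B.repr (L t) τ
  have hc : ∀ s t, β s t = ∑ τ, c t τ * τ s := fun s t => by
    rw [← hL]; exact hrep (L t) s
  have hcadd : ∀ t t' τ, c (t + t') τ = c t τ + c t' τ := by
    intro t t'
    have h := huniq (c (t + t')) (fun τ => c t τ + c t' τ) (fun s => by
      rw [← hc, hβadd2, hc s t, hc s t', ← Finset.sum_add_distrib]
      exact Finset.sum_congr rfl (fun τ _ => by ring))
    exact fun τ => congrFun h τ
  have hβmul : ∀ w s t, β (w * s) (w * t) = σ w * β s t := by
    intro w s t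
    have h1 := hσadd (w * s) (w * t)
    rw [← mul_add, hσmul, hσadd, hσmul, hσmul] at h1
    linear_combination (-1 : GaloisField 2 n) * h1
  have hceq : ∀ w t τ, c (w * t) τ * τ w = σ w * c t τ := by
    intro w t
    have h := huniq (fun τ => c (w * t) τ * τ w) (fun τ => σ w * c t τ) (fun s => by
      calc ∑ τ, (c (w * t) τ * τ w) * τ s = ∑ τ, c (w * t) τ * τ (w * s) :=
            Finset.sum_congr rfl (fun τ _ => by rw [map_mul]; ring)
        _ = β (w * s) (w * t) := (hc _ _).symm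
        _ = σ w * β s t := hβmul w s t
        _ = σ w * ∑ τ, c t τ * τ s := by rw [hc s t]
        _ = ∑ τ, (σ w * c t τ) * τ s := by
            rw [Finset.mul_sum]; exact Finset.sum_congr rfl (fun τ _ => by ring))
    exact fun τ => congrFun h τ
  obtain ⟨s1, t1, hst⟩ := hβne
  have hβ0 : ∀ s, β s 0 = 0 := by
    intro s
    have h := hβadd2 s 0 0
    rw [add_zero] at h
    exact left_eq_add.1 h
  have ht1 : t1 ≠ 0 := by rintro rfl; exact hst (hβ0 s1)
  obtain ⟨τ, hτ⟩ : ∃ τ, c t1 τ ≠ 0 := by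
    by_contra h
    push Not at h
    apply hst
    rw [hc]
    exact Finset.sum_eq_zero (fun τ _ => by rw [h τ, zero_mul])
  have hτne : ∀ w : GaloisField 2 n, w ≠ 0 → τ w ≠ 0 := fun w hw h =>
    hw ((map_eq_zero_iff τ τ.injective).1 h)
  have hc0 : c 1 τ ≠ 0 := by
    intro h0
    have h := hceq t1 1 τ
    rw [mul_one, h0, mul_zero] at h
    rcases mul_eq_zero.1 h with h | h
    · exact hτ h
    · exact hτne t1 ht1 h
  let ιf : GaloisField 2 n → GaloisField 2 n := fun w => c w τ / c 1 τ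
  have hιτ : ∀ w, ιf w * τ w = σ w := by
    intro w
    have h := hceq w 1 τ
    rw [mul_one] at h
    show c w τ / c 1 τ * τ w = σ w
    rw [div_mul_eq_mul_div, h, mul_div_assoc, div_self hc0, mul_one]
  have hι1 : ιf 1 = 1 := div_self hc0
  have hιadd : ∀ w w', ιf (w + w') = ιf w + ιf w' := fun w w' => by
    show c (w + w') τ / c 1 τ = c w τ / c 1 τ + c w' τ / c 1 τ
    rw [hcadd, add_div]
  have hι0 : ιf 0 = 0 := by
    have h := hιadd 0 0
    rw [add_zero] at h
    exact left_eq_add.1 h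
  have hιmul : ∀ w w', ιf (w * w') = ιf w * ιf w' := by
    intro w w'
    by_cases hw : w = 0
    · rw [hw, zero_mul, hι0, zero_mul]
    by_cases hw' : w' = 0
    · rw [hw', mul_zero, hι0, mul_zero]
    have h1 := hιτ (w * w')
    rw [hσmul, ← hιτ w, ← hιτ w', map_mul] at h1
    have h2 : ιf (w * w') * (τ w * τ w') = (ιf w * ιf w') * (τ w * τ w') := by
      rw [h1]; ring
    exact mul_right_cancel₀ (mul_ne_zero (hτne w hw) (hτne w' hw')) h2
  let ιh : GaloisField 2 n →+* GaloisField 2 n :=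
    { toFun := ιf, map_one' := hι1, map_mul' := hιmul, map_zero' := hι0, map_add' := hιadd }
  have hιinj : Function.Injective ιh := ιh.injective
  let ιe : GaloisField 2 n ≃+* GaloisField 2 n :=
    RingEquiv.ofBijective ιh ⟨hιinj, Finite.injective_iff_surjective.1 hιinj⟩
  refine ⟨τ.toRingEquiv, ιe, fun w => ?_⟩
  have h := hιτ w
  show σ w = τ w * ιf w
  rw [← h]; ring

theorem suz_odd_order (n : ℕ) (φ : GaloisField 2 n ≃+* GaloisField 2 n)
    (hN : ∀ u v : GaloisField 2 n, u * φ u = v * φ v → u = v) : Odd (orderOf φ) := by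
  classical
  haveI : Fact (Nat.Prime 2) := ⟨Nat.prime_two⟩
  have hcomm : ∀ x : ZMod 2, φ (algebraMap (ZMod 2) (GaloisField 2 n) x) =
      algebraMap (ZMod 2) (GaloisField 2 n) x := by
    intro x
    exact RingHom.congr_fun (Subsingleton.elim
      ((φ : GaloisField 2 n →+* GaloisField 2 n).comp (algebraMap (ZMod 2) (GaloisField 2 n)))
      (algebraMap (ZMod 2) (GaloisField 2 n))) x
  let ψ : GaloisField 2 n ≃ₐ[ZMod 2] GaloisField 2 n := AlgEquiv.ofRingEquiv (f := φ) hcomm
  have hψ : ∀ x, ψ x = φ x := fun x => rfl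
  have hpow : ∀ (m : ℕ) (x : GaloisField 2 n), (ψ ^ m) x = (φ ^ m) x := by
    intro m
    induction m with
    | zero => intro x; rfl
    | succ m ih =>
      intro x
      rw [pow_succ, pow_succ, AlgEquiv.mul_apply, RingAut.mul_apply, ih, hψ]
  by_cases hw : ∃ w, φ (φ w) = w ∧ φ w ≠ w
  · exfalso
    obtain ⟨w, hw1, hw2⟩ := hw
    have hw0 : w ≠ 0 := by rintro rfl; exact hw2 (map_zero φ)
    have hφw0 : φ w ≠ 0 := fun h => hw0 ((map_eq_zero_iff φ φ.injective).1 h)
    have h1 := hN (w / φ w) 1 (by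
      rw [map_div₀, hw1, map_one, mul_one]
      field_simp)
    exact hw2 ((div_eq_one_iff_eq hφw0).1 h1).symm
  · push Not at hw
    have hmem : ψ ∈ Subgroup.zpowers (ψ ^ 2) := by
      rw [← IntermediateField.fixingSubgroup_fixedField (Subgroup.zpowers (ψ ^ 2))]
      rw [IntermediateField.mem_fixingSubgroup_iff]
      intro x hx
      rw [IntermediateField.mem_fixedField_iff] at hx
      have h2 := hx (ψ ^ 2) (Subgroup.mem_zpowers _)
      rw [pow_two, AlgEquiv.mul_apply] at h2
      exact hw x h2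
    rw [← mem_powers_iff_mem_zpowers] at hmem
    obtain ⟨j, hj⟩ := hmem
    have hφj : φ ^ (2 * j) = φ := by
      ext x
      have h := congrArg (fun g : GaloisField 2 n ≃ₐ[ZMod 2] GaloisField 2 n => g x) hj
      simp only at h
      rw [← pow_mul, hpow] at h
      rw [h]; rfl
    rcases Nat.eq_zero_or_pos j with rfl | hjpos
    · rw [mul_zero, pow_zero] at hφj
      rw [← hφj, orderOf_one]; exact odd_one
    · have h1 : φ ^ (2 * j - 1) = 1 := by
        have h2 : φ ^ (2 * j - 1) * φ = 1 * φ := by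
          rw [← pow_succ, one_mul, show 2 * j - 1 + 1 = 2 * j by omega]; exact hφj
        exact mul_right_cancel h2
      have h3 := orderOf_dvd_of_pow_eq_one h1
      have h4 : Odd (2 * j - 1) := ⟨j - 1, by omega⟩
      exact h4.of_dvd_nat h3

end Cfsg.Agent.Helper8
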