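import Mathlib

set_option autoImplicit false

namespace Cfsg.Agent.Helper8

theorem suz_ext {P : Type*} [Group P] [Finite P] {F : Type*} [Field F] {G : Type*} [Group G]
    [Finite G]
    (h2 : ∀ x : F, x + x = 0) (φ : F → F) (hφadd : ∀ s t, φ (s + t) = φ s + φ t)
    (M : F → F → G)
    (hM : ∀ x y x' y', M x y * M x' y' = M (x + x') (y + y' + φ x * x'))
    (hMinj : ∀ x y x' y', M x y = M x' y' → x = x' ∧ y = y')
    (a : P → F) (ha : ∀ x y, a (x * y) = a x + a y)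
    (hcen : ∀ z, a z = 0 → ∀ g, g * z = z * g)
    (b : P → F) (hb : ∀ z z', a z = 0 → a z' = 0 → b (z * z') = b z + b z')
    (hbinj : ∀ z, a z = 0 → b z = 0 → z = 1)
    (hcompat : ∀ x, b (x * x) = a x * φ (a x)) :
    ∃ Θ : P →* G, Function.Injective Θ ∧ ∀ g, ∃ y, Θ g = M (a g) y := by
  classical
  have ha1 : a 1 = 0 := by
    have h := ha 1 1
    rw [mul_one] at h
    exact left_eq_add.1 h
  have hainv : ∀ x, a x⁻¹ = a x := by
    intro x
    have h := ha x x⁻¹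
    rw [mul_inv_cancel, ha1] at h
    linear_combination (-1 : F) * h - h2 (a x)
  have hφ0 : φ 0 = 0 := by
    have h := hφadd 0 0
    rw [add_zero] at h
    exact left_eq_add.1 h
  have hM1 : M 0 0 = 1 := by
    have h := hM 0 0 0 0
    simp only [add_zero, hφ0, zero_mul] at h
    exact mul_left_cancel (a := M 0 0) (by rw [h, mul_one])
  have hMinv : ∀ x y, (M x y)⁻¹ = M x (y + φ x * x) := by
    intro x y
    apply inv_eq_of_mul_eq_one_right
    rw [hM, ← hM1]
    congr 1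
    · exact h2 x
    · linear_combination h2 y + h2 (φ x * x)
  have hb1 : b 1 = 0 := by
    have h := hb 1 1 ha1 ha1
    rw [mul_one] at h
    exact left_eq_add.1 h
  have hbinv : ∀ z, a z = 0 → b z⁻¹ = b z := by
    intro z hz
    have h := hb z z⁻¹ hz (by rw [hainv, hz])
    rw [mul_inv_cancel, hb1] at h
    linear_combination (-1 : F) * h - h2 (b z)
  have hsq0 : ∀ g, a (g * g) = 0 := fun g => by rw [ha]; exact h2 _
  have hcomm0 : ∀ g h, a (g * h * g⁻¹ * h⁻¹) = 0 := by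
    intro g h
    rw [ha, ha, ha, hainv, hainv]
    linear_combination h2 (a g) + h2 (a h)
  have hbcomm : ∀ g h, b (g * h * g⁻¹ * h⁻¹) = a g * φ (a h) + a h * φ (a g) := by
    intro g h
    have hc0 := hcomm0 g h
    have hgh : g * h = (g * h * g⁻¹ * h⁻¹) * (h * g) := by group
    have e1 : (g * h) * (g * h) = (g * h * g⁻¹ * h⁻¹) * ((g * g) * (h * h)) := by
      generalize g * h * g⁻¹ * h⁻¹ = c at hgh hc0
      have hgg := hcen (g * g) (hsq0 g) h
      calc (g * h) * (g * h) = (c * (h * g)) * (g * h) := by rw [← hgh]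
        _ = c * (h * (g * g) * h) := by group
        _ = c * ((g * g) * h * h) := by rw [hgg]
        _ = c * ((g * g) * (h * h)) := by group
    have h1 := hcompat (g * h)
    rw [e1, hb _ _ hc0 (by rw [ha, hsq0, hsq0, add_zero]), hb _ _ (hsq0 g) (hsq0 h), hcompat,
      hcompat, ha, hφadd] at h1
    linear_combination h1
  let Pr : Subgroup (P × G) → Prop := fun Γ =>
    (∀ p ∈ Γ, ∃ y, p.2 = M (a p.1) y) ∧ (∀ p ∈ Γ, a p.1 = 0 → p.2 = M 0 (b p.1)) ∧
      (∀ z, a z = 0 → ((z, M 0 (b z)) : P × G) ∈ Γ)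
  let Γ0 : Subgroup (P × G) :=
    { carrier := {p | a p.1 = 0 ∧ p.2 = M 0 (b p.1)}
      mul_mem' := by
        rintro p q ⟨hp1, hp2⟩ ⟨hq1, hq2⟩
        refine ⟨by rw [Prod.fst_mul, ha, hp1, hq1, add_zero], ?_⟩
        rw [Prod.snd_mul, hp2, hq2, hM, Prod.fst_mul, hb _ _ hp1 hq1, hφ0, zero_mul, add_zero,
          add_zero]
      one_mem' := ⟨ha1, by rw [Prod.snd_one, Prod.fst_one, hb1, hM1]⟩
      inv_mem' := by
        rintro p ⟨hp1, hp2⟩
        refine ⟨by rw [Prod.fst_inv, hainv, hp1], ?_⟩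
        rw [Prod.snd_inv, hp2, hMinv, Prod.fst_inv, hbinv _ hp1, hφ0, zero_mul, add_zero] }
  have hΓ0 : Pr Γ0 := by
    refine ⟨?_, ?_, ?_⟩
    · rintro p ⟨hp1, hp2⟩; exact ⟨b p.1, by rw [hp2, hp1]⟩
    · rintro p ⟨hp1, hp2⟩ _; exact hp2
    · intro z hz; exact ⟨hz, rfl⟩
  haveI : Nonempty {Γ : Subgroup (P × G) // Pr Γ} := ⟨⟨Γ0, hΓ0⟩⟩
  obtain ⟨⟨Γ, hi, hii, hiii⟩, hmax⟩ :=
    Finite.exists_max (fun Γ : {Γ : Subgroup (P × G) // Pr Γ} => Nat.card Γ.1)
  have hall : ∀ g : P, ∃ t, ((g, t) : P × G) ∈ Γ := by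
    intro g
    by_contra hg
    push Not at hg
    have hu2 : ((g, M (a g) 0) : P × G) * (g, M (a g) 0) ∈ Γ := by
      have h := hiii (g * g) (hsq0 g)
      have e : ((g, M (a g) 0) : P × G) * (g, M (a g) 0) = (g * g, M 0 (b (g * g))) := by
        rw [Prod.mk_mul_mk, hM, hcompat]
        congr 2
        · exact h2 _
        · ring
      rw [e]; exact h
    have hconj : ∀ p ∈ Γ, ((g, M (a g) 0) : P × G)⁻¹ * p * (g, M (a g) 0) ∈ Γ := by
      intro p hp
      obtain ⟨y, hy⟩ := hi p hp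
      have hc0 : a (p.1⁻¹ * g⁻¹ * p.1 * g) = 0 := by
        have h := hcomm0 p.1⁻¹ g⁻¹
        rwa [inv_inv, inv_inv] at h
      have hbc : b (p.1⁻¹ * g⁻¹ * p.1 * g) = a p.1 * φ (a g) + a g * φ (a p.1) := by
        have h := hbcomm p.1⁻¹ g⁻¹
        rwa [inv_inv, inv_inv, hainv, hainv] at h
      have e : ((g, M (a g) 0) : P × G)⁻¹ * p * (g, M (a g) 0) =
          p * (p.1⁻¹ * g⁻¹ * p.1 * g, M 0 (b (p.1⁻¹ * g⁻¹ * p.1 * g))) := by
        apply Prod.ext
        · simp only [Prod.fst_mul, Prod.fst_inv]; group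
        · simp only [Prod.snd_mul, Prod.snd_inv]
          rw [hy, hMinv, hM, hM, hM, hbc, hφadd]
          congr 1
          · linear_combination h2 (a g)
          · linear_combination h2 (φ (a g) * a g)
      rw [e]
      exact Γ.mul_mem hp (hiii _ hc0)
    have hu0 : ((g, M (a g) 0) : P × G).1 = g := rfl
    have hu1 : ((g, M (a g) 0) : P × G).2 = M (a g) 0 := rfl
    have hunot : ((g, M (a g) 0) : P × G) ∉ Γ := hg _
    generalize ((g, M (a g) 0) : P × G) = u at hu2 hconj hu0 hu1 hunot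
    let Γ' : Subgroup (P × G) :=
      { carrier := {p | p ∈ Γ ∨ u⁻¹ * p ∈ Γ}
        mul_mem' := by
          rintro p q (hp | hp) (hq | hq)
          · exact Or.inl (Γ.mul_mem hp hq)
          · refine Or.inr ?_
            have e : u⁻¹ * (p * q) = (u⁻¹ * p * u) * (u⁻¹ * q) := by group
            rw [e]; exact Γ.mul_mem (hconj p hp) hq
          · refine Or.inr ?_
            have e : u⁻¹ * (p * q) = (u⁻¹ * p) * q := by group
            rw [e]; exact Γ.mul_mem hp hq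
          · refine Or.inl ?_
            have e : p * q = (u * u) * (u⁻¹ * (u⁻¹ * p) * u) * (u⁻¹ * q) := by group
            rw [e]; exact Γ.mul_mem (Γ.mul_mem hu2 (hconj _ hp)) hq
        one_mem' := Or.inl Γ.one_mem
        inv_mem' := by
          rintro p (hp | hp)
          · exact Or.inl (Γ.inv_mem hp)
          · refine Or.inr ?_
            have e : u⁻¹ * p⁻¹ = (u⁻¹ * (u⁻¹ * p)⁻¹ * u) * (u * u)⁻¹ := by group
            rw [e]; exact Γ.mul_mem (hconj _ (Γ.inv_mem hp)) (Γ.inv_mem hu2) }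
    have hΓ' : Pr Γ' := by
      refine ⟨?_, ?_, ?_⟩
      · rintro p (hp | hp)
        · exact hi p hp
        · obtain ⟨q, hq, rfl⟩ : ∃ q ∈ Γ, p = u * q := ⟨u⁻¹ * p, hp, by group⟩
          obtain ⟨y, hy⟩ := hi q hq
          refine ⟨0 + y + φ (a g) * a q.1, ?_⟩
          rw [Prod.snd_mul, Prod.fst_mul, hy, hu0, hu1, hM, ha]
      · rintro p (hp | hp) hp0
        · exact hii p hp hp0
        · exfalso
          obtain ⟨q, hq, rfl⟩ : ∃ q ∈ Γ, p = u * q := ⟨u⁻¹ * p, hp, by group⟩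
          have h1 := hiii _ hp0
          have h3 := Γ.mul_mem h1 (Γ.inv_mem hq)
          have e : (((u * q).1, M 0 (b (u * q).1)) * q⁻¹ : P × G) =
              (g, M 0 (b (u * q).1) * q.2⁻¹) :=
            Prod.ext (by simp [hu0]) rfl
          rw [e] at h3
          exact hg _ h3
      · intro z hz; exact Or.inl (hiii z hz)
    have hle : Γ ≤ Γ' := fun p hp => Or.inl hp
    have huΓ' : u ∈ Γ' := Or.inr (by rw [inv_mul_cancel]; exact Γ.one_mem)
    have hcard : Nat.card Γ' ≤ Nat.card Γ := hmax ⟨Γ', hΓ'⟩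
    have heq : Γ = Γ' := Subgroup.eq_of_le_of_card_ge hle hcard
    exact hunot (heq ▸ huΓ')
  have huniq : ∀ g t t', ((g, t) : P × G) ∈ Γ → ((g, t') : P × G) ∈ Γ → t = t' := by
    intro g t t' h1 h1'
    have h3 := Γ.mul_mem (Γ.inv_mem h1) h1'
    have h4 := hii _ h3 (by simp [ha1])
    simp only [Prod.snd_mul, Prod.snd_inv, Prod.fst_mul, Prod.fst_inv, inv_mul_cancel, hb1,
      hM1] at h4
    exact inv_mul_eq_one.1 h4
  let θ : P → G := fun g => Classical.choose (hall g)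
  have hθ : ∀ g, ((g, θ g) : P × G) ∈ Γ := fun g => Classical.choose_spec (hall g)
  have hθmul : ∀ g h, θ (g * h) = θ g * θ h := by
    intro g h
    have h1 := Γ.mul_mem (hθ g) (hθ h)
    rw [Prod.mk_mul_mk] at h1
    exact huniq _ _ _ (hθ (g * h)) h1
  refine ⟨MonoidHom.mk' θ hθmul, ?_, ?_⟩
  · rw [injective_iff_map_eq_one]
    intro g hg
    have hg' : θ g = 1 := hg
    obtain ⟨y, hy⟩ := hi _ (hθ g)
    have hy' : θ g = M (a g) y := hy
    rw [hg', ← hM1] at hy'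
    obtain ⟨h0, -⟩ := hMinj _ _ _ _ hy'
    have h5 : θ g = M 0 (b g) := hii _ (hθ g) h0.symm
    rw [hg', ← hM1] at h5
    obtain ⟨-, h6⟩ := hMinj _ _ _ _ h5
    exact hbinj g h0.symm h6.symm
  · intro g
    obtain ⟨y, hy⟩ := hi _ (hθ g)
    exact ⟨y, hy⟩

end Cfsg.Agent.Helper8
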