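import Mathlib

set_option autoImplicit false

namespace Cfsg.Agent.Helper8

/-- wrapper type carrying a field structure built from a regular group of automorphisms -/
structure SuzFld (E : Type*) where
  /-- underlying element -/
  val : E

theorem SuzFld.ext_val {E : Type*} {a b : SuzFld E} (h : a.val = b.val) : a = b := by
  cases a; cases b; cases h; rfl

open Classical in
/-- multiplication attached to a regular group of automorphisms -/
noncomputable def suzMul {E : Type*} [Group E] (K : Subgroup (MulAut E)) (e0 : E) (u w : E) : E :=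
  if h : ∃ k ∈ K, k e0 = w then (Classical.choose h) u else 1

theorem suzMul_apply {E : Type*} [Group E] (K : Subgroup (MulAut E))
    (hfree : ∀ k ∈ K, ∀ x : E, x ≠ 1 → k x = x → k = 1) (e0 : E) (he0 : e0 ≠ 1)
    (k : MulAut E) (hk : k ∈ K) (u : E) : suzMul K e0 u (k e0) = k u := by
  have h : ∃ k' ∈ K, k' e0 = k e0 := ⟨k, hk, rfl⟩
  unfold suzMul
  rw [dif_pos h]
  obtain ⟨h1, h2⟩ := Classical.choose_spec h
  have h3 : (Classical.choose h)⁻¹ * k = 1 :=
    hfree _ (K.mul_mem (K.inv_mem h1) hk) e0 he0 (by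
      rw [MulAut.mul_apply, MulAut.inv_apply, MulEquiv.symm_apply_eq]; exact h2.symm)
  rw [inv_mul_eq_one.1 h3]

theorem suzMul_one {E : Type*} [Group E] (K : Subgroup (MulAut E)) (e0 : E) (he0 : e0 ≠ 1)
    (u : E) : suzMul K e0 u 1 = 1 := by
  have h : ¬ ∃ k ∈ K, k e0 = 1 := by
    rintro ⟨k, -, hk⟩
    exact he0 ((map_eq_one_iff k k.injective).1 hk)
  unfold suzMul
  rw [dif_neg h]

theorem suz_exp2_comm {E : Type*} [Group E] (hexp : ∀ x : E, x * x = 1) (a b : E) :
    a * b = b * a := by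
  have h1 : a * b = (a * b)⁻¹ := eq_inv_of_mul_eq_one_left (hexp (a * b))
  have h2 : a⁻¹ = a := inv_eq_of_mul_eq_one_left (hexp a)
  have h3 : b⁻¹ = b := inv_eq_of_mul_eq_one_left (hexp b)
  rw [h1, mul_inv_rev, h2, h3]

instance {E : Type*} [Group E] : Add (SuzFld E) := ⟨fun a b => ⟨a.val * b.val⟩⟩
instance {E : Type*} [Group E] : Zero (SuzFld E) := ⟨⟨1⟩⟩
instance {E : Type*} [Group E] : Neg (SuzFld E) := ⟨fun a => ⟨a.val⁻¹⟩⟩
instance {E : Type*} [Group E] : AddGroup (SuzFld E) :=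
  AddGroup.ofLeftAxioms (fun _ _ _ => SuzFld.ext_val (mul_assoc _ _ _))
    (fun _ => SuzFld.ext_val (one_mul _)) (fun _ => SuzFld.ext_val (inv_mul_cancel _))

section
variable {E : Type*} [Group E] (hexp : ∀ x : E, x * x = 1)
    (K : Subgroup (MulAut E)) (hcomm : ∀ a ∈ K, ∀ b ∈ K, a * b = b * a)
    (htr : ∀ x y : E, x ≠ 1 → y ≠ 1 → ∃ k ∈ K, k x = y)
    (hfree : ∀ k ∈ K, ∀ x : E, x ≠ 1 → k x = x → k = 1)
    (e0 : E) (he0 : e0 ≠ 1)
include hexp hcomm htr hfree he0

theorem suzMul_one_left (w : E) : suzMul K e0 1 w = 1 := by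
  by_cases hw : w = 1
  · rw [hw]; exact suzMul_one K e0 he0 1
  obtain ⟨k, hk, rfl⟩ := htr e0 w he0 hw
  rw [suzMul_apply K hfree e0 he0 k hk, map_one]

theorem suzMul_mul_left (u u' w : E) :
    suzMul K e0 (u * u') w = suzMul K e0 u w * suzMul K e0 u' w := by
  by_cases hw : w = 1
  · rw [hw, suzMul_one K e0 he0, suzMul_one K e0 he0, suzMul_one K e0 he0, one_mul]
  obtain ⟨k, hk, rfl⟩ := htr e0 w he0 hw
  rw [suzMul_apply K hfree e0 he0 k hk, suzMul_apply K hfree e0 he0 k hk,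
    suzMul_apply K hfree e0 he0 k hk, map_mul]

theorem suzMul_comm (u w : E) : suzMul K e0 u w = suzMul K e0 w u := by
  by_cases hu : u = 1
  · rw [hu, suzMul_one K e0 he0, suzMul_one_left hexp K hcomm htr hfree e0 he0]
  by_cases hw : w = 1
  · rw [hw, suzMul_one K e0 he0, suzMul_one_left hexp K hcomm htr hfree e0 he0]
  obtain ⟨k, hk, rfl⟩ := htr e0 u he0 hu
  obtain ⟨l, hl, rfl⟩ := htr e0 w he0 hw
  rw [suzMul_apply K hfree e0 he0 l hl, suzMul_apply K hfree e0 he0 k hk,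
    ← MulAut.mul_apply, ← MulAut.mul_apply, hcomm l hl k hk]

theorem suzMul_e0_left (w : E) : suzMul K e0 e0 w = w := by
  by_cases hw : w = 1
  · rw [hw]; exact suzMul_one K e0 he0 e0
  obtain ⟨k, hk, rfl⟩ := htr e0 w he0 hw
  rw [suzMul_apply K hfree e0 he0 k hk]

theorem suzMul_assoc (u w x : E) :
    suzMul K e0 (suzMul K e0 u w) x = suzMul K e0 u (suzMul K e0 w x) := by
  by_cases hx : x = 1
  · rw [hx, suzMul_one K e0 he0, suzMul_one K e0 he0, suzMul_one K e0 he0]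
  obtain ⟨m, hm, rfl⟩ := htr e0 x he0 hx
  by_cases hw : w = 1
  · rw [hw, suzMul_one K e0 he0, suzMul_one_left hexp K hcomm htr hfree e0 he0,
      suzMul_one K e0 he0]
  obtain ⟨l, hl, rfl⟩ := htr e0 w he0 hw
  rw [suzMul_apply K hfree e0 he0 m hm, suzMul_apply K hfree e0 he0 l hl,
    suzMul_apply K hfree e0 he0 m hm, show m (l e0) = (m * l) e0 from rfl,
    suzMul_apply K hfree e0 he0 (m * l) (K.mul_mem hm hl), MulAut.mul_apply]

/-- the commutative ring structure -/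
noncomputable def suzCommRing : CommRing (SuzFld E) :=
  { (inferInstance : AddGroup (SuzFld E)) with
    add_comm := fun a b => SuzFld.ext_val (suz_exp2_comm hexp _ _)
    mul := fun a b => ⟨suzMul K e0 a.val b.val⟩
    left_distrib := fun a b c => SuzFld.ext_val (by
      show suzMul K e0 a.val (b.val * c.val) = suzMul K e0 a.val b.val * suzMul K e0 a.val c.val
      rw [suzMul_comm hexp K hcomm htr hfree e0 he0, suzMul_mul_left hexp K hcomm htr hfree e0 he0,
        suzMul_comm hexp K hcomm htr hfree e0 he0 b.val,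
        suzMul_comm hexp K hcomm htr hfree e0 he0 c.val])
    right_distrib := fun a b c =>
      SuzFld.ext_val (suzMul_mul_left hexp K hcomm htr hfree e0 he0 _ _ _)
    zero_mul := fun a => SuzFld.ext_val (suzMul_one_left hexp K hcomm htr hfree e0 he0 _)
    mul_zero := fun a => SuzFld.ext_val (suzMul_one K e0 he0 _)
    mul_assoc := fun a b c => SuzFld.ext_val (suzMul_assoc hexp K hcomm htr hfree e0 he0 _ _ _)
    one := ⟨e0⟩
    one_mul := fun a => SuzFld.ext_val (suzMul_e0_left hexp K hcomm htr hfree e0 he0 _)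
    mul_one := fun a => SuzFld.ext_val (by
      show suzMul K e0 a.val e0 = a.val
      rw [suzMul_comm hexp K hcomm htr hfree e0 he0]
      exact suzMul_e0_left hexp K hcomm htr hfree e0 he0 _)
    mul_comm := fun a b => SuzFld.ext_val (suzMul_comm hexp K hcomm htr hfree e0 he0 _ _) }

theorem suzA_field [Finite E] (n : ℕ) (hn : n ≠ 0) (hcard : Nat.card E = 2 ^ n) :
    ∃ b : E → GaloisField 2 n, Function.Bijective b ∧
      (∀ x y, b (x * y) = b x + b y) ∧ b e0 = 1 ∧ ∀ k ∈ K, ∀ x, b (k x) = b (k e0) * b x := by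
  classical
  letI : CommRing (SuzFld E) := suzCommRing hexp K hcomm htr hfree e0 he0
  have hfield : IsField (SuzFld E) := by
    refine ⟨⟨⟨1⟩, ⟨e0⟩, fun h => he0 (congrArg SuzFld.val h).symm⟩, fun a b => mul_comm a b, ?_⟩
    intro a ha
    have ha1 : a.val ≠ 1 := fun h => ha (SuzFld.ext_val h)
    obtain ⟨k, hk, hka⟩ := htr e0 a.val he0 ha1
    refine ⟨⟨k⁻¹ e0⟩, SuzFld.ext_val ?_⟩
    show suzMul K e0 a.val (k⁻¹ e0) = e0
    rw [suzMul_apply K hfree e0 he0 k⁻¹ (K.inv_mem hk), ← hka, MulAut.inv_apply_self]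
  letI : Field (SuzFld E) := hfield.toField
  let eqv : E ≃ SuzFld E := ⟨SuzFld.mk, SuzFld.val, fun _ => rfl, fun _ => rfl⟩
  haveI : Finite (SuzFld E) := Finite.of_equiv E eqv
  letI : Fintype (SuzFld E) := Fintype.ofFinite _
  letI : Fintype (GaloisField 2 n) := Fintype.ofFinite _
  haveI : Fact (Nat.Prime 2) := ⟨Nat.prime_two⟩
  have hc : Fintype.card (SuzFld E) = Fintype.card (GaloisField 2 n) := by
    rw [← Nat.card_eq_fintype_card, ← Nat.card_eq_fintype_card, GaloisField.card 2 n hn,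
      ← hcard]
    exact (Nat.card_congr eqv).symm
  let j := FiniteField.ringEquivOfCardEq hc
  refine ⟨fun x => j ⟨x⟩, ?_, ?_, ?_, ?_⟩
  · exact j.bijective.comp eqv.bijective
  · intro x y
    have h : (⟨x * y⟩ : SuzFld E) = ⟨x⟩ + ⟨y⟩ := rfl
    show j ⟨x * y⟩ = j ⟨x⟩ + j ⟨y⟩
    rw [h, map_add]
  · have h : (⟨e0⟩ : SuzFld E) = 1 := rfl
    show j ⟨e0⟩ = 1
    rw [h, map_one]
  · intro k hk x
    have h : (⟨k x⟩ : SuzFld E) = ⟨x⟩ * ⟨k e0⟩ :=
      SuzFld.ext_val (suzMul_apply K hfree e0 he0 k hk x).symm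
    show j ⟨k x⟩ = j ⟨k e0⟩ * j ⟨x⟩
    rw [h, map_mul, mul_comm]

end

end Cfsg.Agent.Helper8
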