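import Mathlib
import Cfsg.Prelude.Def_LieRecognition

set_option autoImplicit false

namespace Cfsg.Agent.Helper8

open Matrix

/-- the unitriangular matrix of type A -/
noncomputable def suzMat {F : Type*} [Field F] (φ : F →+* F) (x y : F) : GL (Fin 3) F :=
  Matrix.GeneralLinearGroup.mkOfDetNeZero !![1, 0, 0; x, 1, 0; y, φ x, 1]
    (by simp [Matrix.det_fin_three])

theorem suzMat_coe {F : Type*} [Field F] (φ : F →+* F) (x y : F) :
    ((suzMat φ x y : GL (Fin 3) F) : Matrix (Fin 3) (Fin 3) F) = !![1, 0, 0; x, 1, 0; y, φ x, 1] :=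
  rfl

theorem suzMat_mul {F : Type*} [Field F] (φ : F →+* F) (x y x' y' : F) :
    suzMat φ x y * suzMat φ x' y' = suzMat φ (x + x') (y + y' + φ x * x') := by
  apply Units.ext
  rw [Units.val_mul, suzMat_coe, suzMat_coe, suzMat_coe]
  ext i j
  fin_cases i <;> fin_cases j <;> simp [Matrix.mul_apply, Fin.sum_univ_three] <;> ring

theorem suzMat_inj {F : Type*} [Field F] (φ : F →+* F) (x y x' y' : F)
    (h : suzMat φ x y = suzMat φ x' y') : x = x' ∧ y = y' := by
  have h1 := congrArg (fun g : GL (Fin 3) F => (g : Matrix (Fin 3) (Fin 3) F)) h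
  simp only [suzMat_coe] at h1
  have h10 := congrFun (congrFun h1 1) 0
  have h20 := congrFun (congrFun h1 2) 0
  simp at h10 h20
  exact ⟨h10, h20⟩

theorem suzMat_mem {F : Type*} [Field F] (φ : F →+* F) (x y : F) :
    suzMat φ x y ∈ Cfsg.suzukiTypeA F φ :=
  Subgroup.subset_closure ⟨x, y, rfl⟩

theorem suzMat_of_mem {F : Type*} [Field F] (φ : F →+* F) (hchar : ∀ x : F, x + x = 0)
    (g : GL (Fin 3) F) (hg : g ∈ Cfsg.suzukiTypeA F φ) : ∃ x y, g = suzMat φ x y := by
  have hone : (1 : GL (Fin 3) F) = suzMat φ 0 0 := by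
    apply Units.ext
    rw [suzMat_coe]
    ext i j
    fin_cases i <;> fin_cases j <;> simp
  unfold Cfsg.suzukiTypeA at hg
  induction hg using Subgroup.closure_induction with
  | mem g hg =>
    obtain ⟨x, y, hxy⟩ := hg
    exact ⟨x, y, Units.ext hxy⟩
  | one => exact ⟨0, 0, hone⟩
  | mul g h _ _ ihg ihh =>
    obtain ⟨x, y, rfl⟩ := ihg
    obtain ⟨x', y', rfl⟩ := ihh
    exact ⟨_, _, suzMat_mul φ x y x' y'⟩
  | inv g _ ihg =>
    obtain ⟨x, y, rfl⟩ := ihg
    refine ⟨x, y + φ x * x, ?_⟩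
    apply inv_eq_of_mul_eq_one_right
    rw [suzMat_mul, hone]
    congr 1
    · exact hchar x
    · linear_combination hchar y + hchar (φ x * x)

end Cfsg.Agent.Helper8
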