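import Mathlib

set_option autoImplicit false

namespace Cfsg.Agent.Helper8

open Subgroup

/-- commutator used in the Suzuki 2-group argument -/
def suzC {P : Type*} [Group P] (x y : P) : P := x * y * x⁻¹ * y⁻¹

theorem suz_inv_pow {G : Type*} [Group G] (h2 : IsPGroup 2 G) (c : G) (hc : c ≠ 1) :
    ∃ m : ℕ, c ^ (2 ^ m) ≠ 1 ∧ c ^ (2 ^ m) * c ^ (2 ^ m) = 1 := by
  haveI : Fact (Nat.Prime 2) := ⟨Nat.prime_two⟩
  obtain ⟨k, hk⟩ := IsPGroup.iff_orderOf.1 h2 c
  have hk0 : k ≠ 0 := by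
    rintro rfl
    rw [pow_zero, orderOf_eq_one_iff] at hk
    exact hc hk
  obtain ⟨m, rfl⟩ := Nat.exists_eq_succ_of_ne_zero hk0
  refine ⟨m, ?_, ?_⟩
  · intro h
    have h1 := orderOf_dvd_of_pow_eq_one h
    rw [hk] at h1
    have h3 := Nat.le_of_dvd (by positivity) h1
    have h4 : 2 ^ m < 2 ^ (m+1) := Nat.pow_lt_pow_right (by norm_num) (by omega)
    omega
  · rw [← pow_add, ← two_mul, ← pow_succ', ← hk, pow_orderOf_eq_one]

theorem suz_aut_center {P : Type*} [Group P] (k : MulAut P) (a : P) (ha : a ∈ center P) :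
    k a ∈ center P := by
  rw [mem_center_iff] at ha ⊢
  intro g
  have h := ha (k⁻¹ g)
  have h2 := congrArg k h
  rw [map_mul, map_mul, MulAut.apply_inv_self] at h2
  exact h2

theorem suz_inv_central {P : Type*} [Group P] [Finite P] (h2 : IsPGroup 2 P) [Nontrivial P]
    (K : Subgroup (MulAut P))
    (htr : ∀ x y : P, x ≠ 1 → x * x = 1 → y ≠ 1 → y * y = 1 → ∃ k ∈ K, k x = y)
    (x : P) (hx : x * x = 1) : x ∈ center P := by
  haveI : Fact (Nat.Prime 2) := ⟨Nat.prime_two⟩
  by_cases hx1 : x = 1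
  · rw [hx1]; exact one_mem _
  haveI := IsPGroup.center_nontrivial h2 (G := P)
  obtain ⟨c, hc⟩ := exists_ne (1 : center P)
  have hc1 : (c : P) ≠ 1 := fun h => hc (Subtype.ext h)
  obtain ⟨m, hm1, hm2⟩ := suz_inv_pow h2 (c : P) hc1
  obtain ⟨k, hk, hkx⟩ := htr _ x hm1 hm2 hx1 hx
  rw [← hkx]
  exact suz_aut_center k _ (pow_mem c.2 _)

theorem suz_pow_central {P : Type*} [Group P] (K : Subgroup (MulAut P))
    (htr : ∀ x y : P, x ≠ 1 → x * x = 1 → y ≠ 1 → y * y = 1 → ∃ k ∈ K, k x = y)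
    (a0 : P) (ha0 : a0 ∈ center P) (e : ℕ) (he : orderOf a0 = 2 ^ e) :
    ∀ j : ℕ, j ≤ e → ∀ x : P, x ^ (2 ^ j) = 1 → x ∈ center P := by
  intro j
  induction j with
  | zero => intro _ x hx; rw [pow_zero, pow_one] at hx; rw [hx]; exact one_mem _
  | succ j ih =>
    intro hj x hx
    have ihj := ih (by omega)
    by_cases hz : x ^ (2 ^ j) = 1
    · exact ihj x hz
    have hzz : x ^ (2 ^ j) * x ^ (2 ^ j) = 1 := by
      rw [← pow_add, ← two_mul, ← pow_succ']; exact hx
    have he1 : e = (e - 1) + 1 := by omega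
    have hz0 : a0 ^ (2 ^ (e - 1)) ≠ 1 := by
      intro h
      have h1 := orderOf_dvd_of_pow_eq_one h
      rw [he] at h1
      have h3 := Nat.le_of_dvd (by positivity) h1
      have h4 : 2 ^ (e - 1) < 2 ^ e := Nat.pow_lt_pow_right (by norm_num) (by omega)
      omega
    have hz0sq : a0 ^ (2 ^ (e - 1)) * a0 ^ (2 ^ (e - 1)) = 1 := by
      rw [← pow_add, ← two_mul, ← pow_succ', ← he1, ← he, pow_orderOf_eq_one]
    obtain ⟨k, hk, hkz⟩ := htr _ _ hz0 hz0sq hz hzz
    have hka : k a0 ∈ center P := suz_aut_center k a0 ha0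
    have hbc : (k a0) ^ (2 ^ (e - j - 1)) ∈ center P := pow_mem hka _
    have hbj : ((k a0) ^ (2 ^ (e - j - 1))) ^ (2 ^ j) = x ^ (2 ^ j) := by
      rw [← pow_mul, ← pow_add, ← hkz, map_pow]
      congr 2
      omega
    have hcomm : Commute x ((k a0) ^ (2 ^ (e - j - 1)))⁻¹ :=
      (mem_center_iff.1 (inv_mem hbc)) x
    have hxb : (x * ((k a0) ^ (2 ^ (e - j - 1)))⁻¹) ^ (2 ^ j) = 1 := by
      rw [hcomm.mul_pow, inv_pow, hbj, mul_inv_cancel]
    have h5 := ihj _ hxb
    have h6 := mul_mem h5 hbc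
    rwa [inv_mul_cancel_right] at h6

theorem suz_alt_zero {P : Type*} [Group P] (K : Subgroup (MulAut P))
    (hcomm : ∀ a ∈ K, ∀ b ∈ K, a * b = b * a)
    (htr : ∀ x y : P, x ≠ 1 → x * x = 1 → y ≠ 1 → y * y = 1 → ∃ k ∈ K, k x = y)
    (hsqK : ∀ k ∈ K, ∃ k1 ∈ K, k1 * k1 = k)
    (hc : ∀ x y : P, x * y * x⁻¹ * y⁻¹ ∈ center P ∧
      (x * y * x⁻¹ * y⁻¹) * (x * y * x⁻¹ * y⁻¹) = 1)
    (ψ : P → P) (hψmul : ∀ x y, ψ (x * y) = ψ x * ψ y)
    (hψker : ∀ x, ψ x = 1 ↔ x ∈ center P)
    (hψsq : ∀ x, ψ x * ψ x = 1) (hψc : ∀ x, ψ x ∈ center P)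
    (hψK : ∀ k ∈ K, ∀ x, ψ (k x) = k (ψ x)) :
    ∀ x y : P, x * y = y * x := by
  have hcc : ∀ x y : P, suzC x y ∈ center P := fun x y => (hc x y).1
  have hcs : ∀ x y : P, suzC x y * suzC x y = 1 := fun x y => (hc x y).2
  have hcen : ∀ z ∈ center P, ∀ g : P, g * z = z * g := fun z hz g => mem_center_iff.1 hz g
  have b1 : ∀ x y y' : P, suzC x (y * y') = suzC x y * suzC x y' := by
    intro x y y'
    have h := hcen _ (hcc x y') y⁻¹
    simp only [suzC] at h ⊢
    calc x * (y * y') * x⁻¹ * (y * y')⁻¹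
        = x * y * x⁻¹ * ((x * y' * x⁻¹ * y'⁻¹) * y⁻¹) := by group
      _ = x * y * x⁻¹ * (y⁻¹ * (x * y' * x⁻¹ * y'⁻¹)) := by rw [h]
      _ = x * y * x⁻¹ * y⁻¹ * (x * y' * x⁻¹ * y'⁻¹) := by group
  have b2 : ∀ x : P, suzC x x = 1 := by intro x; simp [suzC]
  have b3 : ∀ x a : P, a ∈ center P → suzC x a = 1 := by
    intro x a ha
    have h := hcen a ha x
    simp only [suzC]
    rw [h]; group
  have b4 : ∀ x y : P, suzC y x = suzC x y := by
    intro x y
    have h1 : suzC y x = (suzC x y)⁻¹ := by simp only [suzC]; group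
    rw [h1, inv_eq_iff_mul_eq_one]; exact hcs x y
  have b5 : ∀ (k : MulAut P) (x y : P), suzC (k x) (k y) = k (suzC x y) := by
    intro k x y; simp only [suzC, map_mul, map_inv]
  have hψ1 : ψ 1 = 1 := (hψker 1).2 (one_mem _)
  have hψinv : ∀ v, ψ v⁻¹ = (ψ v)⁻¹ := by
    intro v
    have h := hψmul v⁻¹ v
    rw [inv_mul_cancel, hψ1] at h
    exact eq_inv_of_mul_eq_one_left h.symm
  have b7 : ∀ x u v : P, ψ u = ψ v → suzC x u = suzC x v := by
    intro x u v huv
    have ha : v⁻¹ * u ∈ center P := by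
      rw [← hψker, hψmul, hψinv, huv, inv_mul_cancel]
    have h : u = v * (v⁻¹ * u) := by group
    rw [h, b1, b3 x _ ha, mul_one]
  have hcomm_of : ∀ x y : P, suzC x y = 1 → x * y = y * x := by
    intro x y h
    simp only [suzC] at h
    exact mul_inv_eq_iff_eq_mul.1 (mul_inv_eq_one.1 h)
  intro x y
  by_cases hx : ψ x = 1
  · exact ((hcen x ((hψker x).1 hx)) y).symm
  have hww : ψ x * ψ x = 1 := hψsq x
  have hG : ∀ k ∈ K, suzC x ((k * k) x) = 1 := by
    intro k hk
    by_cases hkw : k (ψ x) = ψ x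
    · have h1 : ψ ((k * k) x) = ψ x := by
        rw [MulAut.mul_apply, hψK k hk, hψK k hk, hkw, hkw]
      rw [b7 x _ _ h1, b2]
    have hkwc : k (ψ x) ∈ center P := suz_aut_center k _ (hψc x)
    have hkww : k (ψ x) * k (ψ x) = 1 := by rw [← map_mul, hww, map_one]
    have hv1 : k (ψ x) * ψ x ≠ 1 := by
      intro h
      apply hkw
      have h' : k (ψ x) = (ψ x)⁻¹ := eq_inv_of_mul_eq_one_left h
      rw [h', inv_eq_iff_mul_eq_one]; exact hww
    have hvv : (k (ψ x) * ψ x) * (k (ψ x) * ψ x) = 1 := by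
      have h := hcen _ hkwc (ψ x)
      calc (k (ψ x) * ψ x) * (k (ψ x) * ψ x) = k (ψ x) * (ψ x * k (ψ x)) * ψ x := by group
        _ = k (ψ x) * (k (ψ x) * ψ x) * ψ x := by rw [h]
        _ = (k (ψ x) * k (ψ x)) * (ψ x * ψ x) := by group
        _ = 1 := by rw [hkww, hww, one_mul]
    obtain ⟨k', hk', hk'w⟩ := htr (ψ x) (k (ψ x) * ψ x) hx hww hv1 hvv
    have hop : ∀ u : P, u * u = 1 → k' u = k u * u := by
      intro u hu
      by_cases hu1 : u = 1
      · rw [hu1, map_one, map_one, one_mul]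
      obtain ⟨k2, hk2, hk2w⟩ := htr (ψ x) u hx hww hu1 hu
      have e1 : k' * k2 = k2 * k' := hcomm k' hk' k2 hk2
      have e2 : k2 * k = k * k2 := hcomm k2 hk2 k hk
      calc k' u = (k' * k2) (ψ x) := by rw [MulAut.mul_apply, hk2w]
        _ = (k2 * k') (ψ x) := by rw [e1]
        _ = k2 (k (ψ x) * ψ x) := by rw [MulAut.mul_apply, hk'w]
        _ = (k2 * k) (ψ x) * k2 (ψ x) := by rw [map_mul, MulAut.mul_apply]
        _ = (k * k2) (ψ x) * k2 (ψ x) := by rw [e2]
        _ = k u * u := by rw [MulAut.mul_apply, hk2w]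
    have hψk' : ψ (k' x) = ψ (k x * x) := by
      rw [hψK k' hk', hψmul, hψK k hk, hk'w]
    have hA : suzC x (k' x) = suzC x (k x) := by
      rw [b7 x _ _ hψk', b1, b2, mul_one]
    have hB : suzC x ((k * k') x) = suzC x ((k * k) x) * suzC x (k x) := by
      have h1 : ψ ((k * k') x) = ψ ((k * k) x * k x) := by
        rw [MulAut.mul_apply, hψK k hk, hψk', ← hψK k hk, map_mul, ← MulAut.mul_apply]
      rw [b7 x _ _ h1, b1]
    have hC : ∀ m : MulAut P, suzC x (m⁻¹ x) = m⁻¹ (suzC x (m x)) := by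
      intro m
      have h := b5 m⁻¹ (m x) x
      rw [MulAut.inv_apply_self, b4 x (m x)] at h
      exact h
    have hkk' : k * k' ∈ K := K.mul_mem hk hk'
    have hD : suzC x ((k * k')⁻¹ x) = k⁻¹ (suzC x (k x)) * k'⁻¹ (suzC x (k' x)) := by
      have h1 : ψ ((k * k')⁻¹ x) = ψ (k⁻¹ x * k'⁻¹ x) := by
        rw [hψK _ (K.inv_mem hkk'), hψmul, hψK _ (K.inv_mem hk), hψK _ (K.inv_mem hk')]
        apply (k * k').injective
        rw [MulAut.apply_inv_self, map_mul]
        have e1 : (k * k') (k⁻¹ (ψ x)) = k' (ψ x) := by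
          rw [hcomm k hk k' hk', MulAut.mul_apply, MulAut.apply_inv_self]
        have e2 : (k * k') (k'⁻¹ (ψ x)) = k (ψ x) := by
          rw [MulAut.mul_apply, MulAut.apply_inv_self]
        rw [e1, e2, hk'w]
        have h := hcen _ hkwc (ψ x)
        calc ψ x = (k (ψ x) * k (ψ x)) * ψ x := by rw [hkww, one_mul]
          _ = k (ψ x) * (k (ψ x) * ψ x) := by group
          _ = k (ψ x) * (ψ x * k (ψ x)) := by rw [h]
          _ = k (ψ x) * ψ x * k (ψ x) := by group
      rw [b7 x _ _ h1, b1, hC k, hC k']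
    have hE : suzC x ((k * k') x) = suzC x (k x) := by
      have h1 := hC (k * k')⁻¹
      rw [inv_inv] at h1
      rw [h1, hD, map_mul]
      have e1 : (k * k') (k⁻¹ (suzC x (k x))) = k' (suzC x (k x)) := by
        rw [hcomm k hk k' hk', MulAut.mul_apply, MulAut.apply_inv_self]
      have e2 : (k * k') (k'⁻¹ (suzC x (k' x))) = k (suzC x (k' x)) := by
        rw [MulAut.mul_apply, MulAut.apply_inv_self]
      rw [e1, e2, hA, hop _ (hcs x (k x))]
      have huc : k (suzC x (k x)) ∈ center P := suz_aut_center k _ (hcc x (k x))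
      have hkuu : k (suzC x (k x)) * k (suzC x (k x)) = 1 := by
        rw [← map_mul, hcs, map_one]
      have h := hcen _ huc (suzC x (k x))
      calc k (suzC x (k x)) * suzC x (k x) * k (suzC x (k x))
          = k (suzC x (k x)) * (suzC x (k x) * k (suzC x (k x))) := by group
        _ = k (suzC x (k x)) * (k (suzC x (k x)) * suzC x (k x)) := by rw [h]
        _ = (k (suzC x (k x)) * k (suzC x (k x))) * suzC x (k x) := by group
        _ = suzC x (k x) := by rw [hkuu, one_mul]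
    rw [hE] at hB
    have h9 : suzC x ((k * k) x) * suzC x (k x) = 1 * suzC x (k x) := by
      rw [one_mul]; exact hB.symm
    exact mul_right_cancel h9
  have hF : ∀ k ∈ K, suzC x (k x) = 1 := by
    intro k hk
    obtain ⟨k1, hk1, rfl⟩ := hsqK k hk
    exact hG k1 hk1
  by_cases hy : ψ y = 1
  · exact hcen y ((hψker y).1 hy) x
  obtain ⟨k, hk, hkw⟩ := htr (ψ x) (ψ y) hx hww hy (hψsq y)
  have h1 : ψ y = ψ (k x) := by rw [hψK k hk, hkw]
  exact hcomm_of x y (by rw [b7 x _ _ h1]; exact hF k hk)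

theorem suz_main.{u} : ∀ (n : ℕ) (P : Type u) [Group P] [Finite P], Nat.card P = n → IsPGroup 2 P →
    (∃ x y : P, x * y ≠ y * x) → ∀ K : Subgroup (MulAut P),
    (∀ a ∈ K, ∀ b ∈ K, a * b = b * a) →
    (∀ x y : P, x ≠ 1 → x * x = 1 → y ≠ 1 → y * y = 1 → ∃ k ∈ K, k x = y) →
    (∀ k ∈ K, ∀ x : P, x ≠ 1 → x * x = 1 → k x = x → k = 1) →
    ∀ z ∈ center P, z * z = 1 := by
  intro n
  induction n using Nat.strong_induction_on with
  | _ n ih =>
  intro P _ _ hn h2 hnab K hcomm htr hfree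
  haveI : Fact (Nat.Prime 2) := ⟨Nat.prime_two⟩
  by_contra hcon
  push Not at hcon
  obtain ⟨a1, ha1, ha1sq⟩ := hcon
  haveI : Nontrivial P := by
    obtain ⟨x, y, hxy⟩ := hnab
    exact ⟨⟨x * y, y * x, hxy⟩⟩
  have hic : ∀ x : P, x * x = 1 → x ∈ center P := fun x hx => suz_inv_central h2 K htr x hx
  have hcen : ∀ z ∈ center P, ∀ g : P, g * z = z * g := fun z hz g => mem_center_iff.1 hz g
  haveI : Nonempty (center P) := ⟨1⟩
  obtain ⟨a0', hmax⟩ := Finite.exists_max (fun a : center P => orderOf (a : P))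
  obtain ⟨e, he⟩ := IsPGroup.iff_orderOf.1 h2 (a0' : P)
  obtain ⟨e1, he1⟩ := IsPGroup.iff_orderOf.1 h2 a1
  have he1_2 : 2 ≤ e1 := by
    by_contra h
    have h' : e1 = 0 ∨ e1 = 1 := by omega
    have h2' : a1 ^ 2 = 1 := by
      rcases h' with h | h
      · rw [h, pow_zero, orderOf_eq_one_iff] at he1; rw [he1, one_pow]
      · rw [h, pow_one] at he1; rw [← he1, pow_orderOf_eq_one]
    exact ha1sq (by rw [← pow_two]; exact h2')
  have hee : 2 ≤ e := by
    have h : orderOf a1 ≤ orderOf (a0' : P) := hmax ⟨a1, ha1⟩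
    rw [he, he1] at h
    have h' := (Nat.pow_le_pow_iff_right (by norm_num : 1 < 2)).1 h
    omega
  have hA : ∀ a ∈ center P, a ^ (2 ^ e) = 1 := by
    intro a ha
    obtain ⟨j, hj⟩ := IsPGroup.iff_orderOf.1 h2 a
    have h : orderOf a ≤ orderOf (a0' : P) := hmax ⟨a, ha⟩
    rw [he, hj] at h
    have hje := (Nat.pow_le_pow_iff_right (by norm_num : 1 < 2)).1 h
    have h' : orderOf a ∣ 2 ^ e := by rw [hj]; exact pow_dvd_pow 2 hje
    exact orderOf_dvd_iff_pow_eq_one.1 h'
  have hF := suz_pow_central K htr (a0' : P) a0'.2 e he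
  have hF2 : ∀ x : P, (x * x) * (x * x) = 1 → x ∈ center P := by
    intro x hx
    apply hF 2 hee x
    rw [show (2:ℕ)^2 = 2 + 2 from rfl, pow_add, pow_two]
    exact hx
  have ha1ne : a1 ≠ 1 := by rintro rfl; exact ha1sq (one_mul 1)
  by_cases hcase : ∀ x y : P, (x * y * x⁻¹ * y⁻¹) * (x * y * x⁻¹ * y⁻¹) = 1
  · -- Case II : P / Z abelian
    have hcc : ∀ x y : P, x * y * x⁻¹ * y⁻¹ ∈ center P := fun x y => hic _ (hcase x y)
    have hsqc : ∀ x : P, x * x ∈ center P := by
      intro x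
      rw [mem_center_iff]
      intro y
      have h1 := hcen _ (hcc x y)
      have h2' := hcase x y
      have hxy : x * y = (x * y * x⁻¹ * y⁻¹) * (y * x) := by group
      generalize x * y * x⁻¹ * y⁻¹ = c at h1 h2' hxy
      calc y * (x * x) = (c * c) * (y * x * x) := by rw [h2', one_mul, mul_assoc]
        _ = c * ((c * (y * x)) * x) := by group
        _ = c * ((x * y) * x) := by rw [← hxy]
        _ = (c * x) * (y * x) := by group
        _ = (x * c) * (y * x) := by rw [← h1 x]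
        _ = x * (c * (y * x)) := by group
        _ = x * (x * y) := by rw [← hxy]
        _ = x * x * y := by group
    have hψmul : ∀ x y : P, (x * y) ^ (2 ^ e) = x ^ (2 ^ e) * y ^ (2 ^ e) := by
      intro x y
      have hc1 := hcc y x
      have hc2 := hcase y x
      have hyx : y * x = (y * x * y⁻¹ * x⁻¹) * (x * y) := by group
      generalize y * x * y⁻¹ * x⁻¹ = c at hc1 hc2 hyx
      have h1 : (x * y) ^ 2 = c * (x ^ 2 * y ^ 2) := by
        have h := hcen c hc1 x
        calc (x * y) ^ 2 = x * (y * x) * y := by rw [pow_two]; group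
          _ = x * (c * (x * y)) * y := by rw [← hyx]
          _ = (x * c) * (x * y * y) := by group
          _ = (c * x) * (x * y * y) := by rw [h]
          _ = c * (x ^ 2 * y ^ 2) := by rw [pow_two, pow_two]; group
      have e2 : 2 ^ e = 2 * 2 ^ (e - 1) := by
        conv_lhs => rw [show e = (e - 1) + 1 by omega]
        rw [pow_succ']
      have e3 : 2 ^ (e - 1) = 2 * 2 ^ (e - 2) := by
        conv_lhs => rw [show e - 1 = (e - 2) + 1 by omega]
        rw [pow_succ']
      have hcm : Commute c (x ^ 2 * y ^ 2) := (hcen c hc1 _).symm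
      have hxc : Commute (x ^ 2) (y ^ 2) := by
        have h := hcen _ (hsqc x) (y ^ 2)
        rw [pow_two x]; exact h.symm
      have hcp : c ^ (2 ^ (e - 1)) = 1 := by
        rw [e3, pow_mul, pow_two, hc2, one_pow]
      rw [e2, pow_mul, h1, hcm.mul_pow, hcp, one_mul, hxc.mul_pow, ← pow_mul, ← pow_mul]
    have hψsq : ∀ x : P, x ^ (2 ^ e) * x ^ (2 ^ e) = 1 := by
      intro x
      rw [← (Commute.refl x).mul_pow]; exact hA _ (hsqc x)
    have hsqK : ∀ k ∈ K, ∃ k1 ∈ K, k1 * k1 = k := by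
      intro k hk
      have hpos := orderOf_pos k
      rcases Nat.even_or_odd (orderOf k) with hev | hodd
      · exfalso
        obtain ⟨m, hm⟩ := hev
        have hm0 : 0 < m := by omega
        have hτ1 : k ^ m ≠ 1 := by
          intro h
          have h' := orderOf_dvd_of_pow_eq_one h
          have h'' := Nat.le_of_dvd hm0 h'
          omega
        have hτ2 : k ^ m * k ^ m = 1 := by rw [← pow_add, ← hm, pow_orderOf_eq_one]
        have hτK : k ^ m ∈ K := K.pow_mem hk m
        obtain ⟨m1, hz1, hz2⟩ := suz_inv_pow h2 a1 ha1ne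
        generalize a1 ^ (2 ^ m1) = z at hz1 hz2
        generalize k ^ m = τ at hτ1 hτ2 hτK
        have hτz : τ z ≠ z := fun h => hτ1 (hfree τ hτK z hz1 hz2 h)
        have hzc := hic z hz2
        have hτzc : τ z ∈ center P := suz_aut_center τ z hzc
        have hτzz : τ z * τ z = 1 := by rw [← map_mul, hz2, map_one]
        have hu1 : z * τ z ≠ 1 := by
          intro h
          apply hτz
          have h' : τ z = z⁻¹ := eq_inv_of_mul_eq_one_right h
          rw [h', inv_eq_iff_mul_eq_one]; exact hz2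
        have huu : (z * τ z) * (z * τ z) = 1 := by
          have h := hcen _ hτzc z
          calc (z * τ z) * (z * τ z) = z * (τ z * z) * τ z := by group
            _ = z * (z * τ z) * τ z := by rw [← h]
            _ = (z * z) * (τ z * τ z) := by group
            _ = 1 := by rw [hz2, hτzz, one_mul]
        have hτu : τ (z * τ z) = z * τ z := by
          rw [map_mul, ← MulAut.mul_apply, hτ2, MulAut.one_apply]
          exact (hcen _ hτzc z).symm
        exact hτ1 (hfree τ hτK _ hu1 huu hτu)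
      · obtain ⟨m, hm⟩ := hodd
        refine ⟨k ^ (m + 1), K.pow_mem hk _, ?_⟩
        rw [← pow_add]
        have h : m + 1 + (m + 1) = orderOf k + 1 := by omega
        rw [h, pow_succ, pow_orderOf_eq_one, one_mul]
    have hab := suz_alt_zero K hcomm htr hsqK (fun x y => ⟨hcc x y, hcase x y⟩)
      (fun x => x ^ (2 ^ e)) hψmul (fun x => ⟨hF e le_rfl x, hA x⟩) hψsq
      (fun x => hic _ (hψsq x)) (fun k _ x => (map_pow k x _).symm)
    obtain ⟨x, y, hxy⟩ := hnab
    exact hxy (hab x y)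
  · -- Case I : P / Z nonabelian
    push Not at hcase
    obtain ⟨x0, y0, hxy0⟩ := hcase
    let Z : Subgroup P :=
      { carrier := {x | x * x = 1}
        mul_mem' := by
          intro a b ha hb
          have ha' : a * a = 1 := ha
          have hb' : b * b = 1 := hb
          show (a * b) * (a * b) = 1
          have h := hcen b (hic b hb') a
          calc (a * b) * (a * b) = a * (b * a) * b := by group
            _ = a * (a * b) * b := by rw [← h]
            _ = (a * a) * (b * b) := by group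
            _ = 1 := by rw [ha', hb', one_mul]
        one_mem' := by show (1:P) * 1 = 1; exact one_mul 1
        inv_mem' := by
          intro a ha
          have ha' : a * a = 1 := ha
          show a⁻¹ * a⁻¹ = 1
          rw [← mul_inv_rev, ha', inv_one] }
    haveI hZn : Z.Normal := ⟨fun x hx g => by
      have hx' : x * x = 1 := hx
      have h1 : g * x * g⁻¹ = x := by
        rw [hcen x (hic x hx') g]; group
      rw [h1]; exact hx⟩
    have hZk : ∀ k : MulAut P, Z.map (k : P →* P) = Z := by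
      intro k
      ext x
      rw [Subgroup.mem_map]
      constructor
      · rintro ⟨y, hy, rfl⟩
        have hy' : y * y = 1 := hy
        show k y * k y = 1
        rw [← map_mul, hy', map_one]
      · intro hx
        have hx' : x * x = 1 := hx
        refine ⟨k⁻¹ x, ?_, MulAut.apply_inv_self P k x⟩
        show k⁻¹ x * k⁻¹ x = 1
        rw [← map_mul, hx', map_one]
    have hlt : Nat.card (P ⧸ Z) < n := by
      obtain ⟨m1, hz1, hz2⟩ := suz_inv_pow h2 a1 ha1ne
      have h1 := Subgroup.card_eq_card_quotient_mul_card_subgroup Z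
      have h3 : 1 < Nat.card Z := by
        rw [Finite.one_lt_card_iff_nontrivial]
        exact ⟨⟨⟨_, hz2⟩, 1, fun h => hz1 (congrArg Subtype.val h)⟩⟩
      have h4 : 0 < Nat.card (P ⧸ Z) := Nat.card_pos
      rw [← hn, h1]
      nlinarith
    let Kb : Subgroup (MulAut (P ⧸ Z)) :=
      { carrier := {f | ∃ k ∈ K, ∀ x : P, f (x : P ⧸ Z) = ((k x : P) : P ⧸ Z)}
        mul_mem' := by
          rintro f g ⟨k, hk, hf⟩ ⟨l, hl, hg⟩
          exact ⟨k * l, K.mul_mem hk hl, fun x => by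
            rw [MulAut.mul_apply, hg, hf, MulAut.mul_apply]⟩
        one_mem' := ⟨1, K.one_mem, fun x => rfl⟩
        inv_mem' := by
          rintro f ⟨k, hk, hf⟩
          refine ⟨k⁻¹, K.inv_mem hk, fun x => ?_⟩
          rw [MulAut.inv_apply, MulEquiv.symm_apply_eq, hf, MulAut.apply_inv_self] }
    have hq1 : ∀ x : P, ((x : P) : P ⧸ Z) = 1 ↔ x * x = 1 := fun x => QuotientGroup.eq_one_iff x
    have hqeq : ∀ x y : P, ((x : P) : P ⧸ Z) = (y : P ⧸ Z) ↔ (x⁻¹ * y) * (x⁻¹ * y) = 1 :=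
      fun x y => QuotientGroup.eq
    have hqinv : ∀ x : P, (x : P ⧸ Z) ≠ 1 → (x : P ⧸ Z) * (x : P ⧸ Z) = 1 →
        x * x ≠ 1 ∧ (x * x) * (x * x) = 1 ∧ x ∈ center P := by
      intro x h1 h2'
      have hx1 : x * x ≠ 1 := fun h => h1 ((hq1 x).2 h)
      have hx2 : (x * x) * (x * x) = 1 := by
        rw [← QuotientGroup.mk_mul] at h2'
        exact (hq1 (x * x)).1 h2'
      exact ⟨hx1, hx2, hF2 x hx2⟩
    have htrQ : ∀ X Y : P ⧸ Z, X ≠ 1 → X * X = 1 → Y ≠ 1 → Y * Y = 1 → ∃ f ∈ Kb, f X = Y := by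
      intro X Y hX1 hX2 hY1 hY2
      obtain ⟨x, rfl⟩ := QuotientGroup.mk_surjective X
      obtain ⟨y, rfl⟩ := QuotientGroup.mk_surjective Y
      obtain ⟨hx1, hx2, hxc⟩ := hqinv x hX1 hX2
      obtain ⟨hy1, hy2, hyc⟩ := hqinv y hY1 hY2
      obtain ⟨k, hk, hkxy⟩ := htr (x * x) (y * y) hx1 hx2 hy1 hy2
      refine ⟨QuotientGroup.congr Z Z k (hZk k),
        ⟨k, hk, fun u => QuotientGroup.congr_mk Z Z k (hZk k) u⟩, ?_⟩
      rw [QuotientGroup.congr_mk, hqeq]
      have hkxc : (k x)⁻¹ ∈ center P := inv_mem (suz_aut_center k x hxc)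
      have h := hcen _ hkxc y
      calc ((k x)⁻¹ * y) * ((k x)⁻¹ * y) = (k x)⁻¹ * (y * (k x)⁻¹) * y := by group
        _ = (k x)⁻¹ * ((k x)⁻¹ * y) * y := by rw [h]
        _ = (k x * k x)⁻¹ * (y * y) := by group
        _ = 1 := by rw [← map_mul, hkxy, inv_mul_cancel]
    have hfreeQ : ∀ f ∈ Kb, ∀ X : P ⧸ Z, X ≠ 1 → X * X = 1 → f X = X → f = 1 := by
      rintro f ⟨k, hk, hf⟩ X hX1 hX2 hfX
      obtain ⟨x, rfl⟩ := QuotientGroup.mk_surjective X
      obtain ⟨hx1, hx2, hxc⟩ := hqinv x hX1 hX2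
      rw [hf, hqeq] at hfX
      have hkxc : (k x)⁻¹ ∈ center P := inv_mem (suz_aut_center k x hxc)
      have h3 := hcen _ hkxc x
      have hk1 : k (x * x) = x * x := by
        have h : (k x * k x)⁻¹ * (x * x) = 1 := by
          calc (k x * k x)⁻¹ * (x * x) = (k x)⁻¹ * ((k x)⁻¹ * x) * x := by group
            _ = (k x)⁻¹ * (x * (k x)⁻¹) * x := by rw [h3]
            _ = ((k x)⁻¹ * x) * ((k x)⁻¹ * x) := by group
            _ = 1 := hfX
        rw [map_mul]
        exact inv_mul_eq_one.1 h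
      have hk1' := hfree k hk (x * x) hx1 hx2 hk1
      ext Y
      obtain ⟨y, rfl⟩ := QuotientGroup.mk_surjective Y
      rw [hf, hk1', MulAut.one_apply, MulAut.one_apply]
    have hcommQ : ∀ f ∈ Kb, ∀ g ∈ Kb, f * g = g * f := by
      rintro f ⟨k, hk, hf⟩ g ⟨l, hl, hg⟩
      ext Y
      obtain ⟨y, rfl⟩ := QuotientGroup.mk_surjective Y
      rw [MulAut.mul_apply, MulAut.mul_apply, hg, hf, hf, hg, ← MulAut.mul_apply,
        ← MulAut.mul_apply, hcomm k hk l hl]
    have hnabQ : ∃ X Y : P ⧸ Z, X * Y ≠ Y * X := by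
      refine ⟨(x0 : P ⧸ Z), (y0 : P ⧸ Z), fun h => hxy0 ?_⟩
      rw [← hq1]
      rw [QuotientGroup.mk_mul, QuotientGroup.mk_mul, QuotientGroup.mk_mul, QuotientGroup.mk_inv,
        QuotientGroup.mk_inv, h]
      group
    have key := ih _ hlt (P ⧸ Z) rfl (h2.to_quotient Z) hnabQ Kb hcommQ htrQ hfreeQ
    -- an element of order 2 in the centre of P / Z(P)
    haveI : Nontrivial (P ⧸ center P) := by
      by_contra hnt
      rw [not_nontrivial_iff_subsingleton] at hnt
      obtain ⟨x, y, hxy⟩ := hnab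
      have hx : x ∈ center P := by
        rw [← QuotientGroup.eq_one_iff]; exact Subsingleton.elim _ _
      exact hxy (hcen x hx y).symm
    haveI := IsPGroup.center_nontrivial (h2.to_quotient (center P))
    obtain ⟨cb, hcb⟩ := exists_ne (1 : center (P ⧸ center P))
    have hcb1 : (cb : P ⧸ center P) ≠ 1 := fun h => hcb (Subtype.ext h)
    obtain ⟨m, hm1, hm2⟩ := suz_inv_pow (h2.to_quotient (center P)) (cb : P ⧸ center P) hcb1
    have hmc : (cb : P ⧸ center P) ^ (2 ^ m) ∈ center (P ⧸ center P) := pow_mem cb.2 _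
    obtain ⟨x, hx⟩ := QuotientGroup.mk_surjective ((cb : P ⧸ center P) ^ (2 ^ m))
    rw [← hx] at hm1 hm2 hmc
    have hxA : x ∉ center P := fun h => hm1 ((QuotientGroup.eq_one_iff x).2 h)
    have hxx : x * x ∈ center P := by
      rw [← QuotientGroup.eq_one_iff, QuotientGroup.mk_mul]; exact hm2
    have hxg : ∀ g : P, x * g * x⁻¹ * g⁻¹ ∈ center P := by
      intro g
      have h := mem_center_iff.1 hmc (g : P ⧸ center P)
      rw [← QuotientGroup.eq_one_iff]
      rw [QuotientGroup.mk_mul, QuotientGroup.mk_mul, QuotientGroup.mk_mul, QuotientGroup.mk_inv,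
        QuotientGroup.mk_inv, ← h]
      group
    have hxg2 : ∀ g : P, (x * g * x⁻¹ * g⁻¹) * (x * g * x⁻¹ * g⁻¹) = 1 := by
      intro g
      have hc1 := hxg g
      have hxg' : x * g = (x * g * x⁻¹ * g⁻¹) * (g * x) := by group
      generalize x * g * x⁻¹ * g⁻¹ = c at hc1 hxg'
      have h1 := hcen c hc1 x
      have h2' := hcen _ hxx g
      have h : (c * c) * (g * (x * x)) = 1 * (g * (x * x)) := by
        calc (c * c) * (g * (x * x)) = c * (c * (g * x)) * x := by group
          _ = c * (x * g) * x := by rw [← hxg']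
          _ = (c * x) * (g * x) := by group
          _ = (x * c) * (g * x) := by rw [h1]
          _ = x * (c * (g * x)) := by group
          _ = x * (x * g) := by rw [← hxg']
          _ = (x * x) * g := by group
          _ = g * (x * x) := h2'.symm
          _ = 1 * (g * (x * x)) := (one_mul _).symm
      exact mul_right_cancel h
    have hxZ : (x : P ⧸ Z) ∈ center (P ⧸ Z) := by
      rw [mem_center_iff]
      intro G
      obtain ⟨g, rfl⟩ := QuotientGroup.mk_surjective G
      rw [← QuotientGroup.mk_mul, ← QuotientGroup.mk_mul, hqeq]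
      have hc2 := hxg2 g
      have hc1 := hxg g
      have hxg' : x * g = (x * g * x⁻¹ * g⁻¹) * (g * x) := by group
      generalize x * g * x⁻¹ * g⁻¹ = c at hc1 hc2 hxg'
      have h1 := hcen c hc1 (g * x)
      have h : (g * x)⁻¹ * (x * g) = c := by
        calc (g * x)⁻¹ * (x * g) = (g * x)⁻¹ * (c * (g * x)) := by rw [← hxg']
          _ = (g * x)⁻¹ * ((g * x) * c) := by rw [h1]
          _ = c := by group
      rw [h]; exact hc2
    have hxsq := key _ hxZ
    rw [← QuotientGroup.mk_mul, hq1] at hxsq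
    exact hxA (hF2 x hxsq)

end Cfsg.Agent.Helper8
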