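import Mathlib
import Cfsg.Agent.Helper8.SuzTwo
import Cfsg.Agent.Helper8.SuzFld
import Cfsg.Agent.Helper8.SuzDed
import Cfsg.Agent.Helper8.SuzExt
import Cfsg.Agent.Helper8.SuzMat

set_option autoImplicit false

namespace Cfsg.Agent.Helper8

open Subgroup

set_option maxHeartbeats 1600000 in
theorem suz_typeA.{u} {P : Type u} [Group P] [Finite P] (h2 : IsPGroup 2 P)
    (hnab : ∃ x y : P, x * y ≠ y * x) (K : Subgroup (MulAut P))
    (hcomm : ∀ a ∈ K, ∀ b ∈ K, a * b = b * a)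
    (htr : ∀ x y : P, x ≠ 1 → x * x = 1 → y ≠ 1 → y * y = 1 → ∃ k ∈ K, k x = y)
    (hfree : ∀ k ∈ K, ∀ x : P, x ≠ 1 → x * x = 1 → k x = x → k = 1)
    (n : ℕ) (hn : n ≠ 0) (hq : Nat.card (center P) = 2 ^ n)
    (hcard : Nat.card P = (2 ^ n) ^ 2) :
    ∃ φ : GaloisField 2 n ≃+* GaloisField 2 n, φ ≠ RingEquiv.refl _ ∧ Odd (orderOf φ) ∧
      ∃ Θ : P →* GL (Fin 3) (GaloisField 2 n), Function.Injective Θ ∧
        ∀ g, ∃ x y, Θ g = suzMat (φ : GaloisField 2 n →+* GaloisField 2 n) x y := by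
  classical
  haveI : Fact (Nat.Prime 2) := ⟨Nat.prime_two⟩
  haveI : Nontrivial P := by
    obtain ⟨x, y, hxy⟩ := hnab
    exact ⟨⟨x * y, y * x, hxy⟩⟩
  have hic : ∀ x : P, x * x = 1 → x ∈ center P := fun x hx => suz_inv_central h2 K htr x hx
  have hzsq : ∀ z ∈ center P, z * z = 1 := suz_main (Nat.card P) P rfl h2 hnab K hcomm htr hfree
  have hcen : ∀ z ∈ center P, ∀ g : P, g * z = z * g := fun z hz g => mem_center_iff.1 hz g
  have hkc : ∀ (k : MulAut P) (z : P), z ∈ center P → k z ∈ center P :=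
    fun k z hz => suz_aut_center k z hz
  have hkc' : ∀ (k : MulAut P) (z : P), k z ∈ center P → z ∈ center P := by
    intro k z hz
    have h := suz_aut_center k⁻¹ _ hz
    rwa [MulAut.inv_apply_self] at h
  have hA1 : ∀ k ∈ K, ∀ x : P, x ≠ 1 → k x = x → k = 1 := by
    intro k hk x hx hkx
    obtain ⟨m, hm1, hm2⟩ := suz_inv_pow h2 x hx
    exact hfree k hk _ hm1 hm2 (by rw [map_pow, hkx])
  have hA2 : ∀ k ∈ K, ∀ x : P, x ∉ center P → x⁻¹ * k x ∈ center P → k = 1 := by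
    intro k hk x hx hz
    by_contra hk1
    let f : center P → center P := fun z' =>
      ⟨k z' * (z' : P)⁻¹, mul_mem (hkc k _ z'.2) (inv_mem z'.2)⟩
    have hf : Function.Injective f := by
      intro z1 z2 h12
      have h : k z1 * (z1 : P)⁻¹ = k z2 * (z2 : P)⁻¹ := congrArg Subtype.val h12
      have h' : (k (z2 : P))⁻¹ * k (z1 : P) = (z2 : P)⁻¹ * z1 := by
        calc (k (z2 : P))⁻¹ * k (z1 : P) = (k (z2 : P))⁻¹ * (k z1 * (z1 : P)⁻¹) * z1 := by group
          _ = (k (z2 : P))⁻¹ * (k z2 * (z2 : P)⁻¹) * z1 := by rw [h]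
          _ = (z2 : P)⁻¹ * z1 := by group
      have h3 : k ((z2 : P)⁻¹ * z1) = (z2 : P)⁻¹ * z1 := by rw [map_mul, map_inv, h']
      by_contra hne
      have hne' : (z2 : P)⁻¹ * z1 ≠ 1 := fun h0 => hne (Subtype.ext (inv_mul_eq_one.1 h0).symm)
      exact hk1 (hA1 k hk _ hne' h3)
    obtain ⟨z', hz'⟩ := (Finite.injective_iff_surjective.1 hf) ⟨(x⁻¹ * k x)⁻¹, inv_mem hz⟩
    have hz'' : k z' * (z' : P)⁻¹ = (x⁻¹ * k x)⁻¹ := congrArg Subtype.val hz'
    have h4 : k (x * z') = x * z' := by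
      have h5 : k (z' : P) = (x⁻¹ * k x)⁻¹ * z' := by rw [← hz'']; group
      rw [map_mul, h5]; group
    have h6 : x * (z' : P) ≠ 1 := by
      intro h0
      apply hx
      have h7 : x = (z' : P)⁻¹ := eq_inv_of_mul_eq_one_left h0
      rw [h7]; exact inv_mem z'.2
    exact hk1 (hA1 k hk _ h6 h4)
  have hnt : Nontrivial (P ⧸ center P) := by
    by_contra hnt
    rw [not_nontrivial_iff_subsingleton] at hnt
    obtain ⟨x, y, hxy⟩ := hnab
    have hx : x ∈ center P := by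
      rw [← QuotientGroup.eq_one_iff]; exact Subsingleton.elim _ _
    exact hxy (hcen x hx y).symm
  obtain ⟨w0, hw0, hw0sq⟩ : ∃ w0 : P, w0 ∉ center P ∧ w0 * w0 ∈ center P := by
    obtain ⟨c, hc⟩ := exists_ne (1 : P ⧸ center P)
    obtain ⟨m, hm1, hm2⟩ := suz_inv_pow (h2.to_quotient (center P)) c hc
    obtain ⟨w, hw⟩ := QuotientGroup.mk_surjective (c ^ (2 ^ m))
    rw [← hw] at hm1 hm2
    refine ⟨w, fun h => hm1 ((QuotientGroup.eq_one_iff w).2 h), ?_⟩
    rw [← QuotientGroup.eq_one_iff, QuotientGroup.mk_mul]; exact hm2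
  have hz0ne : w0 * w0 ≠ 1 := fun h => hw0 (hic w0 h)
  have hz0sq : (w0 * w0) * (w0 * w0) = 1 := hzsq _ hw0sq
  have hcardV : Nat.card (P ⧸ center P) = 2 ^ n := by
    have h := Subgroup.card_eq_card_quotient_mul_card_subgroup (center P)
    rw [hcard, hq, pow_two] at h
    exact (Nat.eq_of_mul_eq_mul_right (by positivity) h).symm
  let g1 : Option K → center P := fun o => match o with
    | none => 1
    | some k => ⟨(k : MulAut P) (w0 * w0), hkc _ _ hw0sq⟩
  have hg1inj : Function.Injective g1 := by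
    intro o1 o2 h
    rcases o1 with _ | k1 <;> rcases o2 with _ | k2
    · rfl
    · exfalso
      have h' : (1 : P) = (k2 : MulAut P) (w0 * w0) := congrArg Subtype.val h
      exact hz0ne ((map_eq_one_iff (k2 : MulAut P) (k2 : MulAut P).injective).1 h'.symm)
    · exfalso
      have h' : (k1 : MulAut P) (w0 * w0) = 1 := congrArg Subtype.val h
      exact hz0ne ((map_eq_one_iff (k1 : MulAut P) (k1 : MulAut P).injective).1 h')
    · have h' : (k1 : MulAut P) (w0 * w0) = (k2 : MulAut P) (w0 * w0) := congrArg Subtype.val h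
      have h3 : ((k2 : MulAut P)⁻¹ * (k1 : MulAut P)) = 1 :=
        hfree _ (K.mul_mem (K.inv_mem k2.2) k1.2) _ hz0ne hz0sq
          (by rw [MulAut.mul_apply, h', MulAut.inv_apply_self])
      have h4 : (k2 : MulAut P) = k1 := inv_mul_eq_one.1 h3
      exact congrArg some (Subtype.ext h4.symm)
  have hg1surj : Function.Surjective g1 := by
    intro z
    by_cases hz : z = 1
    · exact ⟨none, hz.symm⟩
    · have hz1 : (z : P) ≠ 1 := fun h => hz (Subtype.ext h)
      obtain ⟨k, hk, hkz⟩ := htr _ _ hz0ne hz0sq hz1 (hzsq _ z.2)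
      exact ⟨some ⟨k, hk⟩, Subtype.ext hkz⟩
  have hcardO : Nat.card (Option K) = 2 ^ n := by
    rw [Nat.card_eq_of_bijective g1 ⟨hg1inj, hg1surj⟩, hq]
  let g2 : Option K → P ⧸ center P := fun o => match o with
    | none => 1
    | some k => (((k : MulAut P) w0 : P) : P ⧸ center P)
  have hg2inj : Function.Injective g2 := by
    intro o1 o2 h
    rcases o1 with _ | k1 <;> rcases o2 with _ | k2
    · rfl
    · exfalso
      have h' : (((k2 : MulAut P) w0 : P) : P ⧸ center P) = 1 := h.symm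
      exact hw0 (hkc' _ _ ((QuotientGroup.eq_one_iff _).1 h'))
    · exfalso
      have h' : (((k1 : MulAut P) w0 : P) : P ⧸ center P) = 1 := h
      exact hw0 (hkc' _ _ ((QuotientGroup.eq_one_iff _).1 h'))
    · have h' : (((k1 : MulAut P) w0 : P) : P ⧸ center P) = ((k2 : MulAut P) w0 : P) := h
      rw [QuotientGroup.eq] at h'
      have h3 : w0⁻¹ * ((k1 : MulAut P)⁻¹ * (k2 : MulAut P)) w0 ∈ center P := by
        have h5 := hkc (k1 : MulAut P)⁻¹ _ h'
        rwa [map_mul, map_inv, MulAut.inv_apply_self, ← MulAut.mul_apply] at h5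
      have h4 := hA2 _ (K.mul_mem (K.inv_mem k1.2) k2.2) w0 hw0 h3
      have h5 : (k1 : MulAut P) = k2 := inv_mul_eq_one.1 h4
      exact congrArg some (Subtype.ext h5)
  have hg2surj : Function.Surjective g2 :=
    (hg2inj.bijective_of_nat_card_le (by rw [hcardV, hcardO])).2
  have hA3 : ∀ X : P ⧸ center P, X ≠ 1 → ∃ k ∈ K, X = ((k w0 : P) : P ⧸ center P) := by
    intro X hX
    obtain ⟨o, ho⟩ := hg2surj X
    rcases o with _ | k
    · exact absurd ho.symm hX
    · exact ⟨k, k.2, ho.symm⟩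
  have hsq : ∀ x : P, x * x ∈ center P := by
    intro x
    by_cases hx : x ∈ center P
    · rw [hzsq x hx]; exact one_mem _
    · have hX : ((x : P) : P ⧸ center P) ≠ 1 := fun h => hx ((QuotientGroup.eq_one_iff x).1 h)
      obtain ⟨k, hk, hkx⟩ := hA3 _ hX
      rw [QuotientGroup.eq] at hkx
      have h1 := hcen _ hkx x
      have e : k w0 * k w0 = (x * x) * ((x⁻¹ * k w0) * (x⁻¹ * k w0)) := by
        calc k w0 * k w0 = x * ((x⁻¹ * k w0) * x) * (x⁻¹ * k w0) := by group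
          _ = x * (x * (x⁻¹ * k w0)) * (x⁻¹ * k w0) := by rw [← h1]
          _ = (x * x) * ((x⁻¹ * k w0) * (x⁻¹ * k w0)) := by group
      rw [hzsq _ hkx, mul_one] at e
      rw [← e, ← map_mul]
      exact hkc k _ hw0sq
  have hcc : ∀ x y : P, x * y * x⁻¹ * y⁻¹ ∈ center P := by
    intro x y
    have hc := hcen _ (inv_mem (hsq x)) y
    have e : x * y * x⁻¹ * y⁻¹ = ((x * y) * (x * y)) * ((x * x)⁻¹ * (y * y)⁻¹) := by
      calc x * y * x⁻¹ * y⁻¹ = x * y * x * ((x * x)⁻¹ * y) * (y * y)⁻¹ := by group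
        _ = x * y * x * (y * (x * x)⁻¹) * (y * y)⁻¹ := by rw [hc]
        _ = ((x * y) * (x * y)) * ((x * x)⁻¹ * (y * y)⁻¹) := by group
    rw [e]
    exact mul_mem (hsq _) (mul_mem (inv_mem (hsq x)) (inv_mem (hsq y)))
  -- the induced group on V = P / Z
  have hZk : ∀ k : MulAut P, (center P).map (k : P →* P) = center P := by
    intro k
    ext x
    rw [Subgroup.mem_map]
    constructor
    · rintro ⟨y, hy, rfl⟩; exact hkc k y hy
    · intro hx; exact ⟨k⁻¹ x, hkc k⁻¹ x hx, MulAut.apply_inv_self P k x⟩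
  let Kb : Subgroup (MulAut (P ⧸ center P)) :=
    { carrier := {f | ∃ k ∈ K, ∀ x : P, f (x : P ⧸ center P) = ((k x : P) : P ⧸ center P)}
      mul_mem' := by
        rintro f g ⟨k, hk, hf⟩ ⟨l, hl, hg⟩
        exact ⟨k * l, K.mul_mem hk hl, fun x => by
          rw [MulAut.mul_apply, hg, hf, MulAut.mul_apply]⟩
      one_mem' := ⟨1, K.one_mem, fun x => rfl⟩
      inv_mem' := by
        rintro f ⟨k, hk, hf⟩
        refine ⟨k⁻¹, K.inv_mem hk, fun x => ?_⟩
        rw [MulAut.inv_apply, MulEquiv.symm_apply_eq, hf, MulAut.apply_inv_self] }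
  have hKbmem : ∀ k ∈ K, ∃ f ∈ Kb,
      ∀ x : P, f (x : P ⧸ center P) = ((k x : P) : P ⧸ center P) := fun k hk =>
    ⟨QuotientGroup.congr (center P) (center P) k (hZk k),
      ⟨k, hk, fun x => QuotientGroup.congr_mk _ _ k (hZk k) x⟩,
      fun x => QuotientGroup.congr_mk _ _ k (hZk k) x⟩
  have hexpV : ∀ X : P ⧸ center P, X * X = 1 := by
    intro X
    obtain ⟨x, rfl⟩ := QuotientGroup.mk_surjective X
    rw [← QuotientGroup.mk_mul, QuotientGroup.eq_one_iff]; exact hsq x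
  have hcommV : ∀ f ∈ Kb, ∀ g ∈ Kb, f * g = g * f := by
    rintro f ⟨k, hk, hf⟩ g ⟨l, hl, hg⟩
    ext Y
    obtain ⟨y, rfl⟩ := QuotientGroup.mk_surjective Y
    rw [MulAut.mul_apply, MulAut.mul_apply, hg, hf, hf, hg, ← MulAut.mul_apply,
      ← MulAut.mul_apply, hcomm k hk l hl]
  have htrV : ∀ X Y : P ⧸ center P, X ≠ 1 → Y ≠ 1 → ∃ f ∈ Kb, f X = Y := by
    intro X Y hX hY
    obtain ⟨k1, hk1, rfl⟩ := hA3 X hX
    obtain ⟨k2, hk2, rfl⟩ := hA3 Y hY
    obtain ⟨f, hf, hfx⟩ := hKbmem (k2 * k1⁻¹) (K.mul_mem hk2 (K.inv_mem hk1))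
    refine ⟨f, hf, ?_⟩
    rw [hfx, MulAut.mul_apply, MulAut.inv_apply_self]
  have hfreeV : ∀ f ∈ Kb, ∀ X : P ⧸ center P, X ≠ 1 → f X = X → f = 1 := by
    rintro f ⟨k, hk, hf⟩ X hX hfX
    obtain ⟨k1, hk1, rfl⟩ := hA3 X hX
    rw [hf, eq_comm, QuotientGroup.eq] at hfX
    have hk1w : k1 w0 ∉ center P := fun h => hw0 (hkc' _ _ h)
    have hk0 := hA2 k hk (k1 w0) hk1w hfX
    ext Y
    obtain ⟨y, rfl⟩ := QuotientGroup.mk_surjective Y
    rw [hf, hk0, MulAut.one_apply, MulAut.one_apply]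
  have hw0V : ((w0 : P) : P ⧸ center P) ≠ 1 := fun h => hw0 ((QuotientGroup.eq_one_iff w0).1 h)
  obtain ⟨aV, haVbij, haVadd, haV1, haVK⟩ :=
    suzA_field hexpV Kb hcommV htrV hfreeV _ hw0V n hn hcardV
  -- the induced group on Z
  let KZ : Subgroup (MulAut (center P)) :=
    { carrier := {f | ∃ k ∈ K, ∀ z : center P, ((f z : center P) : P) = k z}
      mul_mem' := by
        rintro f g ⟨k, hk, hf⟩ ⟨l, hl, hg⟩
        exact ⟨k * l, K.mul_mem hk hl, fun z => by
          rw [MulAut.mul_apply, hf, hg, MulAut.mul_apply]⟩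
      one_mem' := ⟨1, K.one_mem, fun z => rfl⟩
      inv_mem' := by
        rintro f ⟨k, hk, hf⟩
        refine ⟨k⁻¹, K.inv_mem hk, fun z => ?_⟩
        have h := hf (f⁻¹ z)
        rw [MulAut.apply_inv_self] at h
        rw [h, MulAut.inv_apply_self] }
  have hKZmem : ∀ k ∈ K, ∃ f ∈ KZ, ∀ z : center P, ((f z : center P) : P) = k z := by
    intro k hk
    let f : center P ≃* center P :=
      { toFun := fun z => ⟨k z, hkc k z z.2⟩
        invFun := fun z => ⟨k⁻¹ z, hkc k⁻¹ z z.2⟩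
        left_inv := fun z => Subtype.ext (MulAut.inv_apply_self P k z)
        right_inv := fun z => Subtype.ext (MulAut.apply_inv_self P k z)
        map_mul' := fun z z' => Subtype.ext (map_mul k (z : P) z') }
    exact ⟨f, ⟨k, hk, fun z => rfl⟩, fun z => rfl⟩
  have hexpZ : ∀ z : center P, z * z = 1 := fun z => Subtype.ext (hzsq z z.2)
  have hcommZ : ∀ f ∈ KZ, ∀ g ∈ KZ, f * g = g * f := by
    rintro f ⟨k, hk, hf⟩ g ⟨l, hl, hg⟩
    apply MulEquiv.ext
    intro z
    apply Subtype.ext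
    rw [MulAut.mul_apply, MulAut.mul_apply, hf, hg, hg, hf, ← MulAut.mul_apply,
      ← MulAut.mul_apply, hcomm k hk l hl]
  have htrZ : ∀ z z' : center P, z ≠ 1 → z' ≠ 1 → ∃ f ∈ KZ, f z = z' := by
    intro z z' hz hz'
    have hz1 : (z : P) ≠ 1 := fun h => hz (Subtype.ext h)
    have hz1' : (z' : P) ≠ 1 := fun h => hz' (Subtype.ext h)
    obtain ⟨k, hk, hkz⟩ := htr _ _ hz1 (hzsq _ z.2) hz1' (hzsq _ z'.2)
    obtain ⟨f, hf, hfz⟩ := hKZmem k hk
    exact ⟨f, hf, Subtype.ext (by rw [hfz, hkz])⟩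
  have hfreeZ : ∀ f ∈ KZ, ∀ z : center P, z ≠ 1 → f z = z → f = 1 := by
    rintro f ⟨k, hk, hf⟩ z hz hfz
    have hz1 : (z : P) ≠ 1 := fun h => hz (Subtype.ext h)
    have hk1 := hfree k hk _ hz1 (hzsq _ z.2) (by rw [← hf, hfz])
    apply MulEquiv.ext
    intro z'
    apply Subtype.ext
    rw [hf, hk1]; rfl
  have hz0 : (⟨w0 * w0, hw0sq⟩ : center P) ≠ 1 := fun h => hz0ne (congrArg Subtype.val h)
  obtain ⟨bZ, hbZbij, hbZadd, hbZ1, hbZK⟩ :=
    suzA_field hexpZ KZ hcommZ htrZ hfreeZ ⟨w0 * w0, hw0sq⟩ hz0 n hn hq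
  -- coordinates on P
  let a : P → GaloisField 2 n := fun x => aV (x : P ⧸ center P)
  have ha : ∀ x y, a (x * y) = a x + a y := fun x y => by
    show aV ((x * y : P) : P ⧸ center P) = _
    rw [QuotientGroup.mk_mul, haVadd]
  have haV0 : aV 1 = 0 := by
    have h := haVadd 1 1
    rw [mul_one] at h
    exact left_eq_add.1 h
  have ha0 : ∀ x, a x = 0 ↔ x ∈ center P := by
    intro x
    constructor
    · intro h
      rw [← QuotientGroup.eq_one_iff]
      exact haVbij.1 (h.trans haV0.symm)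
    · intro h
      show aV (x : P ⧸ center P) = 0
      rw [(QuotientGroup.eq_one_iff x).2 h, haV0]
  have hasurj : ∀ t, ∃ x : P, a x = t := by
    intro t
    obtain ⟨X, hX⟩ := haVbij.2 t
    obtain ⟨x, rfl⟩ := QuotientGroup.mk_surjective X
    exact ⟨x, hX⟩
  have hbZ0 : bZ 1 = 0 := by
    have h := hbZadd 1 1
    rw [mul_one] at h
    exact left_eq_add.1 h
  let b : P → GaloisField 2 n := fun x => if h : x ∈ center P then bZ ⟨x, h⟩ else 0
  have hbdef : ∀ x (h : x ∈ center P), b x = bZ ⟨x, h⟩ := fun x h => dif_pos h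
  have hbadd : ∀ z z', z ∈ center P → z' ∈ center P → b (z * z') = b z + b z' := by
    intro z z' hz hz'
    rw [hbdef _ (mul_mem hz hz'), hbdef _ hz, hbdef _ hz', ← hbZadd]
    rfl
  have hbinj : ∀ z, z ∈ center P → b z = 0 → z = 1 := by
    intro z hz h
    rw [hbdef _ hz, ← hbZ0] at h
    exact congrArg Subtype.val (hbZbij.1 h)
  have hb1 : b 1 = 0 := by rw [hbdef _ (one_mem _)]; exact hbZ0
  have hdiff : ∀ x x' : P, a x = a x' → x⁻¹ * x' ∈ center P := by
    intro x x' h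
    rw [← ha0, ha, ← h, ← ha, inv_mul_cancel]; exact (ha0 1).2 (one_mem _)
  have hQ : ∀ x x' : P, a x = a x' → x * x = x' * x' := by
    intro x x' h
    have hz := hdiff x x' h
    have h1 := hcen _ hz x
    have e : x' * x' = (x * x) * ((x⁻¹ * x') * (x⁻¹ * x')) := by
      calc x' * x' = x * ((x⁻¹ * x') * x) * (x⁻¹ * x') := by group
        _ = x * (x * (x⁻¹ * x')) * (x⁻¹ * x') := by rw [← h1]
        _ = (x * x) * ((x⁻¹ * x') * (x⁻¹ * x')) := by group
    rw [e, hzsq _ hz, mul_one]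
  have hsuzCc : ∀ x y : P, suzC x y ∈ center P := hcc
  have c1 : ∀ x y y' : P, suzC x (y * y') = suzC x y * suzC x y' := by
    intro x y y'
    have h := hcen _ (hcc x y') y⁻¹
    simp only [suzC] at h ⊢
    calc x * (y * y') * x⁻¹ * (y * y')⁻¹
        = x * y * x⁻¹ * ((x * y' * x⁻¹ * y'⁻¹) * y⁻¹) := by group
      _ = x * y * x⁻¹ * (y⁻¹ * (x * y' * x⁻¹ * y'⁻¹)) := by rw [h]
      _ = x * y * x⁻¹ * y⁻¹ * (x * y' * x⁻¹ * y'⁻¹) := by group
  have c1' : ∀ x x' y : P, suzC (x * x') y = suzC x y * suzC x' y := by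
    intro x x' y
    have h := hcen _ (hcc x' y) x
    have h' := hcen _ (hcc x' y) (x * y * x⁻¹ * y⁻¹)
    simp only [suzC] at h ⊢
    calc x * x' * y * (x * x')⁻¹ * y⁻¹
        = (x * (x' * y * x'⁻¹ * y⁻¹)) * y * x⁻¹ * y⁻¹ := by group
      _ = ((x' * y * x'⁻¹ * y⁻¹) * x) * y * x⁻¹ * y⁻¹ := by rw [h]
      _ = (x' * y * x'⁻¹ * y⁻¹) * (x * y * x⁻¹ * y⁻¹) := by group
      _ = (x * y * x⁻¹ * y⁻¹) * (x' * y * x'⁻¹ * y⁻¹) := h'.symm
  have c3 : ∀ x z : P, z ∈ center P → suzC x z = 1 := by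
    intro x z hz
    simp only [suzC]
    rw [hcen z hz x]; group
  have c3' : ∀ z y : P, z ∈ center P → suzC z y = 1 := by
    intro z y hz
    simp only [suzC]
    rw [← hcen z hz y]; group
  have hC : ∀ x x' y y' : P, a x = a x' → a y = a y' → suzC x' y' = suzC x y := by
    intro x x' y y' hx hy
    have e1 : x' = x * (x⁻¹ * x') := by group
    have e2 : y' = y * (y⁻¹ * y') := by group
    rw [e1, e2, c1', c3' _ _ (hdiff x x' hx), mul_one, c1, c3 _ _ (hdiff y y' hy), mul_one]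
  let s : GaloisField 2 n → P := fun t => Classical.choose (hasurj t)
  have hs : ∀ t, a (s t) = t := fun t => Classical.choose_spec (hasurj t)
  let σ' : GaloisField 2 n → GaloisField 2 n := fun t => b (s t * s t)
  let β' : GaloisField 2 n → GaloisField 2 n → GaloisField 2 n :=
    fun t t' => b (suzC (s t) (s t'))
  have hσ : ∀ x, σ' (a x) = b (x * x) := fun x => by
    show b (s (a x) * s (a x)) = b (x * x)
    rw [hQ _ _ (hs (a x))]
  have hβ : ∀ x y, β' (a x) (a y) = b (suzC x y) := fun x y => by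
    show b (suzC (s (a x)) (s (a y))) = b (suzC x y)
    rw [hC x (s (a x)) y (s (a y)) (hs _).symm (hs _).symm]
  have hσadd : ∀ t t', σ' (t + t') = σ' t + σ' t' + β' t t' := by
    intro t t'
    obtain ⟨x, rfl⟩ := hasurj t
    obtain ⟨y, rfl⟩ := hasurj t'
    rw [← ha, hσ, hσ, hσ, hβ]
    have hc0 := hsuzCc x y
    have hgh : x * y = suzC x y * (y * x) := by simp only [suzC]; group
    have e1 : (x * y) * (x * y) = suzC x y * ((x * x) * (y * y)) := by
      generalize suzC x y = c at hgh hc0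
      have hgg := hcen (x * x) (hsq x) y
      calc (x * y) * (x * y) = (c * (y * x)) * (x * y) := by rw [← hgh]
        _ = c * (y * (x * x) * y) := by group
        _ = c * ((x * x) * y * y) := by rw [hgg]
        _ = c * ((x * x) * (y * y)) := by group
    rw [e1, hbadd _ _ hc0 (mul_mem (hsq x) (hsq y)), hbadd _ _ (hsq x) (hsq y)]
    ring
  have hβadd1 : ∀ t t'' t', β' (t + t'') t' = β' t t' + β' t'' t' := by
    intro t t'' t'
    obtain ⟨x, rfl⟩ := hasurj t
    obtain ⟨x'', rfl⟩ := hasurj t''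
    obtain ⟨y, rfl⟩ := hasurj t'
    rw [← ha, hβ, hβ, hβ, c1', hbadd _ _ (hsuzCc _ _) (hsuzCc _ _)]
  have hβadd2 : ∀ t t' t'', β' t (t' + t'') = β' t t' + β' t t'' := by
    intro t t' t''
    obtain ⟨x, rfl⟩ := hasurj t
    obtain ⟨y, rfl⟩ := hasurj t'
    obtain ⟨y'', rfl⟩ := hasurj t''
    rw [← ha, hβ, hβ, hβ, c1, hbadd _ _ (hsuzCc _ _) (hsuzCc _ _)]
  have hσ0 : σ' 0 = 0 := by
    have h := hσ 1
    rw [(ha0 1).2 (one_mem _), mul_one, hb1] at h
    exact h
  have hσmul : ∀ t t', σ' (t * t') = σ' t * σ' t' := by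
    intro t t'
    by_cases ht : t = 0
    · rw [ht, zero_mul, hσ0, zero_mul]
    obtain ⟨x, rfl⟩ := hasurj t
    obtain ⟨y, rfl⟩ := hasurj t'
    have hxc : x ∉ center P := fun h => ht ((ha0 x).2 h)
    have hX : ((x : P) : P ⧸ center P) ≠ 1 := fun h => hxc ((QuotientGroup.eq_one_iff x).1 h)
    obtain ⟨k, hk, hkx⟩ := hA3 _ hX
    obtain ⟨f, hf, hfx⟩ := hKbmem k hk
    obtain ⟨fz, hfz, hfzx⟩ := hKZmem k hk
    have hax : a x = a (k w0) := by
      show aV (x : P ⧸ center P) = aV ((k w0 : P) : P ⧸ center P)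
      rw [hkx]
    have hak : ∀ y : P, a (k y) = a (k w0) * a y := by
      intro y
      show aV ((k y : P) : P ⧸ center P) =
        aV ((k w0 : P) : P ⧸ center P) * aV (y : P ⧸ center P)
      rw [← hfx, ← hfx, haVK f hf]
    have hbk : ∀ z : P, z ∈ center P → b (k z) = b (k (w0 * w0)) * b z := by
      intro z hz
      rw [hbdef _ (hkc k z hz), hbdef _ (hkc k _ hw0sq), hbdef _ hz]
      have h := hbZK fz hfz ⟨z, hz⟩
      have e1 : fz ⟨z, hz⟩ = ⟨k z, hkc k z hz⟩ := Subtype.ext (hfzx _)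
      have e2 : fz ⟨w0 * w0, hw0sq⟩ = ⟨k (w0 * w0), hkc k _ hw0sq⟩ := Subtype.ext (hfzx _)
      rw [e1, e2] at h
      exact h
    rw [hax, ← hak, hσ, hσ, hσ, ← map_mul k y y, ← map_mul k w0 w0, hbk _ (hsq y)]
  have hβne : ∃ t t', β' t t' ≠ 0 := by
    obtain ⟨x, y, hxy⟩ := hnab
    refine ⟨a x, a y, ?_⟩
    rw [hβ]
    intro h
    have h1 := hbinj _ (hsuzCc x y) h
    apply hxy
    simp only [suzC] at h1
    exact mul_inv_eq_iff_eq_mul.1 (mul_inv_eq_one.1 h1)
  obtain ⟨τ, ι, hτι⟩ := suz_sigma_decomp n σ' β' hσmul hσadd hβadd1 hβadd2 hβne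
  have hcompat : ∀ x, τ.symm (b (x * x)) = a x * (ι.trans τ.symm) (a x) := by
    intro x
    show τ.symm (b (x * x)) = a x * τ.symm (ι (a x))
    rw [← hσ, hτι, map_mul, RingEquiv.symm_apply_apply]
  have hchar : ∀ x : GaloisField 2 n, x + x = 0 := fun x => CharTwo.add_self_eq_zero x
  have hφne : ι.trans τ.symm ≠ RingEquiv.refl _ := by
    intro hrefl
    obtain ⟨t, t', htt⟩ := hβne
    apply htt
    have hι : ∀ w, ι w = τ w := by
      intro w
      have h := congrArg (fun e : GaloisField 2 n ≃+* GaloisField 2 n => e w) hrefl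
      have h' : τ.symm (ι w) = w := h
      rw [RingEquiv.symm_apply_eq] at h'
      exact h'
    have hσsq : ∀ w, σ' w = τ (w * w) := fun w => by rw [hτι, hι, map_mul]
    have h1 := hσadd t t'
    rw [hσsq, hσsq, hσsq] at h1
    have h3 : (t + t') * (t + t') = t * t + t' * t' := by
      have h4 := hchar (t * t')
      linear_combination h4
    rw [h3, map_add] at h1
    exact left_eq_add.1 h1
  have hQinj : ∀ x y : P, x * x = y * y → a x = a y := by
    intro x y hxy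
    by_cases hx : x ∈ center P
    · have hy : y ∈ center P := hic y (by rw [← hxy]; exact hzsq x hx)
      rw [(ha0 x).2 hx, (ha0 y).2 hy]
    · have hy : y ∉ center P := fun hy => hx (hic x (by rw [hxy]; exact hzsq y hy))
      have hX : ((x : P) : P ⧸ center P) ≠ 1 := fun h => hx ((QuotientGroup.eq_one_iff x).1 h)
      have hY : ((y : P) : P ⧸ center P) ≠ 1 := fun h => hy ((QuotientGroup.eq_one_iff y).1 h)
      obtain ⟨k1, hk1, hkx⟩ := hA3 _ hX
      obtain ⟨k2, hk2, hky⟩ := hA3 _ hY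
      have h1 : x * x = k1 (w0 * w0) := by
        rw [map_mul]; exact hQ _ _ (by show aV _ = aV _; rw [hkx])
      have h2' : y * y = k2 (w0 * w0) := by
        rw [map_mul]; exact hQ _ _ (by show aV _ = aV _; rw [hky])
      have h3 : (k2⁻¹ * k1) (w0 * w0) = w0 * w0 := by
        rw [MulAut.mul_apply, ← h1, hxy, h2', MulAut.inv_apply_self]
      have h4 := hfree _ (K.mul_mem (K.inv_mem hk2) hk1) _ hz0ne hz0sq h3
      have h5 : k2 = k1 := inv_mul_eq_one.1 h4
      show aV _ = aV _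
      rw [hkx, hky, h5]
  have hN : ∀ u v : GaloisField 2 n,
      u * (ι.trans τ.symm) u = v * (ι.trans τ.symm) v → u = v := by
    intro u v huv
    obtain ⟨x, rfl⟩ := hasurj u
    obtain ⟨y, rfl⟩ := hasurj v
    rw [← hcompat, ← hcompat] at huv
    have h1 : b (x * x) = b (y * y) := τ.symm.injective huv
    have h3 : x * x = y * y := by
      have hb' : b ((x * x) * (y * y)⁻¹) = 0 := by
        rw [hbadd _ _ (hsq x) (inv_mem (hsq y)), h1, ← hbadd _ _ (hsq y) (inv_mem (hsq y)),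
          mul_inv_cancel, hb1]
      have h4 := hbinj _ (mul_mem (hsq x) (inv_mem (hsq y))) hb'
      exact mul_inv_eq_one.1 h4
    exact hQinj x y h3
  have hodd := suz_odd_order n (ι.trans τ.symm) hN
  obtain ⟨Θ, hΘinj, hΘ⟩ := suz_ext (G := GL (Fin 3) (GaloisField 2 n)) hchar
    (fun w => (ι.trans τ.symm) w)
    (fun s t => map_add (ι.trans τ.symm) s t)
    (suzMat ((ι.trans τ.symm : GaloisField 2 n ≃+* GaloisField 2 n) :
      GaloisField 2 n →+* GaloisField 2 n))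
    (fun x y x' y' => suzMat_mul _ x y x' y') (fun x y x' y' h => suzMat_inj _ x y x' y' h)
    a ha (fun z hz g => hcen z ((ha0 z).1 hz) g) (fun x => τ.symm (b x))
    (fun z z' hz hz' => by
      show τ.symm (b (z * z')) = τ.symm (b z) + τ.symm (b z')
      rw [hbadd _ _ ((ha0 z).1 hz) ((ha0 z').1 hz'), map_add])
    (fun z hz h => hbinj z ((ha0 z).1 hz) (by
      have h' : τ.symm (b z) = 0 := h
      exact (map_eq_zero_iff τ.symm τ.symm.injective).1 h'))
    hcompat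
  exact ⟨ι.trans τ.symm, hφne, hodd, Θ, hΘinj, fun g => by
    obtain ⟨y, hy⟩ := hΘ g
    exact ⟨a g, y, hy⟩⟩

end Cfsg.Agent.Helper8
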