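import Cfsg.Prelude.Def_CaseTheorems
import Cfsg.Agent.Helper8.PRank
import Mathlib.GroupTheory.Transfer

set_option autoImplicit false

namespace Cfsg.Agent.Helper8

theorem prod_parity {A ι : Type*} [CommGroup A] (PE PF : A → Prop) (h1 : PF 1) (hE1 : PE 1)
    (hEmul : ∀ a b, PE a → PE b → PE (a * b))
    (hP : ∀ a b, PE a → PE b → (PF (a * b) ↔ (PF a ↔ PF b)))
    (f : ι → A) (k : ι → ℕ) (hf : ∀ i, PE (f i) ∧ (PF (f i) ↔ Even (k i))) (s : Finset ι) :
    PE (∏ i ∈ s, f i) ∧ (PF (∏ i ∈ s, f i) ↔ Even (∑ i ∈ s, k i)) := by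
  classical
  induction s using Finset.induction_on with
  | empty => simp [h1, hE1]
  | insert a s ha ih =>
    rw [Finset.prod_insert ha, Finset.sum_insert ha]
    refine ⟨hEmul _ _ (hf a).1 ih.1, ?_⟩
    rw [hP _ _ (hf a).1 ih.1, (hf a).2, ih.2, Nat.even_add]

theorem comm_of_mem_comm {G : Type*} [Group G] {S : Subgroup G} (hS : IsMulCommutative S)
    {a b : G} (ha : a ∈ S) (hb : b ∈ S) : a * b = b * a :=
  congrArg Subtype.val (hS.is_comm.comm ⟨a, ha⟩ ⟨b, hb⟩)

/-- `Ω₁` of a commutative subgroup, for the prime 2. -/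
def omegaTwo {G : Type*} [Group G] (S : Subgroup G) (hS : IsMulCommutative S) : Subgroup G where
  carrier := {s | s ∈ S ∧ s ^ 2 = 1}
  mul_mem' := by
    rintro a b ⟨ha, ha2⟩ ⟨hb, hb2⟩
    refine ⟨S.mul_mem ha hb, ?_⟩
    have hc : Commute a b := comm_of_mem_comm hS ha hb
    rw [hc.mul_pow, ha2, hb2, one_mul]
  one_mem' := ⟨S.one_mem, one_pow 2⟩
  inv_mem' := by
    rintro a ⟨ha, ha2⟩
    exact ⟨S.inv_mem ha, by rw [inv_pow, ha2, inv_one]⟩

open scoped IsMulCommutative in
theorem thompson_corank_one {G : Type*} [Group G] [Finite G]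
    (hG : ∀ H : Subgroup G, H.index ≠ 2)
    (S : Sylow 2 G) (hS : IsMulCommutative (S : Subgroup G)) (r : ℕ) (hr1 : 1 ≤ r)
    (hSr : Cfsg.PRankLE 2 r (S : Subgroup G) ∧ ¬ Cfsg.PRankLE 2 (r - 1) (S : Subgroup G))
    (R : Subgroup G) (hRS : R ≤ S)
    (hRr : Cfsg.PRankLE 2 (r - 1) R ∧ (r = 1 ∨ ¬ Cfsg.PRankLE 2 (r - 2) R))
    (t : G) (ht : orderOf t = 2) (htS : t ∈ S) :
    ∃ n ∈ Subgroup.normalizer ((S : Subgroup G) : Set G), n * t * n⁻¹ ∈ R := by
  classical
  haveI : Fact (Nat.Prime 2) := ⟨Nat.prime_two⟩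
  by_contra hcon
  push_neg at hcon
  have ht2 : t ^ 2 = 1 := by rw [← ht, pow_orderOf_eq_one]
  have htt : t * t = 1 := by rw [← pow_two, ht2]
  set E : Subgroup G := omegaTwo (S : Subgroup G) hS with hE
  have hES : E ≤ S := fun x hx => hx.1
  have hEc : IsMulCommutative E :=
    ⟨⟨fun a b => Subtype.ext (comm_of_mem_comm hS a.2.1 b.2.1)⟩⟩
  have hEexp : ∀ a ∈ E, a ^ 2 = 1 := fun a ha => ha.2
  have hS2 : IsPGroup 2 (S : Subgroup G) := S.isPGroup'
  -- card E
  obtain ⟨n, hn⟩ := (IsPGroup.iff_card (p := 2)).mp (hS2.to_le hES)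
  have hn_le : n ≤ r := by
    by_contra h
    have h' : r < n := not_le.mp h
    exact ((not_prankLE_iff (S : Subgroup G)).mpr
      ⟨E, hES, hEc, hEexp, by rw [hn]; exact Nat.pow_lt_pow_right (by norm_num) h'⟩) hSr.1
  have hn_gt : r - 1 < n := by
    obtain ⟨A, hAS, hAc, hAe, hAcard⟩ := (not_prankLE_iff (S : Subgroup G)).mp hSr.2
    have hAE : A ≤ E := fun a ha => ⟨hAS ha, hAe a ha⟩
    have := Subgroup.card_le_of_le hAE
    rw [hn] at this
    exact (Nat.pow_lt_pow_iff_right (by norm_num)).mp (lt_of_lt_of_le hAcard this)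
  have hnr : n = r := by omega
  -- card F
  set F : Subgroup G := E ⊓ R with hF
  have hFE : F ≤ E := inf_le_left
  have hFR : F ≤ R := inf_le_right
  have hFc : IsMulCommutative F :=
    ⟨⟨fun a b => Subtype.ext (comm_of_mem_comm hS (hES (hFE a.2)) (hES (hFE b.2)))⟩⟩
  obtain ⟨m, hm⟩ := (IsPGroup.iff_card (p := 2)).mp (hS2.to_le (hFE.trans hES))
  have hm_le : m ≤ r - 1 := by
    by_contra h
    have h' : r - 1 < m := not_le.mp h
    exact ((not_prankLE_iff R).mpr
      ⟨F, hFR, hFc, fun a ha => hEexp a (hFE ha),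
        by rw [hm]; exact Nat.pow_lt_pow_right (by norm_num) h'⟩) hRr.1
  have hm_ge : r = 1 ∨ r - 2 < m := by
    rcases hRr.2 with h | h
    · exact Or.inl h
    · right
      obtain ⟨B, hBR, hBc, hBe, hBcard⟩ := (not_prankLE_iff R).mp h
      have hBF : B ≤ F := fun b hb => ⟨⟨hRS (hBR hb), hBe b hb⟩, hBR hb⟩
      have := Subgroup.card_le_of_le hBF
      rw [hm] at this
      exact (Nat.pow_lt_pow_iff_right (by norm_num)).mp (lt_of_lt_of_le hBcard this)
  have hmr : m = r - 1 := by omega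
  -- index 2
  have hidx : (F.subgroupOf E).index = 2 := by
    have h1 := Subgroup.card_mul_index (F.subgroupOf E)
    have h2 : Nat.card (F.subgroupOf E) = Nat.card F :=
      Nat.card_congr (Subgroup.subgroupOfEquivOfLe hFE).toEquiv
    rw [h2, hm, hn, hnr, hmr] at h1
    have h3 : 2 ^ r = 2 ^ (r - 1) * 2 := by
      rw [← pow_succ]; congr 1; omega
    rw [h3] at h1
    exact Nat.eq_of_mul_eq_mul_left (by positivity) h1
  have hP : ∀ a b : G, a ∈ E → b ∈ E → (a * b ∈ F ↔ (a ∈ F ↔ b ∈ F)) := by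
    intro a b ha hb
    have := Subgroup.mul_mem_iff_of_index_two hidx (a := ⟨a, ha⟩) (b := ⟨b, hb⟩)
    simpa [Subgroup.mem_subgroupOf] using this
  -- transfer
  have hVt : MonoidHom.transfer (MonoidHom.id ↥(S : Subgroup G)) t ≠ 1 := by
    have : Fintype (Quotient (MulAction.orbitRel (Subgroup.zpowers t) (G ⧸ (S : Subgroup G)))) :=
      Fintype.ofFinite _
    intro hV1
    have hf : ∀ q : Quotient (MulAction.orbitRel (Subgroup.zpowers t) (G ⧸ (S : Subgroup G))),
        (q.out.out⁻¹ * t ^ Function.minimalPeriod (t • ·) q.out * q.out.out ∈ E) ∧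
        (q.out.out⁻¹ * t ^ Function.minimalPeriod (t • ·) q.out * q.out.out ∈ F ↔
          Even (Function.minimalPeriod (t • ·) q.out)) := by
      intro q
      have hmem := QuotientGroup.out_conj_pow_minimalPeriod_mem (S : Subgroup G) t q.out
      have hdvd : Function.minimalPeriod (t • ·) q.out ∣ 2 := by
        apply Function.IsPeriodicPt.minimalPeriod_dvd
        show (fun y : G ⧸ (S : Subgroup G) => t • y)^[2] q.out = q.out
        simp [Function.iterate_succ, smul_smul, htt]
      rcases (Nat.dvd_prime Nat.prime_two).mp hdvd with hk | hk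
      · rw [hk] at hmem ⊢
        rw [pow_one] at hmem ⊢
        obtain ⟨n, hnN, hn⟩ := Sylow.conj_eq_normalizer_conj_of_mem S t q.out.out htS hmem
        have hmem' := hmem
        rw [hn] at hmem' ⊢
        have hnot : n⁻¹ * t * n ∉ R := by
          have := hcon n⁻¹ (Subgroup.inv_mem _ hnN)
          rwa [inv_inv] at this
        have hinE : n⁻¹ * t * n ∈ E := by
          refine ⟨hmem', ?_⟩
          rw [pow_two]
          calc n⁻¹ * t * n * (n⁻¹ * t * n) = n⁻¹ * (t * t) * n := by group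
            _ = 1 := by rw [htt]; group
        refine ⟨hinE, ?_⟩
        constructor
        · intro h; exact absurd h.2 hnot
        · intro h; exact absurd h Nat.not_even_one
      · rw [hk, ht2]
        have : q.out.out⁻¹ * 1 * q.out.out = 1 := by group
        rw [this]
        exact ⟨E.one_mem, iff_of_true F.one_mem even_two⟩
    have h2 := (prod_parity (A := ↥(S : Subgroup G)) (fun s => (s : G) ∈ E) (fun s => (s : G) ∈ F)
      F.one_mem E.one_mem (fun a b ha hb => E.mul_mem ha hb) (fun a b ha hb => hP a b ha hb)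
      (fun q : Quotient (MulAction.orbitRel (Subgroup.zpowers t) (G ⧸ (S : Subgroup G))) =>
        (⟨q.out.out⁻¹ * t ^ Function.minimalPeriod (t • ·) q.out * q.out.out,
            QuotientGroup.out_conj_pow_minimalPeriod_mem (S : Subgroup G) t q.out⟩ :
              ↥(S : Subgroup G)))
      (fun q => Function.minimalPeriod (t • ·) q.out) hf Finset.univ).2
    have h3 := Subgroup.index_eq_sum_minimalPeriod (S : Subgroup G) t
    have h4 : Even (S : Subgroup G).index := by
      rw [h3]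
      refine h2.mp ?_
      have h1 := MonoidHom.transfer_eq_prod_quotient_orbitRel_zpowers_quot
        (MonoidHom.id ↥(S : Subgroup G)) t
      simp only [MonoidHom.id_apply] at h1
      show ((∏ q : Quotient (MulAction.orbitRel (Subgroup.zpowers t) (G ⧸ (S : Subgroup G))),
          (⟨q.out.out⁻¹ * t ^ Function.minimalPeriod (t • ·) q.out * q.out.out,
            QuotientGroup.out_conj_pow_minimalPeriod_mem (S : Subgroup G) t q.out⟩ :
              ↥(S : Subgroup G)) : ↥(S : Subgroup G)) : G) ∈ F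
      rw [← h1, hV1]
      exact F.one_mem
    exact S.not_dvd_index (even_iff_two_dvd.mp h4)
  -- a subgroup of index two
  set V : G →* ↥(S : Subgroup G) := MonoidHom.transfer (MonoidHom.id ↥(S : Subgroup G)) with hV
  have hR2 : IsPGroup 2 ↥V.range := hS2.to_subgroup V.range
  obtain ⟨c, hc⟩ := (IsPGroup.iff_card (p := 2)).mp hR2
  have hc1 : 1 ≤ c := by
    by_contra h
    have h0 : c = 0 := by omega
    rw [h0, pow_zero] at hc
    have hbot := Subgroup.eq_bot_of_card_eq _ hc
    have hmem : V t ∈ V.range := ⟨t, rfl⟩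
    rw [hbot, Subgroup.mem_bot] at hmem
    exact hVt hmem
  obtain ⟨K, hK⟩ := Sylow.exists_subgroup_card_pow_prime (G := ↥V.range) 2 (n := c - 1)
    (by rw [hc]; exact pow_dvd_pow 2 (by omega))
  have hKidx : K.index = 2 := by
    have h1 := Subgroup.card_mul_index K
    rw [hK, hc] at h1
    have h3 : 2 ^ c = 2 ^ (c - 1) * 2 := by
      rw [← pow_succ]; congr 1; omega
    rw [h3] at h1
    exact Nat.eq_of_mul_eq_mul_left (by positivity) h1
  exact hG (K.comap V.rangeRestrict)
    (by rw [Subgroup.index_comap_of_surjective _ V.rangeRestrict_surjective]; exact hKidx)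

end Cfsg.Agent.Helper8
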