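import Mathlib

set_option autoImplicit false

namespace Cfsg.Agent.Helper8

/-- data of a wreathed 2-group `S = (⟨x⟩ × ⟨y⟩) ⋊ ⟨t⟩` inside a group `X` -/
structure WrData {X : Type*} [Group X] (S : Subgroup X) (x y t : X) (n : ℕ) : Prop where
  hn : 2 ≤ n
  hxS : x ∈ S
  hyS : y ∈ S
  htS : t ∈ S
  hx : orderOf x = 2 ^ n
  hxy : x * y = y * x
  hdisj : ∀ i j : ℤ, x ^ i = y ^ j → x ^ i = 1
  htt : t * t = 1
  htx : t * x = y * t
  hform : ∀ s ∈ S, ∃ i j : ℤ, s = x ^ i * y ^ j ∨ s = x ^ i * y ^ j * t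

/-- the involution of `⟨x⟩` -/
def wrC {X : Type*} [Group X] (x : X) (n : ℕ) : X := x ^ ((2 : ℤ) ^ (n - 1))

namespace WrData

variable {X : Type*} [Group X] {S : Subgroup X} {x y t : X} {n : ℕ} (D : WrData S x y t n)
include D

theorem tinv : t⁻¹ = t := inv_eq_of_mul_eq_one_right D.htt

theorem ty : t * y = x * t := by
  have h1 : y = t * x * t := by
    calc y = y * (t * t) := by rw [D.htt, mul_one]
      _ = (y * t) * t := by rw [mul_assoc]
      _ = t * x * t := by rw [← D.htx]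
  calc t * y = t * (t * x * t) := by rw [← h1]
    _ = (t * t) * x * t := by group
    _ = x * t := by rw [D.htt, one_mul]

theorem txi (i : ℤ) : t * x ^ i = y ^ i * t :=
  (SemiconjBy.zpow_right (show SemiconjBy t x y from D.htx) i).eq

theorem tyi (i : ℤ) : t * y ^ i = x ^ i * t :=
  (SemiconjBy.zpow_right (show SemiconjBy t y x from D.ty) i).eq

theorem comm (i j : ℤ) : x ^ i * y ^ j = y ^ j * x ^ i :=
  ((show Commute x y from D.hxy).zpow_zpow i j).eq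

theorem amul (i j k l : ℤ) : x ^ i * y ^ j * (x ^ k * y ^ l) = x ^ (i + k) * y ^ (j + l) := by
  rw [zpow_add, zpow_add]
  calc x ^ i * y ^ j * (x ^ k * y ^ l) = x ^ i * (y ^ j * x ^ k) * y ^ l := by group
    _ = x ^ i * (x ^ k * y ^ j) * y ^ l := by rw [D.comm k j]
    _ = x ^ i * x ^ k * (y ^ j * y ^ l) := by group

theorem acomm (i j k l : ℤ) : x ^ i * y ^ j * (x ^ k * y ^ l) = x ^ k * y ^ l * (x ^ i * y ^ j) := by
  rw [D.amul, D.amul, add_comm i k, add_comm j l]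

theorem ta (i j : ℤ) : t * (x ^ i * y ^ j) = x ^ j * y ^ i * t := by
  calc t * (x ^ i * y ^ j) = (t * x ^ i) * y ^ j := by rw [mul_assoc]
    _ = y ^ i * (t * y ^ j) := by rw [D.txi, mul_assoc]
    _ = y ^ i * x ^ j * t := by rw [D.tyi, mul_assoc]
    _ = x ^ j * y ^ i * t := by rw [D.comm j i]

theorem conj_a (k l : ℤ) : t * (x ^ k * y ^ l) * t = x ^ l * y ^ k := by
  rw [D.ta, mul_assoc, D.htt, mul_one]

theorem ainv (i j : ℤ) : (x ^ i * y ^ j)⁻¹ = x ^ (-i) * y ^ (-j) := by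
  rw [mul_inv_rev, ← zpow_neg, ← zpow_neg, D.comm]

theorem yi_one (i : ℤ) : y ^ i = 1 ↔ x ^ i = 1 := by
  have h := D.txi i
  constructor
  · intro hy
    rw [hy, one_mul] at h
    exact mul_left_cancel (h.trans (mul_one t).symm)
  · intro hx
    rw [hx, mul_one] at h
    have h2 : y ^ i * t = 1 * t := by rw [one_mul]; exact h.symm
    exact mul_right_cancel h2

theorem a_one (i j : ℤ) (h : x ^ i * y ^ j = 1) : x ^ i = 1 ∧ y ^ j = 1 := by
  have h1 : x ^ i = y ^ (-j) := by rw [zpow_neg]; exact eq_inv_of_mul_eq_one_left h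
  have h2 := D.hdisj i (-j) h1
  refine ⟨h2, ?_⟩
  rw [h2, one_mul] at h
  exact h

theorem a_eq (i j k l : ℤ) (h : x ^ i * y ^ j = x ^ k * y ^ l) :
    x ^ i = x ^ k ∧ y ^ j = y ^ l := by
  have h1 : x ^ (i - k) * y ^ (j - l) = 1 := by
    have h2 := D.amul i j (-k) (-l)
    rw [← sub_eq_add_neg, ← sub_eq_add_neg] at h2
    rw [← h2, ← D.ainv, h, mul_inv_cancel]
  obtain ⟨h2, h3⟩ := D.a_one _ _ h1
  rw [zpow_sub, mul_inv_eq_one] at h2 h3
  exact ⟨h2, h3⟩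

theorem x_ne_one : x ≠ 1 := by
  intro h
  have h1 := D.hx
  rw [h, orderOf_one] at h1
  have h2 : 2 ^ 2 ≤ 2 ^ n := Nat.pow_le_pow_right (by norm_num) D.hn
  omega

theorem a_ne_at (i j k l : ℤ) : x ^ i * y ^ j ≠ x ^ k * y ^ l * t := by
  intro h
  have ht : t = x ^ (i - k) * y ^ (j - l) := by
    have h2 := D.amul (-k) (-l) i j
    rw [← D.ainv, h] at h2
    have e1 : -k + i = i - k := by ring
    have e2 : -l + j = j - l := by ring
    rw [e1, e2] at h2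
    rw [← h2]; group
  have h1 : t * x = x * t := by
    have h3 : x = x ^ (1 : ℤ) * y ^ (0 : ℤ) := by simp
    rw [ht]
    nth_rewrite 2 [h3]
    nth_rewrite 3 [h3]
    exact D.acomm _ _ _ _
  have h2 : y = x := mul_right_cancel (D.htx.symm.trans h1)
  have h3 := D.hdisj 1 1 (by rw [zpow_one, zpow_one, h2])
  rw [zpow_one] at h3
  exact D.x_ne_one h3

theorem c_sq : wrC x n * wrC x n = 1 := by
  unfold wrC
  rw [← zpow_add]
  have hn := D.hn
  obtain ⟨m, rfl⟩ : ∃ m, n = m + 1 := ⟨n - 1, by omega⟩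
  have h1 : ((2 : ℤ) ^ (m + 1 - 1) + 2 ^ (m + 1 - 1)) = ((2 ^ (m + 1) : ℕ) : ℤ) := by
    simp only [Nat.add_sub_cancel]
    push_cast
    ring
  rw [h1, zpow_natCast, ← D.hx, pow_orderOf_eq_one]

theorem c_ne : wrC x n ≠ 1 := by
  unfold wrC
  intro h
  have h1 := (orderOf_dvd_iff_zpow_eq_one).2 h
  rw [D.hx] at h1
  have h2 : ((2 ^ n : ℕ) : ℤ) ≤ 2 ^ (n - 1) := Int.le_of_dvd (by positivity) h1
  have hn := D.hn
  obtain ⟨m, rfl⟩ : ∃ m, n = m + 1 := ⟨n - 1, by omega⟩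
  simp only [Nat.add_sub_cancel] at h2
  push_cast at h2
  have h3 : (0 : ℤ) < 2 ^ m := by positivity
  rw [pow_succ] at h2
  linarith

theorem sq (i : ℤ) (h : x ^ i * x ^ i = 1) : x ^ i = 1 ∨ x ^ i = wrC x n := by
  have hcsq := D.c_sq
  rw [← zpow_add] at h
  have h1 := (orderOf_dvd_iff_zpow_eq_one).2 h
  rw [D.hx] at h1
  have hn := D.hn
  obtain ⟨m, rfl⟩ : ∃ m, n = m + 1 := ⟨n - 1, by omega⟩
  have h2 : (2 : ℤ) ^ m ∣ i := by
    obtain ⟨q, hq⟩ := h1
    refine ⟨q, ?_⟩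
    push_cast at hq
    rw [pow_succ] at hq
    have h3 : 2 * i = 2 * (2 ^ m * q) := by rw [← two_mul] at hq; rw [hq]; ring
    exact mul_left_cancel₀ (by norm_num) h3
  obtain ⟨q, rfl⟩ := h2
  have hc : wrC x (m + 1) = x ^ ((2 : ℤ) ^ m) := by unfold wrC; simp
  rw [hc] at hcsq ⊢
  rw [zpow_mul]
  rcases Int.even_or_odd' q with ⟨r, rfl | rfl⟩
  · left; rw [zpow_mul, zpow_two, hcsq, one_zpow]
  · right; rw [zpow_add, zpow_mul, zpow_two, hcsq, one_zpow, one_mul, zpow_one]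

theorem tc : t * wrC x n = wrC y n * t := D.txi _

theorem c'_sq : wrC y n * wrC y n = 1 := by
  have h := D.c_sq
  unfold wrC at h ⊢
  rw [← zpow_add] at h ⊢
  exact (D.yi_one _).2 h

theorem c_ne_c' : wrC x n ≠ wrC y n := by
  intro h
  exact D.c_ne (D.hdisj _ _ h)

theorem c'_ne : wrC y n ≠ 1 := by
  intro h
  exact D.c_ne ((D.yi_one _).1 h)

theorem ysq (i : ℤ) (h : y ^ i * y ^ i = 1) : y ^ i = 1 ∨ y ^ i = wrC y n := by
  rw [← zpow_add] at h
  have h1 : x ^ i * x ^ i = 1 := by rw [← zpow_add]; exact (D.yi_one _).1 h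
  rcases D.sq i h1 with h2 | h2
  · left; exact (D.yi_one i).2 h2
  · right
    have h3 := D.txi i
    rw [h2, D.tc] at h3
    exact (mul_right_cancel h3).symm

theorem cS : wrC x n ∈ S := S.zpow_mem D.hxS _

theorem c'S : wrC y n ∈ S := S.zpow_mem D.hyS _

/-- classification of the elements of `S` of order at most two -/
theorem inv_class (τ : X) (hτ : τ ∈ S) (h2 : τ * τ = 1) :
    τ = 1 ∨ τ = wrC x n ∨ τ = wrC y n ∨ τ = wrC x n * wrC y n ∨
      ∃ f : ℤ, τ = x ^ f * t * x ^ (-f) := by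
  obtain ⟨j, l, rfl | rfl⟩ := D.hform τ hτ
  · rw [D.amul] at h2
    obtain ⟨h3, h4⟩ := D.a_one _ _ h2
    rw [zpow_add] at h3 h4
    rcases D.sq j h3 with h5 | h5 <;> rcases D.ysq l h4 with h6 | h6
    · left; rw [h5, h6, one_mul]
    · right; right; left; rw [h5, h6, one_mul]
    · right; left; rw [h5, h6, mul_one]
    · right; right; right; left; rw [h5, h6]
  · right; right; right; right
    have h3 : x ^ j * y ^ l * t * (x ^ j * y ^ l * t) = x ^ (j + l) * y ^ (l + j) := by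
      calc x ^ j * y ^ l * t * (x ^ j * y ^ l * t)
          = x ^ j * y ^ l * (t * (x ^ j * y ^ l)) * t := by group
        _ = x ^ j * y ^ l * (x ^ l * y ^ j * t) * t := by rw [D.ta]
        _ = x ^ j * y ^ l * (x ^ l * y ^ j) * (t * t) := by group
        _ = x ^ (j + l) * y ^ (l + j) := by rw [D.htt, mul_one, D.amul]
    rw [h3] at h2
    obtain ⟨-, h4⟩ := D.a_one _ _ h2
    have h5 : y ^ l = y ^ (-j) := by
      rw [zpow_add] at h4
      rw [zpow_neg]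
      exact eq_inv_of_mul_eq_one_left h4
    refine ⟨j, ?_⟩
    rw [h5, mul_assoc, mul_assoc, D.txi]

theorem anti (k l : ℤ) :
    (x ^ k * y ^ l)⁻¹ * (x ^ l * y ^ k) = x ^ (l - k) * y ^ (-(l - k)) := by
  rw [D.ainv, D.amul]
  have e1 : -k + l = l - k := by ring
  have e2 : -l + k = -(l - k) := by ring
  rw [e1, e2]

/-- commutators of `S` lie in the antidiagonal -/
theorem comm_form (w s : X) (hw : w ∈ S) (hs : s ∈ S) :
    ∃ e : ℤ, w⁻¹ * s * w * s⁻¹ = x ^ e * y ^ (-e) := by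
  obtain ⟨k, l, rfl | rfl⟩ := D.hform w hw <;> obtain ⟨p, q, rfl | rfl⟩ := D.hform s hs
  · refine ⟨0, ?_⟩
    have hc := D.acomm p q k l
    calc (x ^ k * y ^ l)⁻¹ * (x ^ p * y ^ q) * (x ^ k * y ^ l) * (x ^ p * y ^ q)⁻¹
        = (x ^ k * y ^ l)⁻¹ * (x ^ p * y ^ q * (x ^ k * y ^ l)) * (x ^ p * y ^ q)⁻¹ := by group
      _ = 1 := by rw [hc]; group
      _ = x ^ (0 : ℤ) * y ^ (-(0 : ℤ)) := by simp
  · refine ⟨l - k, ?_⟩
    have h1 : t * (x ^ k * y ^ l) * t = x ^ l * y ^ k := D.conj_a k l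
    have hc := D.acomm p q l k
    calc (x ^ k * y ^ l)⁻¹ * (x ^ p * y ^ q * t) * (x ^ k * y ^ l) * (x ^ p * y ^ q * t)⁻¹
        = (x ^ k * y ^ l)⁻¹ * (x ^ p * y ^ q * (t * (x ^ k * y ^ l) * t⁻¹)) * (x ^ p * y ^ q)⁻¹ := by
          group
      _ = (x ^ k * y ^ l)⁻¹ * (x ^ p * y ^ q * (x ^ l * y ^ k)) * (x ^ p * y ^ q)⁻¹ := by
          rw [D.tinv, h1]
      _ = (x ^ k * y ^ l)⁻¹ * (x ^ l * y ^ k) := by rw [hc]; group
      _ = x ^ (l - k) * y ^ (-(l - k)) := D.anti k l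
  · refine ⟨q - p, ?_⟩
    have hc := D.acomm p q k l
    have h1 : t * (x ^ p * y ^ q) * t = x ^ q * y ^ p := D.conj_a p q
    have hc2 : x ^ q * y ^ p * (x ^ p * y ^ q)⁻¹ = (x ^ p * y ^ q)⁻¹ * (x ^ q * y ^ p) := by
      rw [D.ainv]; exact D.acomm _ _ _ _
    calc (x ^ k * y ^ l * t)⁻¹ * (x ^ p * y ^ q) * (x ^ k * y ^ l * t) * (x ^ p * y ^ q)⁻¹
        = t⁻¹ * ((x ^ k * y ^ l)⁻¹ * (x ^ p * y ^ q * (x ^ k * y ^ l))) * t * (x ^ p * y ^ q)⁻¹ := by
          group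
      _ = t⁻¹ * ((x ^ k * y ^ l)⁻¹ * (x ^ k * y ^ l * (x ^ p * y ^ q))) * t * (x ^ p * y ^ q)⁻¹ := by
          rw [hc]
      _ = (t * (x ^ p * y ^ q) * t) * (x ^ p * y ^ q)⁻¹ := by rw [D.tinv]; group
      _ = (x ^ p * y ^ q)⁻¹ * (x ^ q * y ^ p) := by rw [h1, hc2]
      _ = x ^ (q - p) * y ^ (-(q - p)) := D.anti p q
  · -- d = a⁻¹ b = a(p - k, q - l)
    refine ⟨(q - l) - (p - k), ?_⟩
    have hd : (x ^ k * y ^ l)⁻¹ * (x ^ p * y ^ q) = x ^ (p - k) * y ^ (q - l) := by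
      rw [D.ainv, D.amul]
      have e1 : -k + p = p - k := by ring
      have e2 : -l + q = q - l := by ring
      rw [e1, e2]
    have hd' : (x ^ k * y ^ l) * (x ^ p * y ^ q)⁻¹ = (x ^ (p - k) * y ^ (q - l))⁻¹ := by
      rw [D.ainv, D.ainv, D.amul]
      have e1 : k + -p = -(p - k) := by ring
      have e2 : l + -q = -(q - l) := by ring
      rw [e1, e2]
    have h1 : t * (x ^ (p - k) * y ^ (q - l)) * t = x ^ (q - l) * y ^ (p - k) := D.conj_a _ _
    have hc2 : x ^ (q - l) * y ^ (p - k) * (x ^ (p - k) * y ^ (q - l))⁻¹ =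
        (x ^ (p - k) * y ^ (q - l))⁻¹ * (x ^ (q - l) * y ^ (p - k)) := by
      rw [D.ainv]; exact D.acomm _ _ _ _
    calc (x ^ k * y ^ l * t)⁻¹ * (x ^ p * y ^ q * t) * (x ^ k * y ^ l * t) * (x ^ p * y ^ q * t)⁻¹
        = t⁻¹ * ((x ^ k * y ^ l)⁻¹ * (x ^ p * y ^ q)) * t * ((x ^ k * y ^ l) * (x ^ p * y ^ q)⁻¹) := by
          group
      _ = (t * (x ^ (p - k) * y ^ (q - l)) * t) * (x ^ (p - k) * y ^ (q - l))⁻¹ := by
          rw [hd, hd', D.tinv]
      _ = (x ^ (p - k) * y ^ (q - l))⁻¹ * (x ^ (q - l) * y ^ (p - k)) := by rw [h1, hc2]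
      _ = x ^ ((q - l) - (p - k)) * y ^ (-((q - l) - (p - k))) := D.anti _ _

/-- if `w` and `w τ` are `S`-conjugate with `τ² = 1` then `τ` is `1` or the central involution -/
theorem comm_inv (w s τ : X) (hw : w ∈ S) (hs : s ∈ S) (h : s * w * s⁻¹ = w * τ)
    (hτ : τ * τ = 1) : τ = 1 ∨ τ = wrC x n * wrC y n := by
  obtain ⟨e, he⟩ := D.comm_form w s hw hs
  have h1 : τ = x ^ e * y ^ (-e) := by
    rw [← he]
    calc τ = w⁻¹ * (w * τ) := by group
      _ = w⁻¹ * (s * w * s⁻¹) := by rw [h]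
      _ = w⁻¹ * s * w * s⁻¹ := by group
  rw [h1] at hτ ⊢
  rw [D.amul] at hτ
  obtain ⟨h3, h4⟩ := D.a_one _ _ hτ
  rw [zpow_add] at h3 h4
  rcases D.sq e h3 with h5 | h5
  · left
    have h6 : y ^ (-e) = 1 := by
      rw [zpow_neg, inv_eq_one]; exact (D.yi_one e).2 h5
    rw [h5, h6, one_mul]
  · right
    have h6 : y ^ e = wrC y n := by
      have h7 := D.txi e
      rw [h5, D.tc] at h7
      exact (mul_right_cancel h7).symm
    have h8 : y ^ (-e) = wrC y n := by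
      rw [zpow_neg, h6]
      exact inv_eq_of_mul_eq_one_right D.c'_sq
    rw [h5, h8]

theorem diag_central (i : ℤ) (s : X) (hs : s ∈ S) :
    s * (x ^ i * y ^ i) = x ^ i * y ^ i * s := by
  obtain ⟨p, q, rfl | rfl⟩ := D.hform s hs
  · exact D.acomm _ _ _ _
  · calc x ^ p * y ^ q * t * (x ^ i * y ^ i) = x ^ p * y ^ q * (t * (x ^ i * y ^ i)) := by group
      _ = x ^ p * y ^ q * (x ^ i * y ^ i * t) := by rw [D.ta]
      _ = (x ^ p * y ^ q * (x ^ i * y ^ i)) * t := by group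
      _ = (x ^ i * y ^ i * (x ^ p * y ^ q)) * t := by rw [D.acomm]
      _ = x ^ i * y ^ i * (x ^ p * y ^ q * t) := by group

theorem central_form (w : X) (hw : w ∈ S) (hc : ∀ s ∈ S, s * w = w * s) :
    ∃ i : ℤ, w = x ^ i * y ^ i := by
  obtain ⟨p, q, rfl | rfl⟩ := D.hform w hw
  · have h1 := hc t D.htS
    rw [D.ta] at h1
    have h2 := mul_right_cancel h1
    obtain ⟨-, h3⟩ := D.a_eq _ _ _ _ h2
    exact ⟨p, by rw [h3]⟩
  · exfalso
    have h1 := hc x D.hxS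
    have h2 : x * (x ^ p * y ^ q * t) = x ^ (1 + p) * y ^ q * t := by
      rw [zpow_add, zpow_one]; group
    have h3 : x ^ p * y ^ q * t * x = x ^ p * y ^ (q + 1) * t := by
      rw [mul_assoc, D.htx, zpow_add, zpow_one]; group
    rw [h2, h3] at h1
    have h4 := mul_right_cancel h1
    obtain ⟨h5, -⟩ := D.a_eq _ _ _ _ h4
    rw [zpow_add, zpow_one] at h5
    exact D.x_ne_one (mul_right_cancel (h5.trans (one_mul _).symm))

theorem diag_sq (i : ℤ) (h : (x ^ i * y ^ i) * (x ^ i * y ^ i) = 1) :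
    x ^ i * y ^ i = 1 ∨ x ^ i * y ^ i = wrC x n * wrC y n := by
  rw [D.amul] at h
  obtain ⟨h3, -⟩ := D.a_one _ _ h
  rw [zpow_add] at h3
  rcases D.sq i h3 with h5 | h5
  · left
    rw [h5, (D.yi_one i).2 h5, one_mul]
  · right
    have h6 : y ^ i = wrC y n := by
      have h7 := D.txi i
      rw [h5, D.tc] at h7
      exact (mul_right_cancel h7).symm
    rw [h5, h6]

theorem diag_pow (i : ℤ) (m : ℕ) : (x ^ i * y ^ i) ^ m = x ^ (i * m) * y ^ (i * m) := by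
  rw [((show Commute x y from D.hxy).zpow_zpow i i).mul_pow, ← zpow_natCast, ← zpow_natCast,
    ← zpow_mul, ← zpow_mul]

/-- elements of order dividing `2^n` commuting with an element outside `A` have
`2^(n-1)`-th power in `{1, c c'}` -/
theorem cent_pow (p q : ℤ) (w : X) (hw : w ∈ S)
    (hc : w * (x ^ p * y ^ q * t) = x ^ p * y ^ q * t * w) (ho : w ^ (2 ^ n) = 1) :
    w ^ (2 ^ (n - 1)) = 1 ∨ w ^ (2 ^ (n - 1)) = wrC x n * wrC y n := by
  have hn := D.hn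
  obtain ⟨m, rfl⟩ : ∃ m, n = m + 1 := ⟨n - 1, by omega⟩
  simp only [Nat.add_sub_cancel] at *
  have hkey : ∃ M : ℤ, w ^ (2 ^ m) = x ^ M * y ^ M := by
    obtain ⟨j, l, rfl | rfl⟩ := D.hform w hw
    · -- w ∈ A: x^l = x^j
      have h1 : x ^ j * y ^ l * (x ^ p * y ^ q * t) = x ^ (j + p) * y ^ (l + q) * t := by
        rw [← D.amul]; group
      have h2 : x ^ p * y ^ q * t * (x ^ j * y ^ l) = x ^ (p + l) * y ^ (q + j) * t := by
        rw [mul_assoc, D.ta, ← D.amul]; group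
      rw [h1, h2] at hc
      have h3 := mul_right_cancel hc
      obtain ⟨h4, -⟩ := D.a_eq _ _ _ _ h3
      have h5 : x ^ j = x ^ l := by
        rw [add_comm p l, zpow_add, zpow_add] at h4
        exact mul_right_cancel h4
      have h6 : y ^ j = y ^ l := by
        have h7 := D.txi j
        rw [h5, D.txi l] at h7
        exact (mul_right_cancel h7).symm
      refine ⟨j * (2 ^ m : ℕ), ?_⟩
      rw [← h6, D.diag_pow]
    · -- w ∉ A: w² diagonal
      have h3 : x ^ j * y ^ l * t * (x ^ j * y ^ l * t) = x ^ (j + l) * y ^ (j + l) := by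
        calc x ^ j * y ^ l * t * (x ^ j * y ^ l * t)
            = x ^ j * y ^ l * (t * (x ^ j * y ^ l)) * t := by group
          _ = x ^ j * y ^ l * (x ^ l * y ^ j * t) * t := by rw [D.ta]
          _ = x ^ j * y ^ l * (x ^ l * y ^ j) * (t * t) := by group
          _ = x ^ (j + l) * y ^ (j + l) := by rw [D.htt, mul_one, D.amul, add_comm l j]
      obtain ⟨r, rfl⟩ : ∃ r, m = r + 1 := ⟨m - 1, by omega⟩
      refine ⟨(j + l) * (2 ^ r : ℕ), ?_⟩
      rw [pow_succ 2 r, mul_comm (2 ^ r) 2, pow_mul, pow_two, h3, D.diag_pow]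
  obtain ⟨M, hM⟩ := hkey
  rw [hM]
  apply D.diag_sq
  rw [← hM, ← pow_two, ← pow_mul, ← pow_succ]
  exact ho

theorem a_inv_class (j l : ℤ) (h2 : (x ^ j * y ^ l) * (x ^ j * y ^ l) = 1) :
    x ^ j * y ^ l = 1 ∨ x ^ j * y ^ l = wrC x n ∨ x ^ j * y ^ l = wrC y n ∨
      x ^ j * y ^ l = wrC x n * wrC y n := by
  rw [D.amul] at h2
  obtain ⟨h3, h4⟩ := D.a_one _ _ h2
  rw [zpow_add] at h3 h4
  rcases D.sq j h3 with h5 | h5 <;> rcases D.ysq l h4 with h6 | h6
  · left; rw [h5, h6, one_mul]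
  · right; right; left; rw [h5, h6, one_mul]
  · right; left; rw [h5, h6, mul_one]
  · right; right; right; rw [h5, h6]

theorem a_pow (j l : ℤ) (m : ℕ) : (x ^ j * y ^ l) ^ m = x ^ (j * m) * y ^ (l * m) := by
  rw [((show Commute x y from D.hxy).zpow_zpow j l).mul_pow, ← zpow_natCast, ← zpow_natCast,
    ← zpow_mul, ← zpow_mul]

omit D in
theorem wrC_eq_pow (x : X) (n : ℕ) : wrC x n = x ^ (2 ^ (n - 1)) := by
  unfold wrC
  rw [← zpow_natCast]
  push_cast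
  rfl

theorem t_ne_z : t ≠ wrC x n * wrC y n := by
  intro h
  have h1 := D.a_ne_at ((2 : ℤ) ^ (n - 1)) ((2 : ℤ) ^ (n - 1)) 0 0
  apply h1
  simp only [zpow_zero, one_mul]
  exact h.symm

theorem t_ne_one : t ≠ 1 := by
  intro h
  have h1 := D.a_ne_at 0 0 0 0
  apply h1
  simp [h]

theorem zS : wrC x n * wrC y n ∈ S := S.mul_mem D.cS D.c'S

theorem z_central (s : X) (hs : s ∈ S) :
    s * (wrC x n * wrC y n) = wrC x n * wrC y n * s := D.diag_central _ s hs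

theorem cc'_comm : wrC x n * wrC y n = wrC y n * wrC x n := D.comm _ _

theorem z_sq : (wrC x n * wrC y n) * (wrC x n * wrC y n) = 1 := by
  calc (wrC x n * wrC y n) * (wrC x n * wrC y n)
      = wrC x n * (wrC y n * wrC x n) * wrC y n := by group
    _ = wrC x n * (wrC x n * wrC y n) * wrC y n := by rw [← D.cc'_comm]
    _ = (wrC x n * wrC x n) * (wrC y n * wrC y n) := by group
    _ = 1 := by rw [D.c_sq, D.c'_sq, one_mul]

theorem z_ne_one : wrC x n * wrC y n ≠ 1 := by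
  intro h
  exact D.c_ne (D.a_one _ _ h).1

theorem c_ne_z : wrC x n ≠ wrC x n * wrC y n := by
  intro h
  apply D.c'_ne
  have h1 : wrC x n * 1 = wrC x n * wrC y n := by rw [mul_one]; exact h
  exact (mul_left_cancel h1).symm

theorem c'_ne_z : wrC y n ≠ wrC x n * wrC y n := by
  intro h
  apply D.c_ne
  have h1 : 1 * wrC y n = wrC x n * wrC y n := by rw [one_mul]; exact h
  exact (mul_right_cancel h1).symm

theorem x_pow : x ^ (2 ^ n) = 1 := by rw [← D.hx, pow_orderOf_eq_one]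

theorem y_pow : y ^ (2 ^ n) = 1 := by
  have h := D.x_pow
  rw [← zpow_natCast] at h ⊢
  exact (D.yi_one _).2 h

/-- a nontrivial diagonal 2-element has the central involution as a power -/
theorem diag_pow_z (i : ℤ) (hne : x ^ i * y ^ i ≠ 1) :
    ∀ K : ℕ, (x ^ i * y ^ i) ^ (2 ^ K) = 1 → ∃ M : ℕ, (x ^ i * y ^ i) ^ M = wrC x n * wrC y n := by
  intro K
  induction K with
  | zero => intro h; rw [pow_zero, pow_one] at h; exact absurd h hne
  | succ K ih =>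
    intro h
    by_cases h1 : (x ^ i * y ^ i) ^ (2 ^ K) = 1
    · exact ih h1
    · refine ⟨2 ^ K, ?_⟩
      have h2 := D.diag_pow i (2 ^ K)
      rw [h2] at h1 ⊢
      have h3 : (x ^ (i * ((2 ^ K : ℕ) : ℤ)) * y ^ (i * ((2 ^ K : ℕ) : ℤ))) *
          (x ^ (i * ((2 ^ K : ℕ) : ℤ)) * y ^ (i * ((2 ^ K : ℕ) : ℤ))) = 1 := by
        rw [← h2, ← pow_two, ← pow_mul, ← pow_succ]
        exact h
      rcases D.diag_sq _ h3 with h4 | h4
      · exact absurd h4 h1
      · exact h4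

end WrData

end Cfsg.Agent.Helper8
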